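import Cfsg.Agent.XG.Q
import Cfsg.Agent.ThR.Ex

/-! Large extraspecial subgroups of width four: frames, flags and the standard configurations. -/

set_option autoImplicit false
set_option linter.unusedSectionVars false

namespace CF.W4
open Cfsg Subgroup CF.Loc CF.Even CF.LX CF.J4 CF.Comp CF.Dce CF.XG
open CF.ThR (q8 b8)

/-- the codes of the intersection with the group of the base point -/
def FM0 : ℕ := 0x55555555

/-- the eight matrices at the base point `16` -/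
noncomputable def A0 (k : ℕ) : ℕ := nth 0 [
  0x80402010181412e180402010181402c180402010180412a180402010180402818040201008141261804020100814024180402010080412218040201008040201,
  0x965a3c10181412ff82423c10181402c3845a2410180412a580422410180402819648281008141269824028100814024184482010080412218040201008040201,
  0x965a3c10181412ff82423c10181402c3845a2410180412a580422410180402819648281008141269824028100814024184482010080412218040201008040201,
  0x964a3c10181412eb92423c10181402db944a2410180412b98042241018040281965828100814127d9240281008140249945820100804122d8040201008040201,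
  0x965a2c10181412ed82423c10181402c3845a3410180412b78042241018040281964838100814127b824028100814024184483010080412338040201008040201,
  0x865a2c10181412f582523c10181402d7844a3410180412b39042241018040299964838100814127b925028100814025d945830100804123f8040201008040201,
  0x865a2c10181412f582523c10181402d7844a3410180412b39042241018040299964838100814127b925028100814025d945830100804123f8040201008040201] k

/-- the eight matrices at the point `1` -/
noncomputable def A1 (k : ℕ) : ℕ := nth 0 [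
  0x8141211e080402018141201c080402018140211a0804020181402018080402018041211608040201804120140804020180402112080402018040201008040201,
  0x814121ff69a5c3018141203c2824c3018140215a48a5420181402018082442018041219669848201804120142804820180402112488402018040201008040201,
  0x814121ff69a5c3018141203c2824c3018140215a48a5420181402018082442018041219669848201804120142804820180402112488402018040201008040201,
  0xa56821fa09050f01a16020f909050f018568219b090406018060209009040601a549215f08050a01a140205808050a018549211e080402018040201008040201,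
  0x4080e13366aac301408020f02529c301c2030db709284101c203cdf64bab410103c20d7b2405810103c2cdfa678781018040e1124a8602018040201008040201,
  0x8141213f68a4c3018141205d2825c2018140217b48a543018140209909244201804121d769858201804120f529058301804021b3498403018040201008040201,
  0x8141213f68a4c3018141205d2825c2018140217b48a543018140209909244201804121d769858201804120f529058301804021b3498403018040201008040201] k

/-- the subspace at the point `1` -/
noncomputable def F1 (k : ℕ) : ℕ := nth 0 [0x300000003000000030000000300000003000000030000000300000003,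
  0x300000003000000030000000300000003000000030000000300000003, 0x300000003000000030000000300000003000000030000000300000003,
  0x333300003333, 0x3000000000030000c0000000000c0000c0000000000c0000300000000003,
  0x300000003000000030000000300000003000000030000000300000003, 0x300000003000000030000000300000003000000030000000300000003] k

/-- a third point -/
noncomputable def P2 (k : ℕ) : ℕ := nth 0 [1, 1, 15, 1, 1, 1, 3] k

/-- its subspace -/
noncomputable def F2 (k : ℕ) : ℕ := nth 0 [F1 0, F1 1, 0x9669000000000000000000000000000000000000000000000000000000009669,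
  F1 3, F1 4, F1 5, 0x600000000006000000900000000009060000000000006000090000000000009] k

/-- its matrices -/
noncomputable def A2 (k : ℕ) : ℕ := nth 0 [A1 0, A1 1,
  0x78b4d2e1070b0d0e4080102004080102d2e178b40d0e070b1020408001020408e1d2b4780e0d0b072010804002010804b478e1d20b070e0d8040201008040201,
  A1 3, A1 4, A1 5,
  0xb409d2d50b33484b3343ae2d42b44b4830f367e775b7cfccb7ba9f9b3f30cccf83f05a693c07858607b9eb5f76838685040a16a1418001028040201008040201] k

/-- the codes of the conjugates of the centre -/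
noncomputable def GM (k : ℕ) : ℕ := nth 0 [0x300000003000000030000000300000003000000030000000355555556,
  0x8000000000000008000000200040001700000200040001071000011301150116,
  0x966914431225e0080619c820a84000970169c280a4800907988021134115e996,
  0x60038435a0570074619cc11080100de6941c1c181000e0d899130004001488a,
  0x441300000000008008000000000000208000000000000020008000000050006,
  0x20000000800000000800000200000008000000200000008000000000010002,
  0x96693cc35aa5f00f6699cc33aa5500ff6969c3c3a5a50f0f999933335555fffe] k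

variable {G : Type*} [Group G]

/-- a system of width four with a frame -/
structure St (Q : G → Subgroup G) (D : Set G) (z : G) (π : G → ℕ) : Prop where
  sys : Sys Q D 4
  zD : z ∈ D
  fr : ThR.Fr (Q z) z π

variable (Q : G → Subgroup G) (D : Set G) (z : G) (π : G → ℕ)

/-- the induced matrices -/
def gN (M : ℕ) : Prop := ∃ h, Ac 8 (Q z) π h M

/-- the codes of adjacent involutions -/
def gΓ (p : ℕ) : Prop := ∃ a, Adj Q D z a ∧ π a = p

/-- the codes of the intersections -/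
def gF (p c : ℕ) : Prop := ∃ a, Adj Q D z a ∧ π a = p ∧ ∃ e ∈ Q z, e ∈ Q a ∧ π e = c

/-- the matrices induced by the adjacent extraspecial groups -/
def gA (p M : ℕ) : Prop := ∃ a, Adj Q D z a ∧ π a = p ∧ ∃ b ∈ Q a, Ac 8 (Q z) π b M

/-- the data at one point -/
structure Fg (p FM AL : ℕ) : Prop where
  Γ : gΓ Q D z π p
  F : ∀ c < 256, gF Q D z π p c ↔ FM.testBit c = true
  A : ∀ M < 2 ^ 64, gA Q D z π p M → ∃ s < 8, M = fld 64 AL s
  A' : ∀ s < 8, gA Q D z π p (fld 64 AL s)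

/-- the standard configurations -/
structure Cs (k : ℕ) (t : G) : Prop extends St Q D z π where
  adj : Adj Q D z t
  pt : π t = 16
  f0 : Fg Q D z π 16 FM0 (A0 k)
  f1 : Fg Q D z π 1 (F1 k) (A1 k)
  f2 : Fg Q D z π (P2 k) (F2 k) (A2 k)
  Γ : ∀ p < 256, gΓ Q D z π p ↔ (GM k).testBit p = true
  tr : ∀ p < 256, (GM k).testBit p = true → ∃ M, gN Q z π M ∧ vm 8 16 M = p
  e32 : ∀ {d a}, Adj Q D d a → Nat.card ↥(Q d ⊓ Q a) = 32
  o2 : 𝐎[2](𝐂₁(z)) ≤ Q z

variable {Q D z π} [Finite G] {a a' b e g h t x y : G} {p c M N X Y FM AL : ℕ}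

local notation "𝐀" => J4.Ac 8 (Q z) π

theorem p8 : 0 < 8 := by norm_num

namespace St
variable (S : St Q D z π)
include S

theorem lq : LQ (Q z) z := S.fr.toLQ

theorem co : Co 8 (Q z) (zpowers z) π := S.fr.toCo

theorem lt (hx : x ∈ Q z) : π x < 256 := S.co.lt x hx

theorem ex_ac (hx : x * z = z * x) : ∃ M < 2 ^ 64, 𝐀 x M := S.co.ex (S.lq.nor' hx) (S.fr.nz (mem_c1.2 hx))

theorem acH (a : 𝐀 x M) : x * z = z * x := mem_c1.1 (S.lq.norm_le a.1)

theorem mul (a : 𝐀 x M) (b : 𝐀 y N) : 𝐀 (x * y) (mm 8 M N) := S.co.cd.mul' a b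

theorem one : 𝐀 1 (mo 8) := S.co.cd.one'

theorem self (hx : x ∈ Q z) : 𝐀 x (mo 8) := S.co.ac_self hx

theorem uniq (a : 𝐀 x M) (b : 𝐀 x N) (h1 : M < 2 ^ 64) (h2 : N < 2 ^ 64) : M = N := S.co.uniq' a b h1 h2

theorem mem_of_ac (a : 𝐀 x (mo 8)) : x ∈ Q z := inv_mem_iff.1 (S.lq.mem_of_comm (comm_inv (S.acH a))
  fun y hy => by
    have m := norm_mem a.1 hy
    have := (S.co.eq_iff hy m).1 (by rw [a.2 y hy, vm_mo p8 (S.co.lt y hy)])
    rw [inv_inv, show x⁻¹ * y * x * y⁻¹ = y * (y⁻¹ * (x⁻¹ * y * x)) * y⁻¹ by group, S.lq.conj_mem hy this]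
    exact this)

theorem div (a : 𝐀 x M) (b : 𝐀 y M) : x⁻¹ * y ∈ Q z := S.mem_of_ac (S.co.ac_div a b)

theorem vm_inv (a : 𝐀 x M) (b : 𝐀 x⁻¹ N) (hc : c < 256) : vm 8 (vm 8 c M) N = c := by
  rw [← vm_mm p8, S.co.uniq (S.mul a b) (mul_inv_cancel x ▸ S.one) hc, vm_mo p8 hc]

theorem vm_inv' (a : 𝐀 x M) (b : 𝐀 x⁻¹ N) (hc : c < 256) : vm 8 (vm 8 c N) M = c :=
  S.vm_inv b (by rwa [inv_inv]) hc

theorem vm_surj (a : 𝐀 x M) (hc : c < 256) : ∃ d < 256, vm 8 d M = c :=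
  let ⟨_, _, b⟩ := S.ex_ac (comm_inv (S.acH a))
  ⟨_, vm_lt _ _ _, S.vm_inv' a b hc⟩

theorem q8_ac (a : 𝐀 x M) (hc : c < 256) : q8 (vm 8 c M) = q8 c := by
  obtain ⟨e, he, rfl⟩ := S.co.surj c hc
  refine zp_inj S.lq.zz S.lq.z_ne (ThR.q8_lt _) (ThR.q8_lt _) ?_
  rw [← a.2 e he, ← S.fr.sq' _ (norm_mem a.1 he), ← S.fr.conj_zp (mem_c1.2 (S.acH a)), ← S.fr.sq' e he]; group

theorem b8_ac (a : 𝐀 x M) {d : ℕ} (hc : c < 256) (hd : d < 256) : b8 (vm 8 c M) (vm 8 d M) = b8 c d := by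
  have := S.q8_ac a (Nat.xor_lt_two_pow (n := 8) hc hd)
  rw [vm_xor, ThR.q8_xor, ThR.q8_xor, S.q8_ac a hc, S.q8_ac a hd] at this
  exact xor_cancel this

/-- an element which acts by a conjugate matrix -/
theorem ac_cj (a : 𝐀 b X) (k : 𝐀 h Y) {X' : ℕ} (e : ∀ c < 256, vm 8 (vm 8 c X) Y = vm 8 (vm 8 c Y) X') :
    𝐀 (h⁻¹ * b * h) X' := by
  obtain ⟨N, -, l⟩ := S.ex_ac (comm_inv (S.acH k))
  refine S.co.congr (S.mul (S.mul l a) k) fun c hc => ?_
  rw [vm_mm p8, vm_mm p8, e _ (vm_lt _ _ _), S.vm_inv' k l hc]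

theorem adj_cj (j : Adj Q D z a) (hz : h * z = z * h) : Adj Q D z (h⁻¹ * a * h) := by
  simpa only [inv_inv] using S.sys.adj_cj' j (comm_inv hz)

theorem mem_cj (hb : b ∈ Q a) (h : G) : h⁻¹ * b * h ∈ Q (h⁻¹ * a * h) := by
  simpa only [inv_inv] using S.sys.fam h⁻¹ a b hb

theorem pΓ (j : Adj Q D z a) : π a < 256 ∧ π a ≠ 0 ∧ q8 (π a) = 0 :=
  ⟨S.lt j.aQ, fun e => (S.lq.mem_z.1 ((S.co.ker a j.aQ).1 e)).elim (S.sys.ne1 j.aD) j.ne,
    (S.fr.sq_iff j.aQ).1 (S.sys.zz j.aD)⟩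

/-- two adjacent involutions with the same code are conjugate in the extraspecial group -/
theorem same (j : Adj Q D z a) (j' : Adj Q D z a') (e : π a = π a') : ∃ x ∈ Q z, x⁻¹ * a * x = a' := by
  rcases S.fr.eq_or j.aQ j'.aQ e with rfl | rfl
  · exact ⟨1, one_mem _, by simp⟩
  · obtain ⟨x, hx, k⟩ := S.sys.exists_x j
    exact ⟨x⁻¹, inv_mem hx, by rw [inv_inv, k, S.sys.az j]⟩

theorem N_one : gN Q z π (mo 8) := ⟨1, S.one⟩

theorem N_mul (a : gN Q z π M) (b : gN Q z π N) : gN Q z π (mm 8 M N) :=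
  let ⟨_, a⟩ := a; let ⟨_, b⟩ := b; ⟨_, S.mul a b⟩

theorem N_inv (a : gN Q z π M) : ∃ N < 2 ^ 64, gN Q z π N ∧ (∀ c < 256, vm 8 (vm 8 c M) N = c) ∧
    ∀ c < 256, vm 8 (vm 8 c N) M = c :=
  let ⟨_, a⟩ := a
  let ⟨N, l, b⟩ := S.ex_ac (comm_inv (S.acH a))
  ⟨N, l, ⟨_, b⟩, fun _ => S.vm_inv a b, fun _ => S.vm_inv' a b⟩

omit S in
theorem A_N (a : gA Q D z π p M) : gN Q z π M := let ⟨_, _, _, b, _, a⟩ := a; ⟨b, a⟩

theorem Γ_lt (a : gΓ Q D z π p) : p < 256 ∧ p ≠ 0 ∧ q8 p = 0 := let ⟨_, j, e⟩ := a; e ▸ S.pΓ j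

theorem Γ_act (a : gΓ Q D z π p) (k : gN Q z π Y) : gΓ Q D z π (vm 8 p Y) :=
  let ⟨_, j, e⟩ := a; let ⟨_, k⟩ := k
  ⟨_, S.adj_cj j (S.acH k), e ▸ k.2 _ j.aQ⟩

theorem F_act (a : gF Q D z π p c) (k : gN Q z π Y) : gF Q D z π (vm 8 p Y) (vm 8 c Y) :=
  let ⟨_, j, e, _, h1, h2, e'⟩ := a; let ⟨h, k⟩ := k
  ⟨_, S.adj_cj j (S.acH k), e ▸ k.2 _ j.aQ, _, norm_mem k.1 h1, S.mem_cj h2 h, e' ▸ k.2 _ h1⟩

theorem A_act (a : gA Q D z π p X) (k : gN Q z π Y) {X' : ℕ}
    (e : ∀ c < 256, vm 8 (vm 8 c X) Y = vm 8 (vm 8 c Y) X') : gA Q D z π (vm 8 p Y) X' :=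
  let ⟨_, j, e', _, h1, h2⟩ := a; let ⟨h, k⟩ := k
  ⟨_, S.adj_cj j (S.acH k), e' ▸ k.2 _ j.aQ, _, S.mem_cj h1 h, S.ac_cj h2 k e⟩

theorem F_norm (j : Adj Q D z a) (he : e ∈ Q z) : gF Q D z π (π a) (π e) ↔ e ∈ Q a := by
  refine ⟨fun ⟨a', j', k, y, h1, h2, k'⟩ => ?_, fun l => ⟨a, j, rfl, e, he, l, rfl⟩⟩
  obtain ⟨x, hx, rfl⟩ := S.same j' j k
  have m := S.mem_cj h2 x
  have zm := (S.sys.symm j).aQ
  rcases S.fr.eq_or (norm_mem (le_normalizer hx) h1) he ((S.co.conj_self hx h1).trans k') with l | l <;> rw [l]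
  exacts [m, mul_mem m zm]

theorem A_norm (j : Adj Q D z a) (k : gA Q D z π (π a) M) : ∃ b ∈ Q a, 𝐀 b M := by
  obtain ⟨a', j', k, b, h1, h2⟩ := k
  obtain ⟨x, hx, rfl⟩ := S.same j' j k
  exact ⟨_, S.mem_cj h1 x, S.ac_cj h2 (S.self hx) fun c hc => by rw [vm_mo p8 hc, vm_mo p8 (vm_lt _ _ _)]⟩

theorem F_symm {p' : ℕ} (a : gΓ Q D z π p) (a' : gΓ Q D z π p') (k : gF Q D z π p p') : gF Q D z π p' p := by
  obtain ⟨a, j, rfl⟩ := a
  obtain ⟨a', j', rfl⟩ := a'
  rw [S.F_norm j j'.aQ] at k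
  rw [S.F_norm j' j.aQ]
  by_cases e : a' = a
  · exact e ▸ S.sys.mem j'.aD
  · exact (S.sys.symm ⟨j.aD, j'.aD, k, e⟩).aQ

variable (f : Fg Q D z π p FM AL) (j : Adj Q D z a) (e0 : π a = p)
include f j e0

theorem E_iff (he : e ∈ Q z) : e ∈ Q a ↔ FM.testBit (π e) = true := by
  rw [← S.F_norm j he, e0, f.F _ (S.lt he)]

theorem B_ac (hb : b ∈ Q a) (bz : b * z = z * b) : ∃ s < 8, 𝐀 b (fld 64 AL s) := by
  obtain ⟨M, l, k⟩ := S.ex_ac bz
  obtain ⟨s, hs, rfl⟩ := f.A M l ⟨a, j, e0, b, hb, k⟩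
  exact ⟨s, hs, k⟩

theorem B_ex {s : ℕ} (hs : s < 8) : ∃ b ∈ Q a, 𝐀 b (fld 64 AL s) := S.A_norm j (e0 ▸ f.A' s hs)

omit j e0 in
/-- transport of the data at a point -/
theorem fg_act (k : gN Q z π Y) {FM' AL' : ℕ} (hF : ∀ c < 256, FM'.testBit (vm 8 c Y) = FM.testBit c)
    (h1 : ∀ s < 8, ∃ s' < 8, mm 8 (fld 64 AL s) Y = mm 8 Y (fld 64 AL' s'))
    (h2 : ∀ s' < 8, ∃ s < 8, mm 8 (fld 64 AL s) Y = mm 8 Y (fld 64 AL' s')) : Fg Q D z π (vm 8 p Y) FM' AL' := by
  obtain ⟨N, -, n1, n2, n3⟩ := S.N_inv k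
  have pl := (S.Γ_lt f.Γ).1
  refine ⟨S.Γ_act f.Γ k, fun c hc => ⟨fun l => ?_, fun l => ?_⟩, fun M hM l => ?_, fun s' hs' => ?_⟩
  · have := S.F_act l n1
    rwa [n2 p pl, f.F _ (vm_lt _ _ _), ← hF _ (vm_lt _ _ _), n3 c hc] at this
  · rw [← n3 c hc, hF _ (vm_lt _ _ _), ← f.F _ (vm_lt _ _ _)] at l
    exact n3 c hc ▸ S.F_act l k
  · have := S.A_act l n1 (X' := mm 8 (mm 8 Y M) N) fun c hc => by rw [vm_mm p8, vm_mm p8, n3 c hc]
    rw [n2 p pl] at this
    obtain ⟨s, hs, e⟩ := f.A _ (mm_lt p8 _ _) this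
    obtain ⟨s', hs', e'⟩ := h1 s hs
    refine ⟨s', hs', mat_ext p8 hM (fld_lt _ _ _) fun c hc => ?_⟩
    obtain ⟨d, rfl⟩ : ∃ d, vm 8 d Y = c := ⟨_, n3 c hc⟩
    rw [← vm_mm p8 d Y (fld _ _ _), ← e', ← e, vm_mm p8, vm_mm p8, vm_mm p8, n3 _ (vm_lt _ _ _)]
  · obtain ⟨s, hs, e⟩ := h2 s' hs'
    exact S.A_act (f.A' s hs) k fun c _ => by rw [← vm_mm p8, e, vm_mm p8]

end St

namespace Cs
variable {k : ℕ} (C : Cs Q D z π k t)
include C

theorem E_iff (he : e ∈ Q z) : e ∈ Q t ↔ π e &&& 225 = 0 :=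
  (C.toSt.E_iff C.f0 C.adj C.pt he).trans ((by decide +kernel : ∀ c < 256, FM0.testBit c = true ↔ c &&& 225 = 0) _ (C.lt he))

theorem B_ac (hb : b ∈ Q t) (bz : b * z = z * b) : ∃ s < 8, 𝐀 b (fld 64 (A0 k) s) := C.toSt.B_ac C.f0 C.adj C.pt hb bz

theorem B_ex {s : ℕ} (hs : s < 8) : ∃ b ∈ Q t, 𝐀 b (fld 64 (A0 k) s) := C.toSt.B_ex C.f0 C.adj C.pt hs

theorem D_iff (hx : x ∈ Q z) (n : x ≠ z) : x ∈ D ↔ (GM k).testBit (π x) = true := by
  rw [← C.Γ _ (C.lt hx)]
  refine ⟨fun l => ⟨x, ⟨C.zD, l, hx, n⟩, rfl⟩, fun ⟨a, j, l⟩ => ?_⟩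
  rcases C.fr.eq_or j.aQ hx l with rfl | rfl
  exacts [j.aD, C.sys.az j ▸ (C.sys.adj_mul j).aD]

theorem isConj : IsConj z x ↔ x ∈ D :=
  ⟨fun c => let ⟨g, e⟩ := isConj_iff.1 c; C.sys.cj' C.zD e, fun c => isConj_iff.2 (C.sys.tr C.zD c)⟩

theorem to_t (j : Adj Q D z a) : ∃ g, g * z = z * g ∧ g⁻¹ * t * g = a := by
  obtain ⟨M, ⟨g, k⟩, e⟩ := C.tr _ (C.pΓ j).1 ((C.Γ _ (C.pΓ j).1).1 ⟨a, j, rfl⟩)
  obtain ⟨x, hx, l⟩ := C.same (C.adj_cj C.adj (C.acH k)) j (by rw [k.2 t C.adj.aQ, C.pt, e])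
  exact ⟨g * x, comm_mul (C.acH k) (C.lq.zc hx), by rw [← l]; group⟩

end Cs

end CF.W4
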