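import Cfsg.Agent.W4.A

/-! A symmetric group of degree three which permutes the involutions of the four-group. -/

set_option autoImplicit false
set_option linter.unusedSectionVars false

namespace CF.W4
open Cfsg Subgroup CF.Loc CF.Even CF.LX CF.J4 CF.XG
open scoped commutatorElement

variable {G : Type*} [Group G]

/-- the reflection `n` interchanges `z` and `t` -/
structure S3 (Q : G → Subgroup G) (z t a n : G) : Prop where
  aQ : a ∈ Q z
  aa : a * a = 1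
  at' : a * t * a⁻¹ = z * t
  nn : n * n = 1
  nz : n * z * n⁻¹ = t
  br : a * n * a = n * a * n
  bQ : a * n * a ∈ Q t

variable [Finite G] {Q : G → Subgroup G} {D : Set G} {m : ℕ} {z t a n e s x : G}

theorem c2 (u v y : G) : u * v * y * (u * v)⁻¹ = u * (v * y * v⁻¹) * u⁻¹ := by group

theorem exists_s3 (S : Sys Q D m) (j : Adj Q D z t) (ha : a ∈ Q z) (aa : a * a = 1) (at' : a * t * a⁻¹ = z * t) :
    ∃ n, S3 Q z t a n := by
  have p := S.pair j
  obtain ⟨x, -, xz, xt⟩ := p.exists_swap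
  have az := conj_eq_iff.2 (S.zc j.zD ha)
  have zz := S.zz j.zD
  have tt := S.zz j.aD
  obtain ⟨b, eb⟩ : ∃ b, x * a * x⁻¹ = b := ⟨_, rfl⟩
  have hb : b ∈ Q t := eb ▸ S.fam.mv xz ha
  have bb : b * b = 1 := by rw [← eb, conj_mul, aa]; group
  have bz : b * z * b⁻¹ = z * t := by
    rw [← p.tz, ← xz, ← eb]; nth_rewrite 1 3 [← xt]; rw [conj_mul, conj_mul, ← at']; group
  have bt := conj_eq_iff.2 (S.zc j.aD hb)
  obtain ⟨d, ed⟩ : ∃ d, a * b = d := ⟨_, rfl⟩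
  have dz : d * z * d⁻¹ = t := by rw [← ed, c2, bz, ← conj_mul, az, at', ← mul_assoc, zz, one_mul]
  have dt : d * t * d⁻¹ = z * t := by rw [← ed, c2, bt, at']
  have dtz : d * (z * t) * d⁻¹ = z := by rw [← conj_mul, dz, dt, ← p.tz, ← mul_assoc, tt, one_mul]
  have c3 : ∀ y : G, d ^ 3 * y * (d ^ 3)⁻¹ = d * (d * (d * y * d⁻¹) * d⁻¹) * d⁻¹ := fun y => by
    simp only [pow_succ, pow_zero, one_mul]; group
  have wz : Commute (d ^ 3) z := conj_eq_iff.1 (by rw [c3, dz, dt, dtz])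
  have wt : Commute (d ^ 3) t := conj_eq_iff.1 (by rw [c3, dt, dtz, dz])
  have ai := inv_eq_of_mul_eq_one_right aa
  have ad : ∀ k : ℕ, a * d ^ k * a⁻¹ = (d ^ k)⁻¹ := fun k => by
    rw [← conj_pow, ← inv_pow, ← ed, mul_inv_rev, ai, inv_eq_of_mul_eq_one_right bb, ← mul_assoc, aa, one_mul]
  obtain ⟨k, hk⟩ := p.isPGroup_R ⟨_, p.comm_X_C (commutator_mem_commutator (mem_sup_left ha)
    ((cent_V4 z t).ge (⟨mem_c1.2 wz.eq, mem_c1.2 wt.eq⟩ : d ^ 3 ∈ 𝐂₁(z) ⊓ 𝐂₁(t))))⟩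
  replace hk := congrArg Subtype.val hk
  simp only [SubgroupClass.coe_pow, OneMemClass.coe_one, commutatorElement_def, ad, ← mul_inv_rev, ← pow_add, inv_pow,
    inv_eq_one, ← pow_mul] at hk
  obtain ⟨r, hr⟩ : ∃ r, 2 * 4 ^ k = 3 * r + 2 := ⟨2 * 4 ^ k / 3, by
    have : 4 ^ k % 3 = 1 := by rw [Nat.pow_mod]; simp
    omega⟩
  obtain ⟨u, eu⟩ : ∃ u, d ^ (2 * 4 ^ k) = u := ⟨_, rfl⟩
  have u3 : (u * u) ^ 3 = 1 := by
    rw [← eu, ← pow_add, ← pow_mul, show (2 * 4 ^ k + 2 * 4 ^ k) * 3 = (3 + 3) * 2 ^ k * (2 * 2 ^ k) by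
      rw [show 4 = 2 * 2 from rfl, mul_pow]; ring, pow_mul, hk, one_pow]
  have uy : ∀ y, Commute (d ^ 3) (d * (d * y * d⁻¹) * d⁻¹) → u * y * u⁻¹ = d * (d * y * d⁻¹) * d⁻¹ := fun y c => by
    rw [← eu, hr, pow_add, c2, pow_mul, sq, c2, conj_eq_iff.2 (c.pow_left r).eq]
  have ut : u * t * u⁻¹ = z := by rw [uy t (by rwa [dt, dtz]), dt, dtz]
  have uz : u * z * u⁻¹ = z * t := by rw [uy z (by rw [dz, dt]; exact wz.mul_right wt), dz, dt]
  have au : a * u * a⁻¹ = u⁻¹ := eu ▸ ad _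
  have e1 : u * a = a * u⁻¹ := by rw [← au, ← mul_assoc, ← mul_assoc, aa, one_mul, ai]
  have e2 : a * (u * u * a) * a = u⁻¹ * a * u⁻¹⁻¹ := by
    rw [mul_assoc, mul_assoc _ a a, aa, mul_one, ← mul_assoc, inv_inv, ← au, mul_assoc _ a⁻¹, inv_mul_cancel, mul_one]
  have e3 : u * u * a = a * (u * u)⁻¹ := by rw [mul_assoc, e1, ← mul_assoc, e1]; group
  refine ⟨u * u * a, ha, aa, at', ?_, ?_, ?_, e2 ▸ S.fam.mv (conj_inv_of ut) ha⟩
  · nth_rewrite 2 [e3]
    rw [mul_assoc, ← mul_assoc a, aa]; group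
  · rw [c2, az, c2, uz, ← conj_mul, uz, ut, p.tz.symm, mul_assoc, zz, mul_one]
  · rw [mul_assoc a, mul_assoc _ a a, aa, mul_one, ← mul_assoc (u * u) (u * u), ← mul_left_inj a, mul_assoc _ a a, aa,
      mul_one, mul_assoc, e3, ← mul_assoc, aa, one_mul]
    exact inv_eq_of_mul_eq_one_right (by rw [← u3, pow_three])

namespace S3
variable (S : Sys Q D m) (j : Adj Q D z t) (h : S3 Q z t a n)
include h

theorem ai : a⁻¹ = a := inv_eq_of_mul_eq_one_right h.aa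

theorem ni : n⁻¹ = n := inv_eq_of_mul_eq_one_right h.nn

theorem n2 (x : G) : n * (n * x * n⁻¹) * n⁻¹ = x := by
  rw [h.ni, ← mul_assoc, ← mul_assoc, h.nn, one_mul, mul_assoc, h.nn, mul_one]

theorem nt : n * t * n⁻¹ = z := h.nz ▸ h.n2 z

theorem na : n * a * n⁻¹ = a * n * a := by rw [h.ni, h.br]

theorem bb : a * n * a * (a * n * a) = 1 := by rw [← h.na, conj_mul, h.aa]; group

theorem nb : n = a * (a * n * a) * a := by rw [← mul_assoc, ← mul_assoc, h.aa, one_mul, mul_assoc, h.aa, mul_one]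

theorem ab3 : (a * (a * n * a)) ^ 3 = 1 := by
  rw [← mul_assoc, ← mul_assoc, h.aa, one_mul, pow_three, ← mul_assoc, ← mul_assoc, ← mul_assoc (n * a), ← h.br,
    mul_assoc _ a a, h.aa, mul_one, mul_assoc a, h.nn, mul_one, h.aa]

include S

theorem toQ (hx : x ∈ Q z) : n * x * n⁻¹ ∈ Q t := S.fam.mv h.nz hx

theorem ofQ (hx : x ∈ Q t) : n * x * n⁻¹ ∈ Q z := S.fam.mv h.nt hx

omit S in
theorem cz (c : x * t = t * x) : n * x * n⁻¹ * z = z * (n * x * n⁻¹) := h.nt ▸ comm_conj c n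

omit S in
theorem ct (c : x * z = z * x) : n * x * n⁻¹ * t = t * (n * x * n⁻¹) := h.nz ▸ comm_conj c n

include j

theorem bz : a * n * a * z * (a * n * a)⁻¹ = z * t := by
  rw [← S.az j, ← h.na, ← h.nz]; nth_rewrite 1 3 [← h.nt]; rw [conj_mul, conj_mul, ← h.at']; group

theorem nQ : n ∈ Q (z * t) := by
  have := S.fam.mv h.at' h.bQ
  rwa [h.ai, ← h.nb] at this

/-- the complement of the four-group in the intersection -/
theorem e0 (h1 : e ∈ Q z) (h2 : e ∈ Q t) : ∃ v, (v = 1 ∨ v = z ∨ v = t ∨ v = z * t) ∧ e * v ∈ Q z ∧ e * v ∈ Q t ∧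
    e * v * a = a * (e * v) ∧ e * v * n = n * (e * v) := by
  have zt := (S.symm j).aQ
  have az := S.zc j.zD h.aQ
  have bt := S.zc j.aD h.bQ
  have k : ∀ v, e * v * a = a * (e * v) → e * v * (a * n * a) = a * n * a * (e * v) → e * v * n = n * (e * v) :=
    fun v k l => by rw [h.nb]; exact ((Commute.mul_right (Commute.mul_right k l) k)).eq
  have et := S.zc j.aD h2
  have ez := S.zc j.zD h1
  have a1 : a * e * a⁻¹ = z * e → a * (e * t) * a⁻¹ = e * t := fun l => by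
    rw [← conj_mul, l, h.at', ← ez, mul_assoc, ← mul_assoc z, S.zz j.zD, one_mul]
  have b1 : ∀ {e}, e * t = t * e → a * n * a * e * (a * n * a)⁻¹ = t * e → a * n * a * (e * z) * (a * n * a)⁻¹ = e * z :=
    fun et l => by rw [← conj_mul, l, h.bz S j, ← et, ← S.az j, mul_assoc, ← mul_assoc t, S.zz j.aD, one_mul]
  rcases S.cases j.zD h.aQ h1 with l | l <;> rcases S.cases j.aD h.bQ h2 with l' | l'
  · exact ⟨1, .inl rfl, by simpa, by simpa, by simpa using (conj_eq_iff.1 l).symm,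
      k 1 (by simpa using (conj_eq_iff.1 l).symm) (by simpa using (conj_eq_iff.1 l').symm)⟩
  · have := comm_mul (conj_eq_iff.1 l).symm az.symm
    exact ⟨z, by simp, mul_mem h1 (S.mem j.zD), mul_mem h2 zt, this, k z this (conj_eq_iff.1 (b1 et l')).symm⟩
  · have := (conj_eq_iff.1 (a1 l)).symm
    exact ⟨t, by simp, mul_mem h1 j.aQ, mul_mem h2 (S.mem j.aD), this, k t this (comm_mul (conj_eq_iff.1 l').symm bt.symm)⟩
  · have := comm_mul (conj_eq_iff.1 (a1 l)).symm az.symm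
    have l2 := b1 (e := e * t) (comm_mul et rfl) (by rw [← conj_mul, l', conj_eq_iff.2 bt, mul_assoc])
    rw [mul_assoc e, S.az j] at this l2
    exact ⟨z * t, by simp, mul_mem h1 (mul_mem (S.mem j.zD) j.aQ), mul_mem h2 (mul_mem zt (S.mem j.aD)), this,
      k _ this (conj_eq_iff.1 l2).symm⟩

/-- the commutator of `a` with the conjugate of `e` -/
theorem root0 (he : e ∈ Q z) (et : e * t = t * e) (ea : e * a = a * e) :
    a * (n * e * n⁻¹) * a⁻¹ * (n * e * n⁻¹)⁻¹ ∈ Q z ∧ (a * (n * e * n⁻¹) * a⁻¹ * (n * e * n⁻¹)⁻¹)⁻¹ * e ∈ Q t := by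
  have hu := S.comm_mem h.aQ (h.cz et)
  refine ⟨hu, ?_⟩
  have βt := h.ct (S.zc j.zD he)
  have βP := h.toQ S he
  have u2 : a * n * a * (a * (n * e * n⁻¹) * a⁻¹) * (a * n * a)⁻¹ = e := by
    calc _ = a * n * (a * a) * n * e * n⁻¹ * (a * a)⁻¹ * n⁻¹ * a⁻¹ := by group
      _ = a * (n * n) * e * (n * n)⁻¹ * a⁻¹ := by rw [h.aa]; group
      _ = _ := by rw [h.nn, mul_one, ← ea]; group
  have ut : a * (n * e * n⁻¹) * a⁻¹ * (n * e * n⁻¹)⁻¹ * t = t * (a * (n * e * n⁻¹) * a⁻¹ * (n * e * n⁻¹)⁻¹) := by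
    refine comm_mul ?_ (comm_inv βt)
    have := comm_conj (comm_mul (h.cz et).symm βt.symm).symm a
    rwa [← conj_mul (a := z), conj_eq_iff.2 (S.zc j.zD h.aQ), h.at', ← mul_assoc z z, S.zz j.zD, one_mul] at this
  generalize n * e * n⁻¹ = β at *
  have hb := h.bQ
  generalize a * n * a = b at *
  obtain ⟨u, eu⟩ : ∃ u, a * β * a⁻¹ * β⁻¹ = u := ⟨_, rfl⟩
  rw [show a * β * a⁻¹ = u * β by rw [← eu]; group] at u2
  rw [eu] at ut ⊢
  rw [← u2, show u⁻¹ * (b * (u * β) * b⁻¹) = u⁻¹ * b * u⁻¹⁻¹ * β * b⁻¹ by group]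
  exact mul_mem (mul_mem (S.fam.nor (comm_inv ut) hb) βP) (inv_mem hb)

theorem fix0 {b' : G} (hb' : b' ∈ Q t) (bb' : b' * b' = 1) (c3 : (a * b') ^ 3 = 1) (m : a * n * a * b' ∈ Q z) :
    b' = a * n * a ∨ b' = z * (a * n * a) * z⁻¹ := by
  have hb := h.bQ
  have bz := h.bz S j
  have bb := h.bb
  have a3 := h.ab3
  generalize a * n * a = b at *
  obtain ⟨w, rfl⟩ : ∃ w, b' = b * w := ⟨b⁻¹ * b', by group⟩
  rw [← mul_assoc, bb, one_mul] at m
  replace hb' := (mul_mem_cancel_left hb).1 hb'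
  have ww := S.E_sq j m hb'
  have wb : Commute w b := by
    rw [Commute, SemiconjBy, ← mul_right_inj b, ← mul_left_inj w, mul_assoc, mul_assoc w, ← mul_assoc, bb', ← mul_assoc, bb,
      one_mul, ww]
  have key : ∀ {x w : G}, w * w = 1 → Commute w x → (x * w) ^ 3 = 1 → x ^ 3 = 1 → w = 1 := fun ww c l l' => by
    rwa [c.symm.mul_pow, l', one_mul, pow_three, ww, mul_one] at l
  have tt := S.zz j.aD
  have wt : Commute w t := S.zc j.aD hb'
  have bt : Commute b t := S.zc j.aD hb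
  have e : z * b * z⁻¹ = b * t := by
    rw [S.zi j.zD, ← mul_right_inj z, ← mul_left_inj b⁻¹, ← mul_assoc, ← mul_assoc, S.zz j.zD, one_mul, bz, bt.eq]; group
  rcases S.cases j.zD h.aQ m with l | l
  · rw [key ww (Commute.mul_right (conj_eq_iff.1 l).symm wb) (by rwa [mul_assoc]) a3, mul_one]
    exact .inl rfl
  · have c : Commute (w * t) a := (conj_eq_iff.1 (by
      rw [← conj_mul, l, h.at', ← S.zc j.zD m, mul_assoc, ← mul_assoc z, S.zz j.zD, one_mul])).symm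
    have := key (x := a * (b * t)) (w := w * t) (by rw [mul_assoc, ← mul_assoc t, ← wt.eq, mul_assoc, tt, mul_one, ww])
      (c.mul_right ((wb.mul_left bt.symm).mul_right (wt.mul_left rfl)))
      (by rwa [mul_assoc, mul_assoc b, wt.eq, ← mul_assoc t, tt, one_mul]) (by
        rw [← e, ← conj_eq_iff.2 (S.zc j.zD h.aQ).symm, conj_mul, conj_pow, a3]; group)
    rw [e, eq_inv_of_mul_eq_one_left this, S.zi j.aD]
    exact .inr rfl

/-- an element which centralises `z`, `t` and `a` centralises `n` up to an element of the extraspecial group -/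
theorem fix (sz : s * z = z * s) (st : s * t = t * s) (sa : s * a = a * s) :
    ∃ e ∈ Q z, e * t = t * e ∧ e * a = a * e ∧ e * s * n = n * (e * s) := by
  have k : ∀ s, s * a = a * s → s * (a * n * a) * s⁻¹ = a * n * a → s * n = n * s := fun s k l => by
    rw [h.nb]; exact ((Commute.mul_right (Commute.mul_right k (conj_eq_iff.1 l)) k)).eq
  have az := S.zc j.zD h.aQ
  have fin : ∀ s, s * t = t * s → s * a = a * s → (a * n * a) * (s * (a * n * a) * s⁻¹) ∈ Q z →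
      ∃ e, (e = 1 ∨ e = z) ∧ e * s * n = n * (e * s) := fun s st sa m => by
    rcases h.fix0 S j (S.fam.nor st h.bQ) (by rw [conj_mul, h.bb]; group) (by
      nth_rewrite 1 [← conj_eq_iff.2 sa]
      rw [conj_mul, conj_pow, h.ab3]; group) m with l | l
    · exact ⟨1, .inl rfl, by simpa using k s sa l⟩
    · exact ⟨z, .inr rfl, k _ (comm_mul az.symm sa) (by
        rw [c2, l, ← c2, S.zz j.zD]; group)⟩
  have bz := h.bz S j
  have hc := mul_mem h.bQ (S.fam.nor st h.bQ)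
  have cz : a * n * a * (s * (a * n * a) * s⁻¹) * z = z * (a * n * a * (s * (a * n * a) * s⁻¹)) := conj_eq_iff.1 (by
    rw [c2, c2 _ s⁻¹, conj_eq_iff.2 (comm_inv sz), c2 s, bz, ← conj_mul (b := s), conj_eq_iff.2 sz, conj_eq_iff.2 st, ← conj_mul, bz,
      conj_eq_iff.2 (S.zc j.aD h.bQ), mul_assoc, S.zz j.aD, mul_one])
  obtain ⟨c, ec⟩ : ∃ c, a * n * a * (s * (a * n * a) * s⁻¹) = c := ⟨_, rfl⟩
  rw [ec] at hc cz
  obtain ⟨e, he, et, ea, e1⟩ : ∃ e ∈ Q z, e * t = t * e ∧ e * a = a * e ∧ n * e * n⁻¹ * c⁻¹ ∈ Q z := by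
    have u1 := h.ofQ S hc
    have u2 : n * c * n⁻¹ * t = t * (n * c * n⁻¹) := h.ct cz
    rcases S.cases j.zD h.aQ u1 with l | l
    · exact ⟨_, u1, u2, (conj_eq_iff.1 l).symm, by rw [h.n2, mul_inv_cancel]; exact one_mem _⟩
    · refine ⟨_, mul_mem u1 j.aQ, comm_mul u2 rfl, (conj_eq_iff.1 ?_).symm, ?_⟩
      · rw [← conj_mul, l, h.at', ← S.zc j.zD u1, mul_assoc, ← mul_assoc z, S.zz j.zD, one_mul]
      · rw [← conj_mul, h.n2, h.nt, conj_eq_iff.2 cz]; exact S.mem j.zD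
  obtain ⟨r1, r2⟩ := h.root0 S j he et ea
  obtain ⟨v, hv, l⟩ := fin (e * s) (comm_mul et st) (comm_mul ea sa) (by
    have r3 := h.ofQ S r2
    have r4 : n * (a * (n * e * n⁻¹) * a⁻¹ * (n * e * n⁻¹)⁻¹) * n⁻¹ = a * n * a * e * (a * n * a)⁻¹ * e⁻¹ := by
      rw [← h.na, ← conj_mul, ← conj_mul, ← conj_mul, ← conj_inv, ← conj_inv, h.n2]
    have βz := h.cz et
    have m1 := h.toQ S r1
    rw [← conj_mul, ← conj_inv, r4] at r3
    rw [r4] at m1
    have s1 : s * (a * n * a) * s⁻¹ = a * n * a * c := by rw [← ec, ← mul_assoc (a * n * a), h.bb, one_mul]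
    rw [c2, s1, ← conj_mul, ← mul_assoc]
    nth_rewrite 2 [← inv_eq_of_mul_eq_one_right h.bb]
    rw [show a * n * a * (e * (a * n * a)⁻¹ * e⁻¹) = a * n * a * e * (a * n * a)⁻¹ * e⁻¹ by group]
    generalize a * n * a * e * (a * n * a)⁻¹ * e⁻¹ = γ at *
    generalize n * e * n⁻¹ = β at *
    have γz : γ⁻¹ * z = z * γ⁻¹ := by simpa using comm_mul (S.zc j.zD r3) (comm_inv βz)
    rw [show γ * (e * c * e⁻¹) = γ * γ * (γ⁻¹ * e * γ⁻¹⁻¹) * (γ⁻¹ * β * (β⁻¹ * (β * c⁻¹)⁻¹ * β⁻¹⁻¹)) * e⁻¹ by group]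
    exact mul_mem (mul_mem (mul_mem (S.sqQ j m1) (S.fam.nor γz he)) (mul_mem r3 (S.fam.nor (comm_inv βz) (inv_mem e1))))
      (inv_mem he))
  rw [← mul_assoc] at l
  rcases hv with rfl | rfl
  · exact ⟨e, he, et, ea, by simpa using l⟩
  · exact ⟨_, mul_mem (S.mem j.zD) he, comm_mul (S.az j).symm et, comm_mul az.symm ea, l⟩

end S3

end CF.W4
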