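import Cfsg.Agent.W4.A

/-! Width four: if the adjacent groups induce Siegel transformations then the intersections are extreme. -/

set_option autoImplicit false
set_option linter.unusedSectionVars false

namespace CF.W4

open Cfsg CF.Geom CF.XG QuadraticMap Module Submodule

variable {V : Type*} [AddCommGroup V] [Module (ZMod 2) V] {q : QuadraticForm (ZMod 2) V}
  {a a' b c c' d f g s s' t u v w x y : V} {U : Submodule (ZMod 2) V}

/-- nondegenerate of dimension eight -/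
structure Eight (q : QuadraticForm (ZMod 2) V) : Prop where
  dim : finrank (ZMod 2) V = 8
  nd : ∀ u, (∀ v, polar q v u = 0) → u = 0

namespace Eight
variable (h : Eight q)
include h

theorem fin : Module.Finite (ZMod 2) V := Module.finite_of_finrank_pos (h.dim ▸ (by decide : 0 < 8))

theorem one (hu : u ≠ 0) : ∃ v, polar q v u = 1 := by
  by_contra! k
  exact hu (h.nd u fun v => z2_ne' (k v))

theorem both (hu : u ≠ 0) (hv : v ≠ 0) : ∃ w, polar q w u = 1 ∧ polar q w v = 1 := by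
  obtain ⟨x, hx⟩ := h.one hu
  obtain ⟨y, hy⟩ := h.one hv
  rcases z2 (polar q x v) with e | e
  · rcases z2 (polar q y u) with e' | e'
    · exact ⟨x + y, by simp [polar_add_left, *], by simp [polar_add_left, *]⟩
    · exact ⟨y, e', hy⟩
  · exact ⟨x, hx, e⟩

theorem sep (h0 : t ≠ 0) (hu : t ≠ u) : ∃ w, polar q w u = 0 ∧ polar q w t = 1 := by
  obtain ⟨w, h1, h2⟩ := h.both h0 (v := t + u) fun e => hu (add_eq_zero'.1 e)
  rw [polar_add_right, h1, add_eq_left] at h2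
  exact ⟨w, h2, h1⟩

theorem orth (U : Submodule (ZMod 2) V) :
    finrank (ZMod 2) (LinearMap.BilinForm.orthogonal (polarBilin q) U) = 8 - finrank (ZMod 2) U := by
  haveI := h.fin
  rw [LinearMap.BilinForm.finrank_orthogonal (nondegenerate_of_left q fun _ hv => h.nd _ fun v => pc (hv v)), h.dim]

theorem iso_le (k : ∀ u ∈ U, ∀ v ∈ U, polar q u v = 0) : finrank (ZMod 2) U ≤ 4 := by
  haveI := h.fin
  have := finrank_mono (show U ≤ LinearMap.BilinForm.orthogonal (polarBilin q) U from fun v hv u hu => k u hu v hv)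
  rw [h.orth] at this
  omega

theorem plus (aa : polar q a a' = 1) (k : ∀ u ∈ U, polar q u a' = 0) :
    finrank (ZMod 2) ↥(U ⊔ span (ZMod 2) {a}) = finrank (ZMod 2) U + 1 := by
  haveI := h.fin
  exact finrank_sup_span_singleton fun l => z01 ((k a l).symm.trans aa)

theorem exW (aa : polar q a a' = 1) : ∃ W : Submodule (ZMod 2) V, finrank (ZMod 2) W = 6 ∧
    ∀ v, v ∈ W ↔ polar q v a = 0 ∧ polar q v a' = 0 := by
  haveI := h.fin
  have e := h.orth (span (ZMod 2) {a'} ⊔ span (ZMod 2) {a})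
  rw [h.plus aa (fun u l => by
    obtain ⟨t, rfl⟩ := mem_span_singleton.1 l
    rw [polar_smul_left, pol_self, smul_zero]), finrank_span_singleton fun l => z01 (by rw [← aa, l, polar_zero_right])] at e
  refine ⟨_, e, fun v => ⟨fun hv => ⟨pc (hv a (mem_sup_right (mem_span_singleton_self _))),
    pc (hv a' (mem_sup_left (mem_span_singleton_self _)))⟩, fun hv u hu => ?_⟩⟩
  obtain ⟨_, k, _, l, rfl⟩ := mem_sup.1 hu
  obtain ⟨i, rfl⟩ := mem_span_singleton.1 k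
  obtain ⟨j, rfl⟩ := mem_span_singleton.1 l
  show polar q _ _ = 0
  rw [polar_add_left, polar_smul_left, polar_smul_left, pc hv.1, pc hv.2]; simp

end Eight

/-- the data induced on the quadratic space by a class of adjacent involutions -/
structure O8 (q : QuadraticForm (ZMod 2) V) (Γ : Set V) (C F : V → Set V) (N : Set (V → V)) : Prop
    extends Eight q where
  sing : ∀ {a}, a ∈ Γ → q a = 0
  ne : ∀ {a}, a ∈ Γ → a ≠ 0
  Cs : ∀ {a}, a ∈ Γ → a ∈ C a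
  Fs : ∀ {a}, a ∈ Γ → a ∈ F a
  Cp : ∀ {a c}, a ∈ Γ → c ∈ C a → polar q c a = 0
  Fq : ∀ {a f}, a ∈ Γ → f ∈ F a → q f = 0
  Ca : ∀ {a c d}, a ∈ Γ → c ∈ C a → d ∈ C a → c + d ∈ C a
  Fa : ∀ {a c d}, a ∈ Γ → c ∈ F a → d ∈ F a → c + d ∈ F a
  CF : ∀ {a v}, a ∈ Γ → v ∈ C a → v ∈ F a → v = 0 ∨ v = a
  dec : ∀ {a v}, a ∈ Γ → polar q v a = 0 → ∃ c ∈ C a, ∃ f ∈ F a, v = c + f
  sgN : ∀ {a c}, a ∈ Γ → c ∈ C a → sg q a c ∈ N
  comp : ∀ {f g}, f ∈ N → g ∈ N → (fun v => f (g v)) ∈ N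
  oC : ∀ {g a c}, g ∈ N → a ∈ Γ → c ∈ C a → g c ∈ C (g a)
  oF : ∀ {g a c}, g ∈ N → a ∈ Γ → c ∈ F a → g c ∈ F (g a)

namespace O8
variable {Γ : Set V} {C F : V → Set V} {N : Set (V → V)} (h : O8 q Γ C F N) {k : V → V}
include h

section
variable (ha : a ∈ Γ)
include ha

theorem C0 : 0 ∈ C a := vv a ▸ h.Ca ha (h.Cs ha) (h.Cs ha)
theorem F0 : 0 ∈ F a := vv a ▸ h.Fa ha (h.Fs ha) (h.Fs ha)
theorem Cm (hc : c ∈ C a) (t : ZMod 2) : t • c ∈ C a := by rcases z2 t with rfl | rfl <;> simp [hc, h.C0 ha]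
theorem Fm (hc : c ∈ F a) (t : ZMod 2) : t • c ∈ F a := by rcases z2 t with rfl | rfl <;> simp [hc, h.F0 ha]
theorem Cc (hc : c + d ∈ C a) (hd : d ∈ C a) : c ∈ C a := vv'' c d ▸ h.Ca ha hc hd
theorem FF (hf : f ∈ F a) (hg : g ∈ F a) : polar q f g = 0 := pol_of_q (h.Fq ha hf) (h.Fq ha hg) (h.Fq ha (h.Fa ha hf hg))
theorem Fp (hf : f ∈ F a) : polar q f a = 0 := h.FF ha hf (h.Fs ha)
variable (aa : polar q a a' = 1)
include aa

theorem nrmC (hc : c ∈ C a) : c + polar q c a' • a ∈ C a ∧ polar q (c + polar q c a' • a) a' = 0 ∧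
    q (c + polar q c a' • a) = q c := by
  refine ⟨h.Ca ha hc (h.Cm ha (h.Cs ha) _), ?_, ?_⟩ <;>
    simp [polar_add_left, polar_smul_left, polar_smul_right, quad_add, q_smul, aa, h.sing ha, h.Cp ha hc, CharTwo.add_self_eq_zero]

theorem CF0 (hc : v ∈ C a) (hf : v ∈ F a) (va : polar q v a' = 0) : v = 0 :=
  (h.CF ha hc hf).resolve_right fun e => z01 (va.symm.trans (e ▸ aa))

theorem dec0 (va : polar q v a = 0) (va' : polar q v a' = 0) :
    ∃ c ∈ C a, ∃ f ∈ F a, polar q c a' = 0 ∧ polar q f a' = 0 ∧ v = c + f := by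
  obtain ⟨c, hc, f, hf, rfl⟩ := h.dec ha va
  obtain ⟨h1, h2, -⟩ := h.nrmC ha aa hc
  refine ⟨_, h1, _, h.Fa ha hf (h.Fm ha (h.Fs ha) (polar q c a')), h2, ?_, by apply v2; match_scalars <;> simp [CharTwo.add_self_eq_zero]⟩
  rw [polar_add_left] at va'
  rw [polar_add_left, polar_smul_left, aa, smul_eq_mul, mul_one, add_comm, va']

theorem zero0 (va : polar q v a = 0) (va' : polar q v a' = 0) (vC : ∀ c ∈ C a, polar q c a' = 0 → polar q c v = 0)
    (vF : ∀ c ∈ F a, polar q c a' = 0 → polar q c v = 0) : v = 0 := h.nd v fun u => by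
  obtain ⟨c, hc, f, hf, e1, e2, e⟩ := h.dec0 ha aa (proj aa u).1 (proj aa u).2
  have := congrArg (polar q · v) e
  simpa [polar_add_left, polar_smul_left, pc va, pc va', vC c hc e1, vF f hf e2] using this

end

variable (ha : a ∈ Γ) (ha' : a' ∈ Γ) (aa : polar q a a' = 1)
include ha ha' aa

theorem ncN (hc : c ∈ C a) (hc' : c ∈ C a') : (fun v => sg q a c (sg q a' c (sg q a c v))) ∈ N :=
  h.comp (h.sgN ha hc) (h.comp (h.sgN ha' hc') (h.sgN ha hc))

theorem ggN (hs : s ∈ C a) (ht : t ∈ C a') : (fun v => sg q a s (sg q a' t (sg q a s (sg q a' t v)))) ∈ N :=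
  h.comp (h.sgN ha hs) (h.comp (h.sgN ha' ht) (h.comp (h.sgN ha hs) (h.sgN ha' ht)))

theorem P1 (hc : c ∈ C a) (hc' : c ∈ C a') (qc : q c = 1) (hd : d ∈ C a) (da : polar q d a' = 0) : d ∈ C a' := by
  obtain ⟨e1, -, e3⟩ := nc aa (h.Cp ha hc) (h.Cp ha' hc') qc
  have := h.oC (h.ncN ha ha' aa hc hc') ha hd
  simp only [e1, e3 d (h.Cp ha hd) da] at this
  exact h.Cc ha' this (h.Cm ha' hc' _)

theorem P2 (hc : c ∈ C a) (hc' : c ∈ C a') (qc : q c = 1) (hd : d ∈ C a) (hd' : d ∈ C a') (qd : q d = 1) (ne : c ≠ d)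
    (hf : f ∈ F a) (fa : polar q f a' = 0) : polar q f c = 0 := z2_ne' fun n => by
  obtain ⟨e1, -, e3⟩ := nc aa (h.Cp ha hc) (h.Cp ha' hc') qc
  obtain ⟨-, e2, e4⟩ := nc aa (h.Cp ha hd) (h.Cp ha' hd') qd
  have h1 := h.oF (h.ncN ha ha' aa hc hc') ha hf
  simp only [e1, e3 f (h.Fp ha hf) fa, n, one_smul] at h1
  have h2 := h.oF (h.ncN ha ha' aa hd hd') ha' h1
  simp only [e2, e4 (f + c) (by rw [polar_add_left, h.Fp ha hf, h.Cp ha hc, add_zero]) (h.Fp ha' h1)] at h2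
  have h3 := h.Fa ha hf h2
  rw [add_assoc, vv'] at h3
  have h4 := h.CF0 ha aa (h.Ca ha hc (h.Cm ha hd _)) h3
    (by rw [polar_add_left, polar_smul_left, h.Cp ha' hc', h.Cp ha' hd', smul_zero, add_zero])
  rcases z2 (polar q (f + c) d) with e | e <;> rw [e] at h4
  · rw [zero_smul, add_zero] at h4
    exact z01 (by rw [← qc, h4, map_zero])
  · exact ne (add_eq_zero'.1 (by simpa using h4))

omit ha' in
theorem exC (hf : f ∈ F a) (fa : polar q f a' = 0) (f0 : f ≠ 0) : ∃ x ∈ C a, polar q x a' = 0 ∧ polar q x f = 1 := by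
  by_contra! k
  exact f0 (h.zero0 ha aa (h.Fp ha hf) fa (fun c hc e => z2_ne' (k c hc e)) fun c hc _ => h.FF ha hc hf)

theorem P (hf : f ∈ F a) (fa : polar q f a' = 0) (f0 : f ≠ 0) (hc : c ∈ C a) (hc' : c ∈ C a') (qc : q c = 1)
    (hd : d ∈ C a) (da : polar q d a' = 0) (qd : q d = 1) : d = c := by
  by_contra ne
  have ca := h.Cp ha' hc'
  have A : ∀ e ∈ C a, polar q e a' = 0 → q e = 1 → ∀ g ∈ F a, polar q g a' = 0 → polar q g e = 0 :=
    fun e he e1 e2 g hg ga => by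
      by_cases l : e = c
      · exact l ▸ h.P2 ha ha' aa hc hc' qc hd (h.P1 ha ha' aa hc hc' qc hd da) qd (Ne.symm ne) hg ga
      · exact h.P2 ha ha' aa he (h.P1 ha ha' aa hc hc' qc he e1) e2 hc hc' qc l hg ga
  obtain ⟨x, hx, xa, xf⟩ := h.exC ha aa hf fa f0
  have T : ∀ y ∈ C a, polar q y a' = 0 → polar q y f = 1 → q y = 0 := fun y hy e1 e2 =>
    z2_ne' fun l => z01 ((A y hy e1 l f hf fa).symm.trans (pc e2))
  have T1 : ∀ y ∈ C a, polar q y a' = 0 → polar q y f = 1 → ∀ e ∈ C a, polar q e a' = 0 → q e = 1 →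
      polar q y e = 1 := fun y hy e1 e2 e he e3 e4 => by
    have := T _ (h.Ca ha hy he) (by rw [polar_add_left, e1, e3, add_zero])
      (by rw [polar_add_left, e2, pc (A e he e3 e4 f hf fa), add_zero])
    rwa [quad_add, T y hy e1 e2, e4, zero_add, CharTwo.add_eq_zero, eq_comm] at this
  have T2 : ∀ y ∈ C a, polar q y a' = 0 → polar q y f = 1 → polar q y (d + c) = 0 := fun y hy e1 e2 => by
    rw [polar_add_right, T1 y hy e1 e2 c hc ca qc, T1 y hy e1 e2 d hd da qd, z11]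
  refine ne (add_eq_zero'.1 (h.zero0 ha aa (h.Cp ha (h.Ca ha hd hc)) (by rw [polar_add_left, da, ca, add_zero])
    (fun y hy e => ?_) fun g hg e => by rw [polar_add_right, A c hc ca qc g hg e, A d hd da qd g hg e, add_zero]))
  rcases z2 (polar q y f) with l | l
  · have := T2 _ (h.Ca ha hy hx) (by rw [polar_add_left, e, xa, add_zero]) (by rw [polar_add_left, l, xf, zero_add])
    rwa [polar_add_left, T2 x hx xa xf, add_zero] at this
  · exact T2 y hy e l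

omit ha' in
theorem big0 (k : ∃ f ∈ F a, f ≠ 0 ∧ f ≠ a) : ∃ f ∈ F a, polar q f a' = 0 ∧ f ≠ 0 := by
  obtain ⟨f, hf, f0, fa⟩ := k
  rcases z2 (polar q f a') with e | e
  · exact ⟨f, hf, e, f0⟩
  · exact ⟨_, h.Fa ha hf (h.Fs ha), by rw [polar_add_left, e, aa, z11], fun l => fa (add_eq_zero'.1 l)⟩

/-- the part orthogonal to the opposite point -/
def sb (a' : V) (X : Set V) (h0 : 0 ∈ X) (ha : ∀ {c d}, c ∈ X → d ∈ X → c + d ∈ X) : Submodule (ZMod 2) V where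
  carrier := {c | c ∈ X ∧ polar q c a' = 0}
  zero_mem' := ⟨h0, polar_zero_left _ _⟩
  add_mem' := fun k l => ⟨ha k.1 l.1, by rw [polar_add_left, k.2, l.2, add_zero]⟩
  smul_mem' := fun t c k => by
    rcases z2 t with rfl | rfl
    exacts [⟨by rwa [zero_smul], by simp⟩, by rwa [one_smul]]

omit ha' in
theorem dims (sm : ∀ U : Submodule (ZMod 2) V, ↑U ⊆ F a → finrank (ZMod 2) U ≤ 3) :
    6 ≤ finrank (ZMod 2) (sb (q := q) a' _ (h.C0 ha) (h.Ca ha)) + finrank (ZMod 2) (sb (q := q) a' _ (h.F0 ha) (h.Fa ha)) ∧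
      finrank (ZMod 2) (sb (q := q) a' _ (h.F0 ha) (h.Fa ha)) ≤ 2 := by
  haveI := h.fin
  constructor
  · obtain ⟨W, e, hW⟩ := h.exW aa
    have e3 := finrank_mono (show W ≤
        sb (q := q) a' _ (h.C0 ha) (h.Ca ha) ⊔ sb (q := q) a' _ (h.F0 ha) (h.Fa ha) from fun v hv => by
      obtain ⟨c, hc, f, hf, e1, e2, rfl⟩ := h.dec0 ha aa ((hW v).1 hv).1 ((hW v).1 hv).2
      exact add_mem_sup ⟨hc, e1⟩ ⟨hf, e2⟩)
    exact (e ▸ e3).trans (finrank_add_le_finrank_add_finrank _ _)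
  · have := sm (sb (q := q) a' _ (h.F0 ha) (h.Fa ha) ⊔ span (ZMod 2) {a}) fun v hv => by
      obtain ⟨f, hf, w, hw, rfl⟩ := mem_sup.1 hv
      obtain ⟨t, rfl⟩ := mem_span_singleton.1 hw
      exact h.Fa ha hf.1 (h.Fm ha (h.Fs ha) t)
    rw [h.plus (U := sb (q := q) a' _ (h.F0 ha) (h.Fa ha)) aa fun u hu => hu.2] at this
    omega

theorem no23 (sm : ∀ U : Submodule (ZMod 2) V, ↑U ⊆ F a → finrank (ZMod 2) U ≤ 3)
    (sm' : ∀ U : Submodule (ZMod 2) V, ↑U ⊆ F a' → finrank (ZMod 2) U ≤ 3) (hf : f ∈ F a) : f = 0 ∨ f = a := by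
  haveI := h.fin
  by_contra! n
  obtain ⟨f, hf, fa, f0⟩ := h.big0 ha aa ⟨f, hf, n⟩
  obtain ⟨d1, d2⟩ := h.dims ha aa sm
  obtain ⟨d3, d4⟩ := h.dims ha' (pc aa) sm'
  set C1 := sb (q := q) a' _ (h.C0 ha) (h.Ca ha)
  set F1 := sb (q := q) a' _ (h.F0 ha) (h.Fa ha)
  set C2 := sb (q := q) a _ (h.C0 ha') (h.Ca ha')
  have w1 : finrank (ZMod 2) ↥(C1 ⊔ C2) ≤ 6 := by
    obtain ⟨W, e, hW⟩ := h.exW aa
    exact e ▸ finrank_mono (sup_le (fun v hv => (hW v).2 ⟨h.Cp ha hv.1, hv.2⟩) fun v hv => (hW v).2 ⟨hv.2, h.Cp ha' hv.1⟩)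
  have w2 := finrank_sup_add_finrank_inf_eq C1 C2
  have two : ∀ {U : Submodule (ZMod 2) V} (s : V), 2 ≤ finrank (ZMod 2) U → ∃ t ∈ U, t ≠ 0 ∧ t ≠ s := fun {U} s l => by
    by_contra! k
    have := finrank_mono (show U ≤ span (ZMod 2) {s} from fun t ht => by
      by_cases e : t = 0
      exacts [e ▸ zero_mem _, k t ht e ▸ mem_span_singleton_self _])
    have := finrank_span_le_card (R := ZMod 2) ({s} : Set V)
    simp only [Set.toFinset_singleton, Finset.card_singleton] at this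
    omega
  have sg0 : ∀ c ∈ C1 ⊓ C2, q c = 0 := fun c hc => z2_ne' fun qc => by
    have k : ∀ y ∈ C1, y ≠ 0 → y ≠ c → polar q y c = 1 := fun y hy y0 yc => by
      have e1 := z2_ne' fun l => yc (h.P ha ha' aa hf fa f0 hc.1.1 hc.2.1 qc hy.1 hy.2 l)
      have e2 := z2_ne' fun l => y0 (add_eq_right.1 (h.P ha ha' aa hf fa f0 hc.1.1 hc.2.1 qc (add_mem hy hc.1).1
        (add_mem hy hc.1).2 l))
      rwa [quad_add, e1, qc, zero_add, CharTwo.add_eq_zero, eq_comm] at e2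
    have e := finrank_sup_add_finrank_inf_eq C1 (LinearMap.BilinForm.orthogonal (polarBilin q) (span (ZMod 2) {c}))
    have e1 := finrank_le (C1 ⊔ LinearMap.BilinForm.orthogonal (polarBilin q) (span (ZMod 2) {c}))
    rw [h.orth, finrank_span_singleton fun l => z01 (by rw [← qc, l, map_zero])] at e
    rw [h.dim] at e1
    obtain ⟨y, hy, y0, yc⟩ := two (U := C1 ⊓ LinearMap.BilinForm.orthogonal (polarBilin q) (span (ZMod 2) {c})) c (by omega)
    exact z01 ((pc (hy.2 c (mem_span_singleton_self c))).symm.trans (k y hy.1 y0 yc))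
  have dd : ∀ s ∈ C1 ⊓ C2, ∀ t ∈ C1 ⊓ C2, polar q s t = 0 := fun s hs t ht =>
    pol_of_q (sg0 s hs) (sg0 t ht) (sg0 _ (add_mem hs ht))
  have fd : ∀ g ∈ F1, ∀ s ∈ C1 ⊓ C2, polar q g s = 0 := fun g hg s hs => z2_ne' fun l => by
    obtain ⟨t, ht, t0, ts⟩ := two (U := C1 ⊓ C2) s (by omega)
    obtain ⟨e1, e2⟩ := gg aa hs.2.2 hs.1.2 ht.2.2 ht.1.2 (sg0 s hs) (sg0 t ht) (dd s hs t ht)
    have h1 := h.oF (h.ggN ha ha' aa hs.1.1 ht.2.1) ha hg.1
    simp only [e1, e2 g (h.Fp ha hg.1) hg.2, l, one_smul] at h1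
    have h2 := h.Fa ha hg.1 h1
    rw [add_assoc, vv'] at h2
    have m := add_mem ht.1 (smul_mem _ (polar q g t) hs.1)
    have h3 := h.CF0 ha aa m.1 h2 m.2
    rcases z2 (polar q g t) with e | e <;> rw [e] at h3
    exacts [t0 (by simpa using h3), ts (add_eq_zero'.1 (by simpa using h3))]
  have w3 := finrank_sup_add_finrank_inf_eq F1 (C1 ⊓ C2)
  rw [show F1 ⊓ (C1 ⊓ C2) = ⊥ from eq_bot_iff.2 fun v hv => h.CF0 ha aa hv.2.1.1 hv.1.1 hv.1.2, finrank_bot] at w3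
  have m : ∀ u ∈ F1 ⊔ C1 ⊓ C2, polar q u a = 0 ∧ polar q u a' = 0 ∧ ∀ v ∈ F1 ⊔ C1 ⊓ C2, polar q u v = 0 := fun u hu => by
    obtain ⟨g, hg, s, hs, rfl⟩ := mem_sup.1 hu
    refine ⟨by rw [polar_add_left, h.Fp ha hg.1, hs.2.2, add_zero], by rw [polar_add_left, hg.2, hs.1.2, add_zero],
      fun v hv => ?_⟩
    obtain ⟨g', hg', s', hs', rfl⟩ := mem_sup.1 hv
    rw [polar_add_left, polar_add_right, polar_add_right, h.FF ha hg.1 hg'.1, fd g hg s' hs', pc (fd g' hg' s hs),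
      dd s hs s' hs']; rfl
  have w4 := h.iso_le (U := (F1 ⊔ C1 ⊓ C2) ⊔ span (ZMod 2) {a}) fun u hu v hv => by
    obtain ⟨u', hu', _, k, rfl⟩ := mem_sup.1 hu
    obtain ⟨v', hv', _, l, rfl⟩ := mem_sup.1 hv
    obtain ⟨i, rfl⟩ := mem_span_singleton.1 k
    obtain ⟨j, rfl⟩ := mem_span_singleton.1 l
    simp [polar_add_left, polar_add_right, polar_smul_left, polar_smul_right, (m _ hu').1, pc (m _ hv').1, (m _ hu').2.2 _ hv',
      pol_self, -polar_self]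
  rw [h.plus aa fun u hu => (m u hu).2.1] at w4
  omega

end O8

end CF.W4
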