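import Cfsg.Agent.W4.C1

/-! Width four: the intersection of adjacent groups has order four or thirty-two; the adapted frame. -/

set_option autoImplicit false
set_option linter.unusedSectionVars false

namespace CF.W4

open Cfsg Subgroup CF.Loc CF.Even CF.LX CF.Geom CF.XG CF.J4 QuadraticMap Module
open CF.ThR (q8 b8 dec8 dec8_xor dec8_inj)

variable {G V : Type*} [Group G] [AddCommGroup V] [Module (ZMod 2) V] {q : QuadraticForm (ZMod 2) V}
  {Q : G → Subgroup G} {D : Set G} {n : ℕ} {a a' b e g h t x y z : G} {c f u u' v : V} {p : G → V}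
  {ρ : G → V →ₗ[ZMod 2] V} {U : Submodule (ZMod 2) V}

theorem Eight.dual (h : Eight q) {e : Fin 3 → V} (li : LinearIndependent (ZMod 2) e) (t : Fin 3 → ZMod 2) :
    ∃ g, ∀ i, polar q g (e i) = t i := by
  haveI := h.fin
  obtain ⟨ψ, k⟩ := LinearMap.exists_extend ((Basis.span li).constr (ZMod 2) t)
  refine ⟨(LinearMap.BilinForm.toDual (polarBilin q)
    (nondegenerate_of_left q fun _ hv => h.nd _ fun v => pc (hv v))).symm ψ, fun i => ?_⟩
  have := LinearMap.congr_fun k (Basis.span li i)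
  rw [Basis.constr_basis, LinearMap.comp_apply, Submodule.subtype_apply, Basis.span_apply] at this
  exact (LinearMap.BilinForm.apply_toDual_symm_apply (B := polarBilin q) _ _).trans this

theorem Eight.frame (h : Eight q) (aa : polar q u u' = 1) (qu : q u = 0) (qu' : q u' = 0) (hu : u ∈ U)
    (k : ∀ v ∈ U, q v = 0) (d : 4 ≤ finrank (ZMod 2) U) : ∃ e : ℕ → V, e 0 = u' ∧ e 4 = u ∧ (∀ i < 4, e (i + 1) ∈ U) ∧
      (∀ i < 8, q (e i) = 0) ∧ ∀ i < 8, ∀ j < 8, polar q (e i) (e j) = if i ^^^ j = 4 then 1 else 0 := by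
  haveI := h.fin
  have kk : ∀ v ∈ U, ∀ w ∈ U, polar q v w = 0 := fun v hv w hw => pol_of_q (k v hv) (k w hw) (k _ (add_mem hv hw))
  have e1 := Submodule.finrank_sup_add_finrank_inf_eq U
    (LinearMap.BilinForm.orthogonal (polarBilin q) (Submodule.span (ZMod 2) {u'}))
  have e2 := Submodule.finrank_le (U ⊔ LinearMap.BilinForm.orthogonal (polarBilin q) (Submodule.span (ZMod 2) {u'}))
  rw [h.orth, finrank_span_singleton fun l => z01 (by rw [← aa, l, polar_zero_right])] at e1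
  rw [h.dim] at e2
  obtain ⟨e, li⟩ := exists_linearIndependent_of_le_finrank (R := ZMod 2)
    (M := ↥(U ⊓ LinearMap.BilinForm.orthogonal (polarBilin q) (Submodule.span (ZMod 2) {u'}))) (n := 3) (by omega)
  have eU : ∀ i, (e i).1 ∈ U := fun i => (e i).2.1
  have e' : ∀ i, polar q u' (e i).1 = 0 := fun i => (e i).2.2 u' (Submodule.mem_span_singleton_self _)
  have ea : ∀ i, polar q u (e i).1 = 0 := fun i => kk _ hu _ (eU i)
  have ee : ∀ i j, polar q (e i).1 (e j).1 = 0 := fun i j => kk _ (eU i) _ (eU j)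
  let P : Fin 3 → V → Prop := fun j g => polar q g u = 0 ∧ polar q g u' = 0 ∧ ∀ i, polar q g (e i).1 = if i = j then 1 else 0
  have p1 : ∀ j, ∃ g, P j g := fun j => by
    obtain ⟨g, hg⟩ := h.dual (li.map' _ (Submodule.ker_subtype _)) fun i => if i = j then 1 else 0
    refine ⟨_, (proj aa g).1, (proj aa g).2, fun i => ?_⟩
    rw [← hg i, polar_add_left, polar_add_left, polar_smul_left, polar_smul_left, ea, e']; simp
  have p2 : ∀ {j g}, P j g → ∀ (t : ZMod 2) i, P j (g + t • (e i).1) := fun k t i =>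
    ⟨by simp [polar_add_left, polar_smul_left, k.1, pc (ea i)], by simp [polar_add_left, polar_smul_left, k.2.1, pc (e' i)],
      fun l => by simp [polar_add_left, polar_smul_left, k.2.2, ee]⟩
  have p3 : ∀ {j g}, P j g → q (g + q g • (e j).1) = 0 := fun {j g} l => by
    rw [quad_add, q_smul, k _ (eU j), polar_smul_right, l.2.2]; simp [CharTwo.add_self_eq_zero]
  obtain ⟨g0, h0⟩ := p1 0
  obtain ⟨g1, h1⟩ := p1 1
  obtain ⟨g2, h2⟩ := p1 2
  obtain ⟨f0, a0, q0⟩ : ∃ f, P 0 f ∧ q f = 0 := ⟨_, p2 h0 _ _, p3 h0⟩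
  obtain ⟨f1, a1, q1, b1⟩ : ∃ f, P 1 f ∧ q f = 0 ∧ polar q f f0 = 0 := ⟨_, p2 (p2 h1 (polar q g1 f0) 0) _ _, p3 (p2 h1 _ _), by
    simp [polar_add_left, polar_smul_left, pc (a0.2.2 _), CharTwo.add_self_eq_zero]⟩
  obtain ⟨f2, a2, q2, b2, b3⟩ : ∃ f, P 2 f ∧ q f = 0 ∧ polar q f f0 = 0 ∧ polar q f f1 = 0 :=
    ⟨_, p2 (p2 (p2 h2 (polar q g2 f0) 0) (polar q g2 f1) 1) _ _, p3 (p2 (p2 h2 _ _) _ _), by
      simp [polar_add_left, polar_smul_left, pc (a0.2.2 _), CharTwo.add_self_eq_zero], by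
      simp [polar_add_left, polar_smul_left, pc (a1.2.2 _), CharTwo.add_self_eq_zero]⟩
  refine ⟨fun i => [u', e 0, e 1, e 2, u, f0, f1, f2].getD i 0, rfl, rfl, fun i hi => ?_, fun i hi => ?_,
    fun i hi j hj => ?_⟩
  · interval_cases i
    exacts [eU 0, eU 1, eU 2, hu]
  · interval_cases i
    exacts [qu', k _ (eU 0), k _ (eU 1), k _ (eU 2), qu, q0, q1, q2]
  · interval_cases i <;> interval_cases j <;>
      simp [-polar_self, pol_self, aa, pc aa, e', ea, ee, fun i => pc (e' i), fun i => pc (ea i), a0.1, a0.2.1, a0.2.2, a1.1,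
        a1.2.1, a1.2.2, a2.1, a2.2.1, a2.2.2, pc a0.1, pc a0.2.1, fun i => pc (a0.2.2 i), pc a1.1, pc a1.2.1,
        fun i => pc (a1.2.2 i), pc a2.1, pc a2.2.1, fun i => pc (a2.2.2 i), b1, b2, b3, pc b1, pc b2, pc b3]

theorem cx (a b : ℕ) : ((a ^^^ b : ℕ) : ZMod 2) = a + b := by
  rw [← Nat.cast_add, ZMod.natCast_eq_natCast_iff', Nat.xor_mod_two_eq]

theorem Eight.code (h : Eight q) {e : ℕ → V} (qe : ∀ i < 8, q (e i) = 0)
    (pe : ∀ i < 8, ∀ j < 8, polar q (e i) (e j) = if i ^^^ j = 4 then 1 else 0) : ∃ κ : V → ℕ, (∀ v, κ v < 256) ∧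
      (∀ u v, κ (u + v) = κ u ^^^ κ v) ∧ (∀ c < 256, ∃ v, κ v = c) ∧ (∀ v, q v = q8 (κ v)) ∧
      (∀ i < 8, κ (e i) = 2 ^ i) ∧ (∀ v, v = ∑ i : Fin 8, dec8 (κ v) i • e i) ∧
      ∀ v, ∀ i : Fin 8, dec8 (κ v) i = polar q (e (i ^^^ 4)) v := by
  haveI := h.fin
  have bij : Function.Bijective fun c : Fin 256 => dec8 c := (Fintype.bijective_iff_injective_and_card _).2
    ⟨fun a b h => Fin.ext (dec8_inj a.2 b.2 h), by simp⟩
  choose cod hcod using bij.2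
  replace hcod : ∀ b, dec8 (cod b) = b := hcod
  let φ : V →ₗ[ZMod 2] Fin 8 → ZMod 2 := LinearMap.pi fun i => polarBilin q (e (i ^^^ 4))
  let δ : ℕ → V := fun c => ∑ i : Fin 8, dec8 c i • e i
  have x4 : ∀ i : Fin 8, i.1 ^^^ 4 < 8 := by decide
  have f1 : ∀ c, φ (δ c) = dec8 c := fun c => funext fun j => by
    show polarBilin q (e (j ^^^ 4)) (∑ i : Fin 8, _) = _
    rw [map_sum, Finset.sum_eq_single j (fun i _ n => ?_) (by simp)] <;>
      rw [map_smul, polarBilin_apply_apply, pe _ (x4 j) _ (Fin.is_lt _)]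
    · rw [if_pos ((by decide : ∀ i : Fin 8, i.1 ^^^ 4 ^^^ i.1 = 4) j), smul_eq_mul, mul_one]
    · rw [if_neg fun l => n ((by decide : ∀ i j : Fin 8, j.1 ^^^ 4 ^^^ i.1 = 4 → i = j) i j l), smul_zero]
  have inj : Function.Injective φ := (LinearMap.injective_iff_surjective_of_finrank_eq_finrank (by simp [h.dim])).2
    fun w => ⟨_, (f1 _).trans (hcod w)⟩
  have f2 : ∀ c < 256, (cod (φ (δ c)) : ℕ) = c := fun c hc => dec8_inj (cod _).2 hc (by rw [hcod, f1])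
  have f3 : ∀ v, v = δ (cod (φ v)) := fun v => inj (by rw [f1, hcod])
  have d0 : δ 0 = 0 := by simp [δ, dec8]
  have d1 : ∀ a b, δ (a ^^^ b) = δ a + δ b := fun a b => by simp [δ, dec8_xor, add_smul, Finset.sum_add_distrib]
  have d2 : ∀ i < 8, δ (2 ^ i) = e i := fun i hi => by
    show ∑ j : Fin 8, _ = _
    rw [Finset.sum_eq_single ⟨i, hi⟩ (fun j _ n => by
      simp [dec8, Nat.testBit_two_pow_of_ne fun l : i = j.1 => n (Fin.ext l.symm)]) (by simp)]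
    simp [dec8]
  have b1 : ∀ b < 256, ∀ a < 2 ^ 8, polar q (δ a) (δ b) = b8 a b := fun b hb => xor_ind
    (by rw [d0, polar_zero_left, (by decide +kernel : ∀ b < 256, b8 0 b = 0) b hb]; rfl) (fun i hi => by
      have := congrFun (f1 b) ⟨i ^^^ 4, x4 ⟨i, hi⟩⟩
      rw [d2 i hi, ← (by decide +kernel : ∀ i < 8, ∀ b < 256, (b.testBit (i ^^^ 4)).toNat = b8 (2 ^ i) b) i hi b hb]
      refine Eq.trans ?_ this
      show _ = polar q (e (i ^^^ 4 ^^^ 4)) _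
      rw [Nat.xor_assoc, Nat.xor_self, Nat.xor_zero])
    fun a _ a' _ k l => by rw [d1, polar_add_left, k, l, ThR.b8_xor, cx]
  have b2 : ∀ a < 2 ^ 8, q (δ a) = q8 a := xor_ind (by rw [d0, map_zero, show q8 0 = 0 by decide +kernel]; rfl)
    (fun i hi => by rw [d2 i hi, qe i hi, (by decide +kernel : ∀ i < 8, q8 (2 ^ i) = 0) i hi]; rfl)
    fun a ha a' ha' k l => by rw [d1, quad_add, k, l, b1 a' ha' a ha, ThR.q8_xor, cx, cx]
  refine ⟨fun v => cod (φ v), fun v => (cod _).2, fun u v => dec8_inj (cod _).2 (Nat.xor_lt_two_pow (cod _).2 (cod _).2)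
    (by rw [dec8_xor, hcod, hcod, hcod, map_add]), fun c hc => ⟨_, f2 c hc⟩, fun v => by rw [← b2 _ (cod _).2, ← f3],
    fun i hi => d2 i hi ▸ f2 _ (Nat.pow_lt_pow_right (m := i) (n := 8) one_lt_two hi), f3, fun v i => by rw [hcod]; rfl⟩

/-- the image of the intersection is small -/
def Sm (Q : G → Subgroup G) (D : Set G) (z : G) (p : G → V) (v : V) : Prop :=
  ∀ U : Submodule (ZMod 2) V, ↑U ⊆ vF Q D z p v → finrank (ZMod 2) U ≤ 3

section
variable [Finite G] (S : Sys Q D n) (L : LM (Q z) z p q ρ) (j : Adj Q D z a)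
include S L j

theorem F_add {c d : V} (hc : c ∈ vF Q D z p (p a)) (hd : d ∈ vF Q D z p (p a)) : c + d ∈ vF Q D z p (p a) := by
  obtain ⟨x, h1, h2, rfl⟩ := S.normF L j hc
  obtain ⟨y, k1, k2, rfl⟩ := S.normF L j hd
  exact ⟨a, j, rfl, _, mul_mem h1 k1, mul_mem h2 k2, L.mul h1 k1⟩

/-- the image of the intersection -/
def FS : Submodule (ZMod 2) V where
  carrier := vF Q D z p (p a)
  add_mem' := F_add S L j
  zero_mem' := ⟨a, j, rfl, 1, one_mem _, one_mem _, L.one⟩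
  smul_mem' := fun t c k => by
    rcases z2 t with rfl | rfl
    exacts [zero_smul (ZMod 2) c ▸ ⟨a, j, rfl, 1, one_mem _, one_mem _, L.one⟩, by rwa [one_smul]]

theorem F_q (hc : c ∈ FS S L j) : q c = 0 :=
  let ⟨_, t, _, _, h1, h2, e⟩ := hc; e ▸ (L.sq h1).1 (S.E_sq t h1 h2)

theorem F_pol {d : V} (hc : c ∈ FS S L j) (hd : d ∈ FS S L j) : polar q c d = 0 :=
  pol_of_q (F_q S L j hc) (F_q S L j hd) (F_q S L j (add_mem hc hd))

theorem F_a : p a ∈ FS S L j := ⟨a, j, rfl, a, j.aQ, S.mem j.aD, rfl⟩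

theorem F_T (hb : b ∈ Q a) (bz : b * z = z * b) (k : polar q u (p a) = 0) : ρ b u + u ∈ FS S L j := by
  obtain ⟨t, ht, rfl⟩ := L.surj u
  obtain ⟨m1, m2⟩ := S.commE L j hb bz ht ((L.cm ht j.aQ).2 k)
  exact ⟨a, j, rfl, _, m1, m2, L.comm ht bz⟩

theorem tau0 (h8 : Eight q) (sm : Sm Q D z p (p a)) (hb : b ∈ Q a) (bz : b * z = z * b) (hx : x ∈ Q z)
    (c : x * a * x⁻¹ = z * a) : Rel q ρ (p a) b (p (x * b * x⁻¹ * b⁻¹)) := by
  haveI := h8.fin
  have adj : ∀ {b}, b ∈ Q a → b * z = z * b → ∀ u v, polar q (ρ b u + u) v = polar q u (ρ b v + v) := fun hb bz u v => by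
    rw [polar_add_left, polar_add_right, L.adj bz (S.sqQ j hb)]
  have TT : ∀ {b}, b ∈ Q a → b * z = z * b → ∀ u v, polar q (ρ b u + u) (ρ b v + v) = 0 := fun hb bz u v => by
    rw [adj hb bz, map_add, S.ρρ L j hb bz, add_add_add_comm, add_comm v, vv, polar_zero_right]
  have Ta : ∀ {b}, b ∈ Q a → b * z = z * b → ∀ u, polar q (ρ b u + u) (p a) = 0 := fun hb bz u => by
    rw [adj hb bz, S.ρ_a L j hb bz, vv, polar_zero_right]
  have key : ∀ {b}, b ∈ Q a → b * z = z * b → ∀ u v, polar q u (p a) = 0 → polar q v (p a) = 0 →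
      polar q (ρ b u + u) v = 1 → ∀ f ∈ FS S L j, polar q f (ρ b (p x) + p x) ≠ 1 := fun {b} hb bz u v ua va uv f hf e => by
    have tf : polar q (ρ b v + v) v = 0 := by
      have := F_q S L j (F_T S L j hb bz va)
      rw [quad_add, L.ρ_q bz, CharTwo.add_self_eq_zero, zero_add] at this
      rw [polar_add_left, pol_self, add_zero, this]
    have li : LinearIndependent (ZMod 2) ![p a, ρ b u + u, ρ b v + v, f] := Fintype.linearIndependent_iff.2 fun k l => by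
      have r : ∀ w, k 0 * polar q (p a) w + k 1 * polar q (ρ b u + u) w + k 2 * polar q (ρ b v + v) w +
          k 3 * polar q f w = 0 := fun w => by
        have := congrArg (polar q · w) l
        rw [Fin.sum_univ_four, polar_add_left, polar_add_left, polar_add_left, polar_smul_left, polar_smul_left,
          polar_smul_left, polar_smul_left, polar_zero_left] at this
        exact this
      have k3 := r (ρ b (p x) + p x)
      have k1 := r v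
      have k2 := r u
      rw [pc (Ta hb bz _), TT hb bz, TT hb bz, e] at k3
      rw [pc va, uv, tf] at k1
      rw [pc ua, adj hb bz v, pc uv] at k2
      simp only [mul_zero, zero_add, add_zero, mul_one] at k1 k2 k3
      simp only [k3, zero_mul, add_zero] at k1 k2
      simp only [k1, zero_mul, zero_add] at k2
      rw [Fin.sum_univ_four] at l
      have k0 : k 0 = 0 := by simpa [k1, k2, k3, S.p_ne L j] using l
      intro i; fin_cases i <;> assumption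
    have := Submodule.finrank_mono (Submodule.span_le.2 (show Set.range ![p a, ρ b u + u, ρ b v + v, f] ⊆ FS S L j by
      rintro _ ⟨i, rfl⟩
      fin_cases i
      exacts [F_a S L j, F_T S L j hb bz ua, F_T S L j hb bz va, hf]))
    rw [finrank_span_eq_card li] at this
    exact absurd (this.trans (sm _ le_rfl)) (by simp)
  refine S.rel_of L j hx c bz (S.zc j.aD hb) fun t ht ta => ?_
  by_contra! k
  have ta' := (L.cm ht j.aQ).1 ta
  have m := F_T S L j hb bz ta'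
  obtain ⟨v, v1, v2⟩ := h8.sep (t := ρ b (p t) + p t) (fun l => k.1 (add_eq_zero'.1 l)) (u := p a)
    fun l => k.2 (by rw [add_eq_iff.1 l, add_comm])
  obtain ⟨y, hy, rfl⟩ := L.surj v
  obtain ⟨d, h1, h2, -, h3⟩ := S.k1_to j hx c S.fam hy ((L.cm hy j.aQ).2 v1) hy
  have e : polar q (ρ b (p t) + p t) (ρ d (p x) + p x) = 1 := by
    have m' := mul_mem (inv_mem hy) (S.comm_mem hx h2)
    have := F_pol S L j m ⟨a, j, rfl, _, m', h3, rfl⟩
    rw [L.mul (inv_mem hy) (S.comm_mem hx h2), L.inv hy, L.comm hx h2, polar_add_right, pc v2, CharTwo.add_eq_zero] at this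
    exact this.symm
  have id : ∀ u, ρ (b * d) u + u = ρ b (ρ d u + u) + (ρ d u + u) + (ρ d u + u) + (ρ b u + u) := fun u => by
    rw [L.ρ_mul bz h2, map_add, vv'', add_assoc, vv']
  rcases z2 (polar q (ρ d (p t) + p t) (p y)) with l | l
  · refine key (mul_mem hb h1) (comm_mul bz h2) _ _ ta' v1 ?_ _ m ?_
    · rw [id, polar_add_left, polar_add_left, l, pc v2, adj hb bz,
        F_pol S L j (F_T S L j h1 h2 ta') (F_T S L j hb bz v1)]; rfl
    · rw [id, polar_add_right, polar_add_right, e, TT hb bz, TT hb bz]; rfl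
  · exact key h1 h2 _ _ ta' v1 l _ m e

theorem opp (irr : ∀ A : Subgroup G, z ∈ A → A ≤ Q z → 𝐂₁(z) ≤ 𝐍(A) → A = zpowers z ∨ A = Q z) :
    ∃ g, g * z = z * g ∧ g * a * g⁻¹ * a ≠ a * (g * a * g⁻¹) := by
  by_contra! k
  let A : Subgroup G := ⟨⟨⟨{x | x ∈ Q z ∧ ∀ g, g * z = z * g → polar q (ρ g (p x)) (p a) = 0}, fun hx hy =>
    ⟨mul_mem hx.1 hy.1, fun g hg => by rw [L.mul hx.1 hy.1, map_add, polar_add_left, hx.2 g hg, hy.2 g hg, add_zero]⟩⟩,
    one_mem _, fun g _ => by simp [L.one]⟩, fun hx => ⟨inv_mem hx.1, by rw [L.inv hx.1]; exact hx.2⟩⟩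
  rcases irr A ⟨S.mem j.zD, fun g _ => by simp [L.pz]⟩ (fun x hx => hx.1) (fun g hg => mem_normalizer_fintype
    fun x hx => ⟨L.cj (mem_c1.1 hg) hx.1, fun u hu => by
      rw [← L.act (mem_c1.1 hg) hx.1, ← L.ρ_mul hu (mem_c1.1 hg)]; exact hx.2 _ (comm_mul hu (mem_c1.1 hg))⟩)
    with l | l
  · exact (L.lq.mem_z.1 (l.le (⟨j.aQ, fun g hg => by
      rw [L.act hg j.aQ]; exact (L.cm (L.cj hg j.aQ) j.aQ).1 (k g hg)⟩ : a ∈ A))).elim (S.ne1 j.aD) j.ne
  · exact S.p_ne L j (L.nd (L.ind fun x hx => by simpa [L.ρ_Q (one_mem _)] using (l.ge hx).2 1 (by simp)))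

omit j in
theorem o8 (h8 : Eight q) : O8 q {v | v ∈ vΓ Q D z p ∧ Sm Q D z p v} (vC Q D z p q ρ) (vF Q D z p) (vN z ρ) where
  toEight := h8
  sing := by rintro _ ⟨⟨e, t, rfl⟩, -⟩; exact S.p_sing L t
  ne := by rintro _ ⟨⟨e, t, rfl⟩, -⟩; exact S.p_ne L t
  Cs := by
    rintro _ ⟨⟨e, t, rfl⟩, -⟩
    exact ⟨e, t, rfl, 1, one_mem _, by simp, by simpa using L.rel_self (S.p_sing L t) (L.rel_Q (u := p e) (one_mem _))⟩
  Fs := by rintro _ ⟨⟨e, t, rfl⟩, -⟩; exact F_a S L t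
  Cp := by rintro _ c - ⟨e, t, rfl, y, hy, -, r⟩; exact r.1
  Fq := by rintro _ c - ⟨e, t, rfl, y, h1, h2, rfl⟩; exact (L.sq h1).1 (S.E_sq t h1 h2)
  Ca := by
    rintro _ c d ⟨⟨e, t, rfl⟩, -⟩ hc hd
    obtain ⟨x, h1, h2, r⟩ := S.normC L t hc
    obtain ⟨y, k1, k2, r'⟩ := S.normC L t hd
    exact ⟨e, t, rfl, _, mul_mem h1 k1, comm_mul h2 k2, L.rel_mul (S.p_sing L t) h2 k2 r r'⟩
  Fa := by rintro _ c d ⟨⟨e, t, rfl⟩, -⟩; exact F_add S L t
  CF := by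
    rintro _ c ⟨⟨e, t, rfl⟩, sm⟩ hc hd
    obtain ⟨b, h1, h2, r⟩ := S.normC L t hc
    obtain ⟨y, k1, k2, rfl⟩ := S.normF L t hd
    obtain ⟨x, hx, c1⟩ := S.exists_x t
    have m := S.comm_mem hx h2
    have : b ∈ Q z := S.k1_inj t hx c1 h1 (by
      rcases L.rel_uniq (S.p_ne L t) r (tau0 S L t h8 sm h1 h2 hx c1) with l | l
      · exact S.memE L t m k1 k2 l
      · exact S.memE L t m (mul_mem k1 t.aQ) (mul_mem k2 (S.mem t.aD)) (l.trans (L.mul k1 t.aQ).symm))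
    simpa using L.rel_uniq (S.p_ne L t) (L.rel_Q this) r
  dec := by
    rintro _ v ⟨⟨e, t, rfl⟩, sm⟩ k
    obtain ⟨y, hy, rfl⟩ := L.surj v
    obtain ⟨x, hx, c1⟩ := S.exists_x t
    obtain ⟨b, h1, h2, -, h3⟩ := S.k1_to t hx c1 S.fam hy ((L.cm hy t.aQ).2 k) hy
    have m := S.comm_mem hx h2
    exact ⟨_, ⟨e, t, rfl, b, h1, h2, tau0 S L t h8 sm h1 h2 hx c1⟩, _, ⟨e, t, rfl, _, mul_mem (inv_mem hy) m, h3, rfl⟩,
      by rw [L.mul (inv_mem hy) m, L.inv hy, add_comm (p y), vv']⟩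
  sgN := by rintro _ c - ⟨e, t, rfl, y, hy, yz, r⟩; exact ⟨y, yz, funext r.2⟩
  comp := by
    rintro _ _ ⟨g, g1, rfl⟩ ⟨k, k1, rfl⟩
    exact ⟨g * k, comm_mul g1 k1, funext (L.ρ_mul g1 k1)⟩
  oC := by
    rintro _ _ c ⟨g, g1, rfl⟩ - ⟨e, t, rfl, y, hy, yz, r⟩
    exact ⟨_, S.adj_cj' t g1, (L.act g1 t.aQ).symm, _, S.fam g _ _ hy, comm_mul (comm_mul g1 yz) (comm_inv g1),
      L.rel_cj g1 yz r⟩
  oF := by
    rintro _ _ c ⟨g, g1, rfl⟩ - ⟨e, t, rfl, y, h1, h2, rfl⟩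
    exact ⟨_, S.adj_cj' t g1, (L.act g1 t.aQ).symm, _, L.cj g1 h1, S.fam g _ _ h2, (L.act g1 h1).symm⟩

theorem dich (h8 : Eight q) (irr : ∀ A : Subgroup G, z ∈ A → A ≤ Q z → 𝐂₁(z) ≤ 𝐍(A) → A = zpowers z ∨ A = Q z) :
    (∀ y ∈ Q z, y ∈ Q a → y = 1 ∨ y = z ∨ y = a ∨ y = z * a) ∨ 4 ≤ finrank (ZMod 2) (FS S L j) := by
  haveI := h8.fin
  refine or_iff_not_imp_right.2 fun n y h1 h2 => ?_
  have sm : Sm Q D z p (p a) := fun U k => (Submodule.finrank_mono (show U ≤ FS S L j from k)).trans (by omega)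
  obtain ⟨g, gz, ne⟩ := opp S L j irr
  have j' := S.adj_cj' j gz
  have sm' : Sm Q D z p (p (g * a * g⁻¹)) := fun U k => by
    refine le_trans ?_ ((Submodule.finrank_map_le (ρ g) _).trans (sm (U.map (ρ g⁻¹)) ?_))
    · exact Submodule.finrank_mono fun v hv => ⟨_, ⟨v, hv, rfl⟩, L.ρ_inv' gz v⟩
    · rintro _ ⟨v, hv, rfl⟩
      obtain ⟨y, k1, k2, rfl⟩ := S.normF L j' (k hv)
      exact ⟨a, j, rfl, _, L.cj (comm_inv gz) k1, S.fam.mv (conj_inv_of rfl) k2, (L.act (comm_inv gz) k1).symm⟩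
  rcases (o8 S L h8).no23 ⟨⟨a, j, rfl⟩, sm⟩ ⟨⟨_, j', rfl⟩, sm'⟩ (z2_ne fun l => ne ((L.cm j'.aQ j.aQ).2 (pc l))) sm sm'
    (f := p y) ⟨a, j, rfl, y, h1, h2, rfl⟩ with l | l
  · exact ((L.ker h1).1 l).imp_right .inl
  · exact .inr (.inr ((L.eq_iff h1 j.aQ).1 l))

theorem frame (h8 : Eight q) (d : 4 ≤ finrank (ZMod 2) (FS S L j)) (j' : Adj Q D z a') (ne : a' * a ≠ a * a') :
    ∃ π, ThR.Fr (Q z) z π ∧ π a = 16 ∧ π a' = 1 ∧ ∀ e ∈ Q z, (e ∈ Q a ↔ π e &&& 225 = 0) := by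
  obtain ⟨e, e0, e4, eU, qe, pe⟩ := h8.frame (z2_ne fun l => ne ((L.cm j'.aQ j.aQ).2 (pc l))) (S.p_sing L j)
    (S.p_sing L j') (F_a S L j) (fun _ => F_q S L j) d
  obtain ⟨κ, k1, k2, k3, k4, k5, k6, k7⟩ := h8.code qe pe
  have k0 : κ 0 = 0 := by rw [← vv 0, k2, Nat.xor_self]
  refine ⟨fun x => κ (p x), { L.lq with
    pos := p8, le := L.lq.z_le, mul := fun x hx y hy => by rw [L.mul hx hy, k2], lt := fun _ _ => k1 _
    surj := fun c hc => by
      obtain ⟨v, rfl⟩ := k3 c hc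
      obtain ⟨x, hx, rfl⟩ := L.surj v
      exact ⟨x, hx, rfl⟩
    ker := fun x hx => by
      rw [L.lq.mem_z, ← L.ker hx]
      exact ⟨fun l => by rw [k6 (p x), l]; simp [dec8], fun l => by rw [l, k0]⟩
    sq' := fun x hx => ?_ }, (e4 ▸ k5 4 (by decide) :), (e0 ▸ k5 0 (by decide) :), fun x hx =>
      ⟨fun l => ?_, fun l => ?_⟩⟩
  · have l := L.sq hx
    have := ThR.q8_lt (κ (p x))
    rw [k4] at l
    interval_cases q8 (κ (p x))
    · simpa using l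
    · exact ((L.lq.sq x hx).resolve_left fun e => z01 (l.1 e).symm).trans (pow_one z).symm
  · have r : ∀ i < 4, ∀ m : Fin 8, m.1 ^^^ 4 = i + 1 → dec8 (κ (p x)) m = 0 := fun i hi m e => by
      rw [k7, e]; exact F_pol S L j (eU i hi) ⟨a, j, rfl, x, hx, l, rfl⟩
    exact (by decide +kernel : ∀ c < 256, dec8 c 0 = 0 → dec8 c 5 = 0 → dec8 c 6 = 0 → dec8 c 7 = 0 → c &&& 225 = 0) _ (k1 _)
      (r 3 (by decide) 0 rfl) (r 0 (by decide) 5 rfl) (r 1 (by decide) 6 rfl) (r 2 (by decide) 7 rfl)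
  · obtain ⟨r0, r5, r6, r7⟩ := (by decide +kernel : ∀ c < 256, c &&& 225 = 0 → dec8 c 0 = 0 ∧ dec8 c 5 = 0 ∧
      dec8 c 6 = 0 ∧ dec8 c 7 = 0) _ (k1 _) l
    have : p x ∈ FS S L j := by
      rw [k6 (p x), Fin.sum_univ_eight, r0, r5, r6, r7]
      simp only [zero_smul, zero_add, add_zero]
      exact add_mem (add_mem (add_mem (Submodule.smul_mem _ _ (eU 0 (by decide))) (Submodule.smul_mem _ _ (eU 1 (by decide))))
        (Submodule.smul_mem _ _ (eU 2 (by decide)))) (Submodule.smul_mem _ _ (eU 3 (by decide)))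
    obtain ⟨y, h1, h2, e⟩ := S.normF L j this
    exact S.memE L j hx h1 h2 e.symm

end

theorem card32 [Finite G] {π : G → ℕ} {P : Subgroup G} (F : ThR.Fr (Q z) z π) (hz : z ∈ P)
    (k : ∀ e ∈ Q z, (e ∈ P ↔ π e &&& 225 = 0)) : Nat.card ↥(Q z ⊓ P) = 32 := by
  have C : Co 4 (Q z ⊓ P) (zpowers z) fun e => π e >>> 1 :=
    ⟨by decide, le_inf F.z_le (zpowers_le.2 hz), fun x hx y hy => by rw [F.mul x hx.1 y hy.1, Nat.shiftRight_xor_distrib],
      fun x hx => (by decide +kernel : ∀ c < 256, c &&& 225 = 0 → c >>> 1 < 2 ^ 4) _ (F.lt' hx.1) ((k x hx.1).1 hx.2),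
      fun c hc => by
        obtain ⟨x, hx, e⟩ := F.surj (2 * c) (by omega)
        obtain ⟨l, r⟩ := (by decide +kernel : ∀ c < 2 ^ 4, 2 * c &&& 225 = 0 ∧ (2 * c) >>> 1 = c) c hc
        exact ⟨x, ⟨hx, (k x hx).2 (e ▸ l)⟩, by rw [e, r]⟩,
      fun x hx => by
        rw [← F.ker x hx.1]
        exact (by decide +kernel : ∀ c < 256, c &&& 225 = 0 → (c >>> 1 = 0 ↔ c = 0)) _ (F.lt' hx.1) ((k x hx.1).1 hx.2)⟩
  rw [C.card, F.card_z]; rfl

/-- either some intersection is a four-group, or all have order thirty-two and there is an adapted frame -/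
theorem start [Finite G] (S : Sys Q D 4) (j : Adj Q D z a)
    (irr : ∀ A : Subgroup G, z ∈ A → A ≤ Q z → 𝐂₁(z) ≤ 𝐍(A) → A = zpowers z ∨ A = Q z) :
    (∃ a, Adj Q D z a ∧ ∀ y ∈ Q z, y ∈ Q a → y = 1 ∨ y = z ∨ y = a ∨ y = z * a) ∨
      (∀ {d a}, Adj Q D d a → Nat.card ↥(Q d ⊓ Q a) = 32) ∧
      (∀ {a}, Adj Q D z a → ∃ g, g * z = z * g ∧ g * a * g⁻¹ * a ≠ a * (g * a * g⁻¹)) ∧
      ∃ π a', ThR.Fr (Q z) z π ∧ Adj Q D z a' ∧ π a = 16 ∧ π a' = 1 ∧ ∀ e ∈ Q z, (e ∈ Q a ↔ π e &&& 225 = 0) := by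
  obtain ⟨p, q, ρ, L⟩ := exists_lm (S.lq j.zD) (r := 8) (S.card j.zD)
  have h8 : Eight q := ⟨by simp, fun _ => L.nd⟩
  refine or_iff_not_imp_left.2 fun n => ?_
  have key : ∀ {a}, Adj Q D z a →
      ∃ π a', ThR.Fr (Q z) z π ∧ Adj Q D z a' ∧ π a = 16 ∧ π a' = 1 ∧ ∀ e ∈ Q z, (e ∈ Q a ↔ π e &&& 225 = 0) := fun j => by
    obtain ⟨g, gz, ne⟩ := opp S L j irr
    obtain ⟨π, k⟩ := frame S L j h8 ((dich S L j h8 irr).resolve_left fun l => n ⟨_, j, l⟩) (S.adj_cj' j gz) ne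
    exact ⟨π, _, k.1, S.adj_cj' j gz, k.2⟩
  refine ⟨fun {d a} k => ?_, fun j => opp S L j irr, key j⟩
  obtain ⟨g, e⟩ := S.tr k.zD j.zD
  have k' := e ▸ S.adj_cj k g
  obtain ⟨π, _, F, -, -, -, l⟩ := key k'
  rw [← card32 F (S.symm k').aQ l, ← e, ← S.fam.cj, ← S.fam.cj, ← cj_inf, card_cj]

end CF.W4
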