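import Cfsg.Agent.W4.C3

/-! Certificates which refute systems of flags. -/

set_option autoImplicit false
set_option linter.unusedSectionVars false
set_option maxRecDepth 100000

namespace CF.W4
open Cfsg Subgroup CF.Loc CF.Even CF.LX CF.J4 CF.Comp CF.Dce CF.XG
open CF.ThR (q8 b8)

/-- the value of a word in the matrices of the flags -/
noncomputable def wd (S : ℕ → Fl) (n : ℕ) : ℕ → ℕ :=
  Nat.rec (motive := fun _ => ℕ → ℕ) (fun _ => mo 8) (fun _ ih w => force w fun w => Bool.rec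
    (mm 8 ((S (Nat.land (Nat.shiftRight w 2) 3)).gen (Nat.pred (Nat.land w 3))) (ih (Nat.shiftRight w 4))) (mo 8)
    (Nat.beq w 0)) n

/-- the subspace is not preserved -/
noncomputable def tF (f g : Fl) (W a : ℕ) : Bool :=
  band (Nat.beq (vm 8 f.p W) g.p) (band (tb f.F a) (Bool.rec true false (tb g.F (vm 8 a W))))

/-- two matrices agree modulo the subspace -/
noncomputable def tU (f g : Fl) (W a : ℕ) : Bool :=
  force (f.el a) fun X => force (g.el (Nat.shiftRight a 3)) fun M => band (Nat.beq (vm 8 f.p W) g.p)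
    (band (tb g.F (Nat.xor (vm 8 (vm 8 f.o X) W) (vm 8 (vm 8 f.o W) M)))
      (Bool.rec true false (Nat.beq (mm 8 X W) (mm 8 W M))))

/-- the intersection of two adjacent groups is too small -/
noncomputable def tC (f g : Fl) (W : ℕ) : Bool :=
  decide (g.F.testBit (vm 8 f.p W) = true ∧ vm 8 f.p W ≠ g.p ∧ f.cov = true ∧ g.cov = true ∧
    ((List.range 8).filter fun s' => decide (∃ s : ℕ, s < 8 ∧ mm 8 (f.el s) W = mm 8 W (g.el s'))).length *
      (((List.range 256).filter fun c => f.F.testBit c && g.F.testBit (vm 8 c W)).map (vm 8 · W)).length < 16)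

/-- the test of a certificate -/
noncomputable def ck (S : ℕ → Fl) (c : ℕ) : Bool := force c fun c =>
  Nat.rec (motive := fun _ => Bool) false (fun k _ => force (wd S 12 (Nat.shiftRight c 14)) fun W =>
    force (fld 8 (Nat.shiftRight c 6) 0) fun a => force (Nat.land (Nat.shiftRight c 2) 3) fun i =>
      force (Nat.land (Nat.shiftRight c 4) 3) fun j => Nat.rec (motive := fun _ => Bool) (tF (S i) (S j) W a)
        (fun k _ => Nat.rec (motive := fun _ => Bool) (tU (S i) (S j) W a) (fun _ _ => tC (S i) (S j) W) k) k) (Nat.land c 3)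

/-- equality of flags -/
noncomputable def Fl.beq (f g : Fl) : Bool := band (Nat.beq f.a g.a) (band (Nat.beq f.b g.b) (band (Nat.beq f.c g.c)
  (band (Nat.beq f.F g.F) (band (Nat.beq f.p g.p) (Nat.beq f.o g.o)))))

/-- the search for the flag at the opposite point -/
noncomputable def l1 (f : Fl) (T : ℕ) (L : List Fl) : Bool := force T fun T => force (mo 8) fun I =>
  allFrom (fun j => force (fld 256 FJ j) fun F => allFrom (fun τ => allFrom (fun φ => force (gj j τ 0 φ) fun a =>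
    force (fld 48 T (8 * (2 * j + τ) + φ)) fun c => Bool.rec (allFrom (fun φ => force (gj j τ 1 φ) fun b =>
      force (fld 48 T (8 * (c >>> 2) + φ)) fun c => Bool.rec (allFrom (fun φ => force (gj j τ 2 φ) fun d =>
        Bool.rec (lany (Fl.beq ⟨1, 16, F, a, b, d⟩) L) true
          (ck (nth ⟨1, 16, F, a, b, d⟩ [f]) (fld 48 T (8 * (c >>> 2) + φ)))) 0 8) true
        (ck (nth ⟨1, 16, F, a, b, I⟩ [f]) c)) 0 8) true (ck (nth ⟨1, 16, F, a, I, I⟩ [f]) c)) 0 8) 0 2) 0 30

/-- the matrix carries one flag to the other -/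
noncomputable def mv (Y : ℕ) (f g : Fl) : Bool := force Y fun Y =>
  decide (vm 8 f.p Y = g.p ∧ (∀ i : ℕ, i < 3 → ∃ s : ℕ, s < 8 ∧ mm 8 (f.el s) Y = mm 8 Y (g.gen i)) ∧ g.o < 256 ∧ b8 g.o g.p = 1 ∧
    ∀ c : ℕ, c < 256 → g.F.testBit (vm 8 c Y) = f.F.testBit c)

theorem Fl.eq_of {f g : Fl} (h : f.beq g = true) : f = g := by
  cases f; cases g
  simp only [Fl.beq, band_eq, Bool.and_eq_true, beq_iff] at h
  simp only [h]

theorem brec_not {a : Bool} : (Bool.rec true false a : Bool) = true ↔ a = false := by cases a <;> simp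

variable {G : Type*} [Group G] [Finite G] {Q : G → Subgroup G} {D : Set G} {z : G} {π π' : G → ℕ} {W Y c T : ℕ}
  {f g : Fl} {s : ℕ → Fl} {L : List Fl}

theorem ok_nth (k : Ok Q D z π f) (l : ∀ g ∈ L, Ok Q D z π g) (i : ℕ) : Ok Q D z π (nth f L i) :=
  (nth_mem_or f L i).elim (l _) fun e => e.symm ▸ k

theorem Ok.drop {p o F a b c M : ℕ} (r : Ok Q D z π ⟨p, o, F, a, b, c⟩) (I : gA Q D z π p M) :
    Ok Q D z π ⟨p, o, F, a, b, M⟩ ∧ Ok Q D z π ⟨p, o, F, a, M, M⟩ := by
  refine ⟨⟨r.Γ, r.F, r.o, r.op, fun i => ?_⟩, r.Γ, r.F, r.o, r.op, fun i => ?_⟩ <;> rcases i with _ | _ | i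
  exacts [r.A 0, r.A 1, I, r.A 0, I, I]

namespace St
variable (S : St Q D z π)
include S

theorem wd_N (k : ∀ i, Ok Q D z π (s i)) (n w : ℕ) : gN Q z π (wd s n w) := by
  induction n generalizing w with
  | zero => exact S.N_one
  | succ n ih =>
    rw [show wd s (n + 1) w = Bool.rec (motive := fun _ => ℕ) (mm 8 ((s (Nat.land (Nat.shiftRight w 2) 3)).gen
      (Nat.pred (Nat.land w 3))) (wd s n (Nat.shiftRight w 4))) (mo 8) (Nat.beq w 0) by rw [wd]; exact force_eq _ _]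
    cases Nat.beq w 0
    exacts [S.N_mul (A_N ((k _).A _)) (ih _), S.N_one]

theorem mvT (T : Tr Q D z π π' Y) (k : Ok Q D z π f) (h : mv Y f g = true) : Ok Q D z π' g := by
  rw [mv, force_eq, decide_eq_true_eq] at h
  exact S.mv' T k h.1 h.2.2.2.2 h.2.2.1 h.2.2.2.1 fun i hi => let ⟨s, _, e⟩ := h.2.1 i hi; ⟨_, S.el k s, e⟩

variable (e32 : ∀ {d a}, Adj Q D d a → Nat.card ↥(Q d ⊓ Q a) = 32)
include e32

theorem ck_false (k : ∀ i, Ok Q D z π (s i)) (h : ck s c = true) : False := by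
  simp only [ck, force_eq] at h
  have w := S.wd_N k 12 (Nat.shiftRight c 14)
  have a := fld_lt 8 (Nat.shiftRight c 6) 0
  have k1 := k (Nat.land (Nat.shiftRight c 2) 3)
  have k2 := k (Nat.land (Nat.shiftRight c 4) 3)
  revert h w a k1 k2
  generalize s (Nat.land (Nat.shiftRight c 2) 3) = f, s (Nat.land (Nat.shiftRight c 4) 3) = g,
    wd s 12 (Nat.shiftRight c 14) = W, fld 8 (Nat.shiftRight c 6) 0 = a, Nat.land c 3 = m
  intro h w ha k1 k2
  have T := S.tr_act w
  rcases m with _ | _ | _ | m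
  · exact Bool.false_ne_true h
  · replace h : tF f g W _ = true := h
    simp only [tF, band_eq, Bool.and_eq_true, beq_iff, brec_not, tb_eq] at h
    have := T.F ((k1.F _ ha).2 h.2.1)
    rw [h.1, k2.F _ (vm_lt 8 _ _), h.2.2] at this
    exact Bool.false_ne_true this
  · replace h : tU f g W _ = true := h
    simp only [tU, force_eq, band_eq, Bool.and_eq_true, beq_iff, brec_not, tb_eq] at h
    obtain ⟨N, -, -, n2, n3⟩ := S.N_inv w
    have x := S.A_act (S.el k1 a) w (X' := mm 8 (mm 8 N (f.el a)) W) fun c hc => by rw [vm_mm p8, vm_mm p8, n2 c hc]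
    rw [h.1] at x
    have := S.A_uniq x (S.el k2 (Nat.shiftRight a 3)) (vm_lt 8 f.o W)
      (by rw [← h.1, S.N_b8 w k1.o (S.Γ_lt k1.Γ).1, k1.op]) (by
        rw [vm_mm p8, vm_mm p8, n2 _ k1.o, k2.F _ (Nat.xor_lt_two_pow (vm_lt 8 _ _) (vm_lt 8 _ _))]; exact h.2.1)
    rw [beq_iff.2 (mat_ext p8 (mm_lt p8 _ _) (mm_lt p8 _ _) fun c hc => by
      rw [vm_mm p8, vm_mm p8, ← this _ (vm_lt 8 _ _), vm_mm p8, vm_mm p8, n2 c hc])] at h
    exact Bool.false_ne_true h.2.2.symm
  · replace h : tC f g W = true := h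
    rw [tC, decide_eq_true_eq] at h
    refine absurd (S.c2 e32 k1 k2 h.2.2.1 h.2.2.2.1 w h.1 h.2.1 (fun s hs s' hs' e => ?_) fun c hc h1 h2 => ?_)
      (not_le.2 h.2.2.2.2)
    · exact List.mem_filter.2 ⟨List.mem_range.2 hs', decide_eq_true ⟨s, hs, e⟩⟩
    · exact List.mem_map.2 ⟨c, List.mem_filter.2 ⟨List.mem_range.2 hc, by rw [h1, h2]; rfl⟩, rfl⟩

theorem lev1 (k : Ok Q D z π f) (o : gΓ Q D z π 1) (h : l1 f T L = true) : ∃ g ∈ L, Ok Q D z π g := by
  obtain ⟨j, hj, τ, h1, φ, h2, φ1, h3, φ2, h4, r⟩ := S.shape1 e32 o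
  have n : ∀ {g c}, Ok Q D z π g → ¬ ck (nth g [f]) c = true := fun l =>
    S.ck_false e32 (ok_nth l fun _ m => List.mem_singleton.1 m ▸ k)
  simp only [l1, force_eq, allFrom_zero, brec_or] at h
  obtain ⟨g, hg, e⟩ := lany_iff.1 ((((h j hj τ h1 φ h2).resolve_left (n (r.drop (S.A_one o)).2) φ1 h3).resolve_left
    (n (r.drop (S.A_one o)).1) φ2 h4).resolve_left (n r))
  exact ⟨g, hg, Fl.eq_of e ▸ r⟩

end St

end CF.W4
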