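import Cfsg.Agent.W4.B

/-! Fusion into the adjacent extraspecial group and fixed points of involutions. -/

set_option autoImplicit false
set_option linter.unusedSectionVars false
set_option maxHeartbeats 400000

namespace CF.W4
open Cfsg Subgroup CF.Loc CF.Even CF.LX CF.J4 CF.Comp CF.Dce CF.XG
open CF.ThR (q8 b8)

variable {G : Type*} [Group G] [Finite G] {Q : G → Subgroup G} {D : Set G} {z t w b x : G} {π : G → ℕ} {k s M X : ℕ}

local notation "𝐀" => J4.Ac 8 (Q z) π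

theorem free_dec : ∀ k < 6, ∀ s < 7, ∀ x < 256, (x ^^^ vm 8 x (fld 64 (A0 (k + 1)) (s + 1))) &&& 239 = 0 →
    ∃ c < 256, (vm 8 c (fld 64 (A0 (k + 1)) (s + 1)) ^^^ x ^^^ c) &&& 225 = 0 := by decide +kernel

theorem odd_dec : ∀ k < 6, ((((Finset.range 256).filter fun c => (GM (k + 1)).testBit c = true).card : ℕ) : ZMod 2) ≠ 0 := by
  decide +kernel

theorem St.π_cj (S : St Q D z π) (a : 𝐀 b X) (hx : x ∈ Q z) (y : G) (hy : y ∈ Q z) :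
    π (b⁻¹ * y * b * x) = vm 8 (π y) X ^^^ π x := by
  rw [S.co.mul _ (norm_mem a.1 hy) _ hx, a.2 y hy]

namespace Cs
variable (C : Cs Q D z π k t)
include C

theorem zt : z ∈ Q t := (C.sys.symm C.adj).aQ

theorem sqB (hb : b ∈ Q t) : b * b ∈ Q z ∧ π (b * b) &&& 239 = 0 := by
  rcases (C.sys.lq C.adj.aD).sq b hb with e | e <;> rw [e]
  · exact ⟨one_mem _, by rw [C.co.one]; rfl⟩
  · exact ⟨C.adj.aQ, by rw [C.pt]; rfl⟩

/-- involutions which act freely are conjugate into the adjacent group -/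
theorem g1 (k0 : k ≠ 0) (k7 : k < 7) (hs : s < 8) (s0 : s ≠ 0) (a : 𝐀 w (fld 64 (A0 k) s))
    (ww : w * w ∈ Q z) (w2 : π (w * w) &&& 239 = 0) : ∃ y ∈ Q z, y⁻¹ * w * y ∈ Q t := by
  obtain ⟨b, hb, a'⟩ := C.B_ex hs
  have m := C.toSt.div a' a
  obtain ⟨x, rfl⟩ : ∃ x, w = b * x := ⟨b⁻¹ * w, by group⟩
  rw [inv_mul_cancel_left] at m
  obtain ⟨k, rfl⟩ := Nat.exists_eq_succ_of_ne_zero k0
  obtain ⟨s, rfl⟩ := Nat.exists_eq_succ_of_ne_zero s0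
  have e : π (b * x * (b * x)) = π (b * b) ^^^ (vm 8 (π x) (fld 64 (A0 (k + 1)) (s + 1)) ^^^ π x) := by
    rw [← C.toSt.π_cj a' m x m, ← C.co.mul _ (C.sqB hb).1 _ (mul_mem (norm_mem a'.1 m) m)]
    congr 1; group
  obtain ⟨c, hc, l⟩ := free_dec k (by omega) s (by omega) _ (C.lt m) (by
    rw [e, Nat.and_xor_distrib_right, (C.sqB hb).2, Nat.zero_xor, Nat.xor_comm] at w2; exact w2)
  obtain ⟨y, hy, rfl⟩ := C.co.surj c hc
  have n := mul_mem (mul_mem (norm_mem a'.1 (inv_mem hy)) m) hy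
  refine ⟨y, hy, ?_⟩
  rw [show y⁻¹ * (b * x) * y = b * (b⁻¹ * y⁻¹ * b * x * y) by group]
  refine mul_mem hb ((C.E_iff n).2 ?_)
  rwa [C.co.mul _ (mul_mem (norm_mem a'.1 (inv_mem hy)) m) _ hy, C.toSt.π_cj a' m _ (inv_mem hy), C.co.inv hy]

/-- an element of order two modulo `Q` fixes a point -/
theorem fix16 (k0 : k ≠ 0) (k7 : k < 7) (wz : w * z = z * w) (ww : w * w ∈ Q z) :
    ∃ g, g * z = z * g ∧ ∃ M < 2 ^ 64, 𝐀 (g * w * g⁻¹) M ∧ vm 8 16 M = 16 := by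
  obtain ⟨k, rfl⟩ := Nat.exists_eq_succ_of_ne_zero k0
  obtain ⟨M, -, a⟩ := C.ex_ac wz
  have i : ∀ c < 256, vm 8 (vm 8 c M) M = c := fun c hc => by
    rw [← vm_mm p8, C.co.uniq (C.toSt.mul a a) (C.toSt.self ww) hc, vm_mo p8 hc]
  obtain ⟨p, ⟨c, j, rfl⟩, e⟩ : ∃ p, gΓ Q D z π p ∧ vm 8 p M = p := by
    by_contra n
    refine odd_dec k (by omega) ?_
    rw [Finset.card_eq_sum_ones, Nat.cast_sum]
    refine Finset.sum_involution (fun c _ => vm 8 c M) (fun _ _ => rfl) (fun c hc _ e => ?_) (fun c hc => ?_)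
      fun c hc => ?_ <;> simp only [Finset.mem_filter, Finset.mem_range] at hc ⊢
    · exact n ⟨c, (C.Γ c hc.1).2 hc.2, e⟩
    · exact ⟨vm_lt 8 _ _, (C.Γ _ (vm_lt 8 _ _)).1 (C.Γ_act ((C.Γ c hc.1).2 hc.2) ⟨w, a⟩)⟩
    · exact i c hc.1
  obtain ⟨g, gz, rfl⟩ := C.to_t j
  obtain ⟨N, l, a'⟩ := C.ex_ac (comm_mul (comm_mul gz wz) (comm_inv gz))
  refine ⟨g, gz, N, l, a', ?_⟩
  obtain ⟨Y, -, y⟩ := C.ex_ac (comm_inv gz)
  rw [← C.pt, ← a'.2 t C.adj.aQ, show (g * w * g⁻¹)⁻¹ * t * (g * w * g⁻¹) = g⁻¹⁻¹ * (w⁻¹ * (g⁻¹ * t * g) * w) * g⁻¹ by group,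
    y.2 _ (norm_mem a.1 j.aQ), a.2 _ j.aQ, e, ← y.2 _ j.aQ]
  congr 1; group

/-- an element which fixes the base point is adjusted so that it centralises `t` -/
theorem adjust (a : 𝐀 w M) (e : vm 8 16 M = 16) : ∃ x ∈ Q z, w * x * t = t * (w * x) := by
  have j := C.adj_cj C.adj (C.acH a)
  obtain ⟨x, hx, l⟩ := C.same j C.adj (by rw [a.2 t C.adj.aQ, C.pt, e])
  refine ⟨x, hx, ?_⟩
  nth_rewrite 1 [← l]; group

end Cs

end CF.W4
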