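import Cfsg.Agent.W4.A

/-! The grid configuration: the centraliser of the radical of a special subspace. -/

set_option autoImplicit false
set_option linter.unusedSectionVars false
set_option synthInstance.maxSize 100000
set_option synthInstance.maxHeartbeats 400000

namespace CF.W4
open Cfsg Subgroup CF.Loc CF.Even CF.LX CF.J4 CF.Comp CF.Dce CF.XG
open CF.ThR (q8 b8)

/-- maps which preserve the collinearity graph of a grid -/
structure Rk (Γ : ℕ → Prop) (r c r' c' : ℕ → ℕ) : Prop where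
  ex : ∀ i < 5, ∀ j < 5, ∃ v, Γ v ∧ r v = i ∧ c v = j
  lt : ∀ x, Γ x → r x < 5 ∧ c x < 5
  e : ∀ x y, Γ x → Γ y → (r x = r y ∨ c x = c y ↔ r' x = r' y ∨ c' x = c' y)

theorem av5 (a b : ℕ) : ∃ i < 5, i ≠ a ∧ i ≠ b := by
  by_cases e : a = 0 ∨ b = 0
  · by_cases e' : a = 1 ∨ b = 1
    exacts [⟨2, by omega⟩, ⟨1, by omega⟩]
  · exact ⟨0, by omega⟩

/-- some row is mapped to a row -/
def Gd (Γ : ℕ → Prop) (r c r' : ℕ → ℕ) (x : ℕ) : Prop := Γ x ∧ ∃ y, Γ y ∧ r x = r y ∧ c x ≠ c y ∧ r' x = r' y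

namespace Rk
variable {Γ : ℕ → Prop} {r c r' c' : ℕ → ℕ} (h : Rk Γ r c r' c') {x v : ℕ}
include h

theorem sw : Rk Γ c r c' r' := ⟨fun i hi j hj => let ⟨v, a, b, d⟩ := h.ex j hj i hi; ⟨v, a, d, b⟩,
  fun x a => (h.lt x a).symm, fun x y a b => by rw [or_comm, h.e x y a b, or_comm]⟩

theorem s1 (g : Gd Γ r c r' x) (a : Γ v) (e : c v = c x) (n : r v ≠ r x) : c' v = c' x := by
  obtain ⟨b, y, d, e1, e2, e3⟩ := g
  have := h.e v x a b
  have := h.e v y a d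
  omega

theorem s2 (g : Gd Γ r c r' x) : Gd Γ c r c' x := by
  obtain ⟨i, l, n, -⟩ := av5 (r x) 0
  obtain ⟨v, a, b, d⟩ := h.ex i l _ (h.lt x g.1).2
  exact ⟨g.1, v, a, d.symm, by omega, (h.s1 g a d (by omega)).symm⟩

theorem s3 (g : Gd Γ r c r' x) (a : Γ v) (e : r v = r x) (n : c v ≠ c x) : Gd Γ r c r' v :=
  ⟨a, x, g.1, e, n, h.sw.s1 (h.s2 g) a e n⟩

theorem s4 (g : Gd Γ r c r' x) (a : Γ v) (n : r v ≠ r x) : Gd Γ r c r' v := by
  obtain ⟨j, l, n1, n2⟩ := av5 (c x) (c v)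
  obtain ⟨x1, a1, b1, d1⟩ := h.ex _ (h.lt x g.1).1 j l
  obtain ⟨x2, a2, b2, d2⟩ := h.ex _ (h.lt v a).1 j l
  exact h.s3 (h.sw.s2 (h.sw.s3 (h.s2 (h.s3 g a1 b1 (by omega))) a2 (by omega) (by omega))) a b2.symm (by omega)

theorem s5 (g : Gd Γ r c r' x) (a : Γ v) : Gd Γ r c r' v := by
  obtain ⟨i, l, n1, n2⟩ := av5 (r x) (r v)
  obtain ⟨y, a1, b1, -⟩ := h.ex i l 0 (by decide)
  exact h.s4 (h.s4 g a1 (by omega)) a (by omega)

theorem s6 (g : Gd Γ r c r' x) {y : ℕ} (a : Γ v) (b : Γ y) (e : r v = r y) : r' v = r' y := by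
  obtain ⟨j, l, n1, n2⟩ := av5 (c v) (c y)
  obtain ⟨w, a1, b1, d1⟩ := h.ex _ (h.lt v a).1 j l
  have k := h.s2 (h.s5 g a1)
  exact (h.sw.s1 k a b1.symm (by omega)).trans (h.sw.s1 k b (by omega) (by omega)).symm

theorem rook : (∀ x y, Γ x → Γ y → r x = r y → r' x = r' y) ∨
    ∀ x y, Γ x → Γ y → (r x = r y → c' x = c' y) ∧ (c x = c y → r' x = r' y) := by
  obtain ⟨x, a, b, d⟩ := h.ex 0 (by decide) 0 (by decide)
  obtain ⟨y, a', b', d'⟩ := h.ex 0 (by decide) 1 (by decide)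
  have h' : Rk Γ r c c' r' := ⟨h.ex, h.lt, fun x y a b => (h.e x y a b).trans or_comm⟩
  refine ((h.e x y a a').1 (.inl (by omega))).imp (fun e _ _ => h.s6 ⟨a, y, a', by omega, by omega, e⟩) fun e u v k l => ?_
  have g : Gd Γ r c c' x := ⟨a, y, a', by omega, by omega, e⟩
  exact ⟨h'.s6 g k l, h'.sw.s6 (h'.s2 g) k l⟩

end Rk

/-- the row of a point -/
noncomputable def hR (c : ℕ) : ℕ := fld 3 0x242000c00190c22180000810020000000a40c00980020009002800020010002000000010000000c0918000202080001900002680003600003000000000200000901600203000001024000000000080000000002080200600020 c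

/-- the column of a point -/
noncomputable def hC (c : ℕ) : ℕ := fld 3 0x900000000180000c00240400180000c10640000000910400900000016409000030010006000000030000009000900584020c00010400009000010000000000000009180004c2600402003000024000000000040000000001040600000420 c

/-- the outer matrix -/
def hT : ℕ := 0xea402810080c0a01

/-- the points -/
def hΓ (c : ℕ) : Prop := c < 256 ∧ (GM 3).testBit c = true

/-- a matrix which fixes five vectors -/
noncomputable def hM (a b c : ℕ) : ℕ := pk 8 8 (nth 0 [1, a, a ^^^ 6, 8, 16, b, 64, c])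

theorem h_E : ∀ c < 256, (GM 3).testBit c = true → (hR c < 5 ∧ hC c < 5) ∧ ∀ d < 256, (GM 3).testBit d = true →
    (hR c = hR d ∨ hC c = hC d ↔ c ^^^ d = 0 ∨ (GM 3).testBit (c ^^^ d) = true) := by decide +kernel

theorem h_P : ∀ i < 5, ∀ j < 5, ∃ v < 256, (GM 3).testBit v = true ∧ hR v = i ∧ hC v = j := by decide +kernel

theorem h_fix : ∀ a < 256, (∀ v ∈ [1, 8, 16, 64, 6], b8 a v = b8 2 v) → ∀ b < 256,
    (∀ v ∈ [1, 8, 16, 64, 6], b8 b v = b8 32 v) → ∀ c < 256, (∀ v ∈ [1, 8, 16, 64, 6], b8 c v = b8 128 v) →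
    (∀ x < 256, (GM 3).testBit x = true → (GM 3).testBit (vm 8 x (hM a b c)) = true) →
      hM a b c = mo 8 ∨ hM a b c = hT := by decide +kernel

theorem h_tr : ∀ c ∈ [1, 16, 64, 14], (c < 256 ∧ (GM 3).testBit c = true) ∧ ∀ d < 256, (GM 3).testBit d = true →
    d ^^^ c ∈ [0, 8, 98, 106] → d = c := by decide +kernel

theorem h_T : mm 8 hT hT = mo 8 ∧ ∀ c < 256, (vm 8 c hT = c ↔ b8 c 8 = 0 ∧ b8 c 98 = 0) ∧
    vm 8 c hT ^^^ c ∈ [0, 8, 98, 106] ∧ b8 (vm 8 c hT ^^^ c) 8 = 0 ∧ b8 (vm 8 c hT ^^^ c) 98 = 0 ∧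
    ((∀ p < 256, b8 c p = q8 (vm 8 p hT ^^^ p)) → c = 8) := by decide +kernel

theorem h_p : ∀ p ∈ [2, 19], b8 8 p = 0 ∧ b8 98 p = 1 ∧ (∃ a < 256, ∃ b < 256, (vm 8 a hT = a ∧ b8 a p = 0) ∧
    (vm 8 b hT = b ∧ b8 b p = 0) ∧ b8 a b = 1) ∧ (∀ c ∈ [1, 16, 64, 14], ∃ n ∈ [0, 98], vm 8 (c ^^^ n) hT = c ^^^ n ∧
      b8 (c ^^^ n) p = 0) ∧ ∀ c < 256, (GM 3).testBit c = true → vm 8 c hT = c →
      ∃ v < 256, vm 8 v hT = v ∧ b8 v p = 0 ∧ b8 v c = 1 := by decide +kernel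

/-- generators of the stabiliser -/
noncomputable def hG : List ℕ := [fld 64 (A0 3) 1, fld 64 (A0 3) 2, fld 64 (A1 3) 1, fld 64 (A1 3) 2]

theorem h_G : (∀ m ∈ hG, vm 8 8 m = 8) ∧ ∀ c < 256, b8 c 8 = 0 → b8 c 98 = 0 → q8 c = 0 → c = 0 ∨ c = 8 ∨
    (ThR.clos hG 6 (2 ^ 16)).testBit c = true ∨ (ThR.clos hG 6 (2 ^ 16)).testBit (c ^^^ 8) = true := by decide +kernel

theorem h_W : ∀ c < 256, ((∀ v < 256, (GM 3).testBit v = true → b8 v 8 = 0 → (GM 3).testBit (v ^^^ 8) = false →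
    b8 v c = 0) → c ∈ [0, 8, 98, 106]) ∧ ((GM 3).testBit c = true → b8 c 8 = 0 → (GM 3).testBit (c ^^^ 8) = false →
    b8 c 98 = 0) := by decide +kernel

end CF.W4
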