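import Cfsg.Agent.W4.M1
import Cfsg.Agent.LX4.O4

/-! The frame adapted to a reflection which interchanges two adjacent involutions. -/

set_option autoImplicit false
set_option maxRecDepth 1000000
set_option linter.unusedSectionVars false

namespace CF.W4.Om
open Cfsg Subgroup CF.Loc CF.Even CF.LX CF.J4 CF.Comp CF.Dce CF.XG
open CF.ThR (q8 b8 el qm apq el_pow el_shl el_zero)

variable {G : Type*} [Group G] [Finite G] {Q : G → Subgroup G} {D : Set G} {z t a n k b e f u y : G} {π : G → ℕ} {M : ℕ}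

local notation "𝐀" => J4.Ac 8 (Q z) π

theorem odd_fix (S : St Q D z π) (y3 : y ^ 3 = 1) (yz : y * z = z * y) (hu : u ∈ Q z) (e : π (y * u * y⁻¹) = π u) :
    y * u * y⁻¹ = u := (S.fr.eq_or hu (norm_mem' (S.lq.nor' yz) hu) e.symm).resolve_right fun l => S.lq.z_ne (by
  have : y ^ 3 * u * (y ^ 3)⁻¹ = y * (y * (y * u * y⁻¹) * y⁻¹) * y⁻¹ := by simp only [pow_succ, pow_zero, one_mul]; group
  rwa [l, ← conj_mul (a := u), l, conj_eq_iff.2 yz, mul_assoc u, S.lq.zz, mul_one, l, y3, one_mul, inv_one, mul_one, left_eq_mul] at this)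

theorem ord3 (S : St Q D z π) (c : 𝐀 y (MI 1)) : (y ^ 4) ^ 3 = 1 ∧ 𝐀 (y ^ 4) (MI 1) := by
  have m : y ^ 3 ∈ Q z := S.mem_of_ac (by
    rw [pow_three, ← (by decide +kernel : mm 8 (MI 1) (mm 8 (MI 1) (MI 1)) = mo 8)]; exact S.mul c (S.mul c c))
  refine ⟨?_, pow_succ' y 3 ▸ S.fr.ac_mul c m⟩
  rw [← pow_mul, mul_comm, pow_mul, show 4 = 2 * 2 from rfl, pow_mul, sq (y ^ 3), sq]
  rcases S.lq.sq _ m with l | l <;> rw [l]
  exacts [mul_one 1, S.lq.zz]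

theorem ac_inv (S : St Q D z π) (c : 𝐀 b⁻¹ M) (he : e ∈ Q z) : b * e * b⁻¹ ∈ Q z ∧ π (b * e * b⁻¹) = vm 8 (π e) M := by
  simpa only [inv_inv] using And.intro (norm_mem c.1 he) (c.2 e he)

theorem root {m : ℕ} (S : Sys Q D m) (j : Adj Q D z t) (h : S3 Q z t a n) (hy : y * z = z * y) (ya : y * a = a * y)
    (hb : n * y * n⁻¹ = b) (e : a * b * a⁻¹ * b⁻¹ = f * y) (c : b * y * b⁻¹ = y ∨ b * y * b⁻¹ = y * z) :
    n * f * n⁻¹ = f ∧ b * y * b⁻¹ = y := by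
  have i : n * (a * b * a⁻¹ * b⁻¹) * n⁻¹ * y = a * b * a⁻¹ := by
    subst hb
    calc _ = n * a * n * y * (n * a * n)⁻¹ * (n * n) * y⁻¹ * (n * n)⁻¹ * y := by group
      _ = a * n * (a * y * a⁻¹) * n⁻¹ * a⁻¹ := by rw [← h.br, h.nn]; group
      _ = _ := by rw [← ya]; group
  rw [e, ← conj_mul, hb, mul_inv_eq_iff_eq_mul.1 e] at i
  replace i : n * f * n⁻¹ = f * y * (b * y * b⁻¹)⁻¹ := by rw [← mul_left_inj (b * y), ← mul_assoc, i]; group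
  rcases c with c | c <;> rw [c] at i
  · exact ⟨by simpa using i, c⟩
  · have l := h.n2 f
    rw [hy, mul_inv_rev, ← mul_assoc, mul_inv_cancel_right, S.zi j.zD] at i
    rw [i, ← conj_mul, i, h.nz, mul_assoc, mul_eq_left, mul_eq_one_iff_inv_eq, S.zi j.zD] at l
    exact absurd l.symm j.ne

/-- the reflection and the element of order three -/
structure P0 (Q : G → Subgroup G) (D : Set G) (z : G) (π : G → ℕ) (t a n k : G) : Prop extends Mm Q D z π t where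
  s3 : S3 Q z t a n
  pa : π a = 1
  k3 : k ^ 3 = 1
  ka : Ac 8 (Q z) π k⁻¹ (MI 1)
  nk : k * n = n * k

theorem Mm.exists_p0 (h : Mm Q D z π t) : ∃ a n k, P0 Q D z π t a n k := by
  obtain ⟨y, c⟩ := h.gen 1 (by decide)
  obtain ⟨y3, c⟩ := ord3 h.toSt c
  obtain ⟨a, ha, pa⟩ := h.co.surj 1 (by decide)
  obtain ⟨n, s⟩ := exists_s3 h.sys h.adj ha ((h.fr.sq_iff ha).2 (by rw [pa]; decide +kernel)) (h.sys.not_comm h.adj ha
    (by rw [Ne, h.fr.comm_iff ha h.adj.aQ, pa, h.pt]; decide +kernel))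
  have l : ∀ {u}, u ∈ Q z → vm 8 (π u) (MI 1) = π u → y ^ 4 * u = u * y ^ 4 := fun hu e => by
    simpa using comm_inv (conj_eq_iff.1 (odd_fix h.toSt (by rw [inv_pow, y3, inv_one]) (comm_inv (h.acH c)) hu
      (by rw [inv_inv, c.2 _ hu, e])))
  obtain ⟨e, he, -, -, en⟩ := s.fix h.sys h.adj (h.acH c) (l h.adj.aQ (by rw [h.pt]; decide +kernel))
    (l ha (by rw [pa]; decide +kernel))
  obtain ⟨k3, c⟩ := ord3 h.toSt ((by decide +kernel : mm 8 (mo 8) (MI 1) = MI 1) ▸ h.toSt.mul (h.toSt.self he) c)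
  exact ⟨a, n, _, h, s, pa, by rw [inv_pow, k3, inv_one], by rwa [inv_inv], comm_inv ((show Commute _ n from en).pow_left 4)⟩

namespace P0
variable (h : P0 Q D z π t a n k)
include h

theorem kz : k * z = z * k := by simpa using comm_inv (h.acH h.ka)

theorem kfix (hu : u ∈ Q z) (e : vm 8 (π u) (MI 1) = π u) : k * u * k⁻¹ = u :=
  odd_fix h.toSt h.k3 h.kz hu ((ac_inv h.toSt h.ka hu).2.trans e)

theorem kn (y : G) : k * (n * y * n⁻¹) * k⁻¹ = n * (k * y * k⁻¹) * n⁻¹ := by rw [← c2, h.nk, c2]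

/-- the conjugate of an element of the extraspecial group by the reflection -/
theorem beta {s : ℕ} (hy : y ∈ Q z) (hb : n * y * n⁻¹ = b) (c : b8 (π y) 16 = 0 ∧ b8 (π y) 1 = 0 ∧ q8 (π y) = 0 ∧
    vm 8 (π y) (R s) = π y ∧ ∀ r < 8, (1 ^^^ vm 8 1 (R r) ^^^ π y) &&& 225 = 0 → r = s) :
    b ∈ Q t ∧ b * b = 1 ∧ 𝐀 b⁻¹ (R s) ∧ b * y * b⁻¹ = y ∧ ∃ f ∈ Q z, π f = 1 ^^^ vm 8 1 (R s) ^^^ π y ∧
      n * f * n⁻¹ = f ∧ b * a * b⁻¹ = a * (f * y) := by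
  have s3 := h.s3
  have yt := (h.fr.comm_iff hy h.adj.aQ).2 (h.pt ▸ c.1)
  have ya := (h.fr.comm_iff hy s3.aQ).2 (h.pa ▸ c.2.1)
  have yy := (h.fr.sq_iff hy).2 c.2.2.1
  obtain ⟨r1, r2⟩ := s3.root0 h.sys h.adj hy yt ya
  have bQ := s3.toQ h.sys hy
  have bz := s3.cz yt
  rw [hb] at r1 r2 bQ bz
  obtain ⟨r, hr, ac⟩ := h.B (inv_mem bQ) (comm_inv bz)
  have m := ac_inv h.toSt ac (inv_mem s3.aQ)
  have p : π (a * b * a⁻¹ * b⁻¹) = 1 ^^^ vm 8 1 (R r) := by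
    rw [mul_assoc, mul_assoc, ← mul_assoc b, h.co.mul _ s3.aQ _ m.1, m.2, h.co.inv s3.aQ, h.pa]
  obtain rfl := c.2.2.2.2 r hr (by
    rwa [h.E (mul_mem (inv_mem r1) hy), h.co.mul _ (inv_mem r1) _ hy, h.co.inv r1, p] at r2)
  have l := ac_inv h.toSt ac hy
  obtain ⟨l1, l2⟩ := root h.sys h.adj s3 (h.lq.zc hy) ya hb (inv_mul_cancel_right _ y).symm
    (h.fr.eq_or hy l.1 (l.2.trans c.2.2.2.1).symm)
  have bb : b * b = 1 := by rw [← hb, conj_mul, yy]; group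
  refine ⟨bQ, bb, ac, l2, _, mul_mem r1 (inv_mem hy), by rw [h.co.mul _ r1 _ (inv_mem hy), h.co.inv hy, p], l1, ?_⟩
  rw [inv_mul_cancel_right, s3.ai, ← mul_assoc, ← mul_assoc, ← mul_assoc, s3.aa, one_mul]

theorem exists_y : ∃ y ∈ Q z, π y = 64 ∧ k * (k * y * k⁻¹) * k⁻¹ = y * (k * y * k⁻¹) := by
  obtain ⟨y, hy, e⟩ := h.co.surj 64 (by decide)
  have a := ac_inv h.toSt h.ka hy
  have b := ac_inv h.toSt h.ka a.1
  rcases h.fr.eq_or (mul_mem hy a.1) b.1 (by rw [h.co.mul _ hy _ a.1, b.2, a.2, e]; decide +kernel) with l | l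
  · exact ⟨y, hy, e, l⟩
  · refine ⟨y * z, mul_mem hy h.lq.mem, by rw [h.co.mul _ hy _ h.lq.mem, e, h.fr.pz]; rfl, ?_⟩
    rw [← conj_mul (a := y), ← conj_mul (c := k * z * k⁻¹), l, conj_eq_iff.2 h.kz, conj_eq_iff.2 h.kz, mul_assoc y z,
      h.lq.zc a.1, ← mul_assoc z, h.lq.zz, one_mul, mul_assoc, h.lq.zz, mul_one]

end P0

/-- the frame -/
structure P1 (Q : G → Subgroup G) (D : Set G) (z : G) (π : G → ℕ) (q : ℕ → G) (x k l n : G) : Prop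
    extends P0 Q D z π (q 4) (q 0) n k where
  fq : ∀ i < 8, q i ∈ Q z ∧ π (q i) = 2 ^ i
  nx : n * q 6 * n⁻¹ = x
  nl : n * q 5 * n⁻¹ = l
  hx : x ∈ Q (q 4) ∧ x * x = 1 ∧ Ac 8 (Q z) π x⁻¹ (R 2)
  hl : l ∈ Q (q 4) ∧ l * l = 1 ∧ Ac 8 (Q z) π l⁻¹ (R 1)
  x0 : x * q 0 * x⁻¹ = q 0 * (q 1 * q 6)
  x6 : x * q 6 * x⁻¹ = q 6
  n1 : n * q 1 * n⁻¹ = q 1
  l0 : l * q 0 * l⁻¹ = q 0 * q 5
  l5 : l * q 5 * l⁻¹ = q 5
  l6 : l * q 6 * l⁻¹ = q 3 * q 6 * z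
  k2 : k * q 3 * k⁻¹ = q 2
  k6 : k * q 6 * k⁻¹ = q 7
  k7 : k * q 7 * k⁻¹ = q 6 * q 7

theorem P0.exists_p1 (h : P0 Q D z π t a n k) : ∃ q x l, P1 Q D z π q x k l n := by
  obtain ⟨e, he, pe⟩ := h.co.surj 32 (by decide)
  obtain ⟨l1, l2, l3, l4, f, hf, pf, nf, l5⟩ := h.beta (s := 1) he rfl (by rw [pe]; decide +kernel)
  obtain rfl : f = 1 := (h.lq.mem_z.1 ((h.co.ker f hf).1 (by rw [pf, pe]; decide +kernel))).resolve_right fun c =>
    h.adj.ne (by rwa [c, h.s3.nz] at nf)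
  obtain ⟨y, hy, py, ky⟩ := h.exists_y
  obtain ⟨x1, x2, x3, x4, f, hf, pf, nf, x5⟩ := h.beta (s := 2) hy rfl (by rw [py]; decide +kernel)
  have m := ac_inv h.toSt l3 hy
  have m1 := mul_mem m.1 (inv_mem h.lq.mem)
  have m2 := mul_mem m1 (inv_mem hy)
  have p := h.co.mul _ m1 _ (inv_mem hy)
  rw [h.co.mul _ m.1 _ (inv_mem h.lq.mem), h.co.inv hy, h.co.inv h.lq.mem, m.2, h.fr.pz, py,
    (by decide +kernel : vm 8 64 (R 1) ^^^ 0 ^^^ 64 = 8)] at p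
  obtain ⟨u, eu⟩ : ∃ u, n * e * n⁻¹ * y * (n * e * n⁻¹)⁻¹ * z⁻¹ * y⁻¹ = u := ⟨_, rfl⟩
  rw [eu] at m2 p
  have r := ac_inv h.toSt h.ka m2
  have r' := ac_inv h.toSt h.ka hy
  refine ⟨fun i => [a, f, k * u * k⁻¹, u, t, e, y, k * y * k⁻¹].getD i 1, _, _, h, fun i hi => ?_, rfl, rfl, ⟨x1, x2, x3⟩,
    ⟨l1, l2, l3⟩, x5, x4, nf, l5.trans (congrArg _ (one_mul e)), l4,
    mul_inv_eq_iff_eq_mul.1 (mul_inv_eq_iff_eq_mul.1 eu), rfl, rfl, ky⟩
  interval_cases i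
  exacts [⟨h.s3.aQ, h.pa⟩, ⟨hf, pf.trans (by rw [py]; decide +kernel)⟩, ⟨r.1, r.2.trans (by rw [p]; decide +kernel)⟩, ⟨m2, p⟩,
    ⟨h.adj.aQ, h.pt⟩, ⟨he, pe⟩, ⟨hy, py⟩, ⟨r'.1, r'.2.trans (by rw [py]; decide +kernel)⟩]

variable {q : ℕ → G} {x l : G}

theorem el_ex (q : ℕ → G) (z : G) : el q z 33 = q 0 * q 5 ∧ el q z 67 = q 0 * (q 1 * q 6) ∧ el q z 328 = q 3 * q 6 * z ∧
    el q z 388 = q 2 * q 7 * z ∧ el q z 192 = q 6 * q 7 ∧ el q z 40 = q 3 * q 5 ∧ el q z 48 = q 4 * q 5 ∧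
    el q z 131 = q 0 * q 1 * q 7 := by
  simp +decide [el, chi_succ, show ∀ g c, chi (G := G) g 0 c = 1 from fun _ _ => rfl, mul_assoc]

namespace P1
variable (h : P1 Q D z π q x k l n)
include h

theorem Eact (hb : b ∈ Q (q 4)) (c : 𝐀 b⁻¹ M) {i : ℕ} (hi : i < 4) :
    b * q (i + 1) * b⁻¹ = el q z (vm 8 (2 ^ (i + 1)) M) := by
  have m := h.fq (i + 1) (by omega)
  have p := (ac_inv h.toSt c m.1).2
  rw [m.2] at p
  obtain ⟨d1, d2⟩ := (by decide +kernel : ∀ i < 4, 2 ^ (i + 1) &&& 225 = 0 ∧ qm (2 ^ 4) (2 ^ (i + 1)) % 256 =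
    qm (2 ^ 4) (2 ^ (i + 1))) i hi
  rcases h.sys.cases h.adj.aD hb ((h.E m.1).2 (m.2 ▸ d1)) with e | e <;> rw [← p, e]
  · rw [m.2, el_pow q z (by omega)]
  · rw [← el_pow q z (i := 4) (by omega), ← el_pow q z (i := i + 1) (by omega), h.fr.el_mul h.fq, h.fr.π_el h.fq, d2]

theorem xz : x * z = z * x := by simpa using comm_inv (h.acH h.hx.2.2)

theorem lz : l * z = z * l := by simpa using comm_inv (h.acH h.hl.2.2)

theorem kq {i : ℕ} (hi : i < 8 ∧ vm 8 (2 ^ i) (MI 1) = 2 ^ i) : k * q i * k⁻¹ = q i :=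
  h.kfix (h.fq i hi.1).1 (by rw [(h.fq i hi.1).2, hi.2])

theorem kl : k * l * k⁻¹ = l := by rw [← h.nl, h.kn, h.kq (by decide +kernel)]

theorem qc {i j : ℕ} (e : i < 8 ∧ j < 8 ∧ b8 (2 ^ i) (2 ^ j) = 0) : q i * q j = q j * q i :=
  (h.fr.comm_iff (h.fq i e.1).1 (h.fq j e.2.1).1).2 (by rw [(h.fq i e.1).2, (h.fq j e.2.1).2, e.2.2])

theorem lx : l * x = x * l := by rw [← h.nx, ← h.nl, conj_mul, conj_mul, h.qc (by decide +kernel)]

theorem l7 : l * q 7 * l⁻¹ = q 2 * q 7 * z := by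
  rw [← h.k6, ← c2, ← conj_eq_iff.1 h.kl, c2, h.l6, ← conj_mul, ← conj_mul, h.k2, conj_eq_iff.2 h.kz]

theorem tl : ∀ i < 8, l * q i * l⁻¹ = el q z (fld 9 (TL 3) i) := fun i hi => by
  have e := fun i hi => (h.Eact h.hl.1 h.hl.2.2 hi).trans (congrArg (el q z)
    ((by decide +kernel : ∀ i < 4, vm 8 (2 ^ (i + 1)) (R 1) = fld 9 (TL 3) (i + 1)) i hi))
  have a := el_ex q z
  interval_cases i
  exacts [h.l0.trans a.1.symm, e 0 (by decide), e 1 (by decide), e 2 (by decide), e 3 (by decide),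
    h.l5.trans (el_pow q z (by decide)).symm, h.l6.trans a.2.2.1.symm, h.l7.trans a.2.2.2.1.symm]

theorem tk : ∀ i < 8, k * q i * k⁻¹ = el q z (fld 9 (TL 1) i) := fun i hi => by
  have e := fun i hi => (h.kq (i := i) hi).trans (el_pow q z hi.1).symm
  have a := el_ex q z
  have : k * q 2 * k⁻¹ = el q z (fld 9 (TL 1) 2) := by
    have := congrArg (fun y => k * y * k⁻¹) h.l7
    simp only [← c2 k l, conj_eq_iff.1 h.kl] at this
    rw [c2, ← conj_mul (c := z), ← conj_mul (c := q 7), h.k7, conj_eq_iff.2 h.kz, ← a.2.2.2.2.1,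
      h.fr.conj_el h.fq (mem_c1.2 h.lz) h.tl] at this
    rw [← mul_left_inj (el q z 192), ← mul_left_inj z, ← this, h.fr.el_mul h.fq]
    nth_rewrite 3 [← pow_one z]
    rw [← el_shl q, h.fr.el_mul h.fq]
    exact congrArg (el q z) (by decide +kernel)
  interval_cases i
  exacts [e 0 (by decide +kernel), e 1 (by decide +kernel), this, h.k2.trans (el_pow q z (by decide)).symm,
    e 4 (by decide +kernel), e 5 (by decide +kernel), h.k6.trans (el_pow q z (by decide)).symm, h.k7.trans a.2.2.2.2.1.symm]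

theorem tx : ∀ i < 8, x * q i * x⁻¹ = el q z (fld 9 (TL 0) i) := fun i hi => by
  have e := fun i hi => (h.Eact h.hx.1 h.hx.2.2 hi).trans (congrArg (el q z)
    ((by decide +kernel : ∀ i < 4, vm 8 (2 ^ (i + 1)) (R 2) = fld 9 (TL 0) (i + 1)) i hi))
  have a := el_ex q z
  have x0 := h.x0.trans a.2.1.symm
  suffices k : ∀ i, i = 5 ∨ i = 7 → x * q i * x⁻¹ = el q z (fld 9 (TL 0) i) by
    interval_cases i
    exacts [x0, e 0 (by decide), e 1 (by decide), e 2 (by decide), e 3 (by decide), k 5 (.inl rfl),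
      h.x6.trans (el_pow q z (by decide)).symm, k 7 (.inr rfl)]
  rintro _ (rfl | rfl)
  · have := h.fr.conj_el h.fq (mem_c1.2 h.lz) h.tl 67
    rw [← x0, ← c2, h.lx, c2, h.l0, ← conj_mul, x0] at this
    rw [← mul_right_inj (el q z 67), this, h.fr.el_mul h.fq]
    exact congrArg (el q z) (by decide +kernel)
  · have c := h.fr.conj_el h.fq (mem_c1.2 h.kz) h.tk
    have k0 := h.kq (i := 0) (by decide +kernel)
    have x1 := c 67
    rw [← x0, ← conj_mul, ← conj_mul, ← conj_inv, k0, (by decide +kernel : apq (TL 1) 67 = 131)] at x1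
    have x2 := c 131
    rw [← x1, ← conj_mul, ← conj_mul (c := q 0), ← conj_inv (a := k * x * k⁻¹), k0, ← h.nx, h.kn, h.kn, h.k6, h.k7,
      ← conj_mul (a := q 6), c2, ← h.k6, ← h.kn, h.nx, x1, a.2.2.2.2.2.2.2, ← conj_mul, ← conj_mul, x0, e 0 (by decide)] at x2
    rw [← mul_right_inj (el q z 67 * _), x2, h.fr.el_mul h.fq, h.fr.el_mul h.fq]
    exact congrArg (el q z) (by decide +kernel)

theorem n3 : n * q 3 * n⁻¹ = q 3 := by
  have a := el_ex q z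
  have c := h.fr.conj_el h.fq (mem_c1.2 h.xz) h.tx 48
  have := congrArg (fun y => n * y * n⁻¹) h.l6
  simp only [← conj_mul (b := n), ← conj_inv (b := n), h.nx, h.s3.nz] at this
  rw [← h.nl, h.s3.n2] at this
  rw [(by decide +kernel : apq (TL 0) 48 = 40), a.2.2.2.2.2.1, a.2.2.2.2.2.2.1] at c
  calc _ = q 5 * (x * (q 4 * q 5) * x⁻¹)⁻¹ := by rw [← mul_left_inj (x * q 4), ← mul_assoc, ← this]; group
    _ = _ := by rw [c, mul_inv_rev, mul_inv_cancel_left, inv_eq_of_mul_eq_one_right (h.fr.qq h.fq (by decide))]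

theorem n2 : n * q 2 * n⁻¹ = q 2 := by rw [← h.k2, ← h.kn, h.n3]

end P1

end CF.W4.Om
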