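import Cfsg.Agent.W4.MD
import Cfsg.Agent.Bt.Xc2
import Cfsg.Agent.Schur.Bit
import Cfsg.Agent.Comp.PG
import Cfsg.Agent.Comp.Real

/-! Solutions of the relations generate the orthogonal group of minus type. -/

set_option autoImplicit false
set_option maxRecDepth 1000000

namespace CF.W4.Od
open Cfsg CF.Comp CF.Schur.Pc CF.Geom Matrix

/-- the model -/
abbrev M8 : Type := Omega (ZMod 2) (quadFormMinus 3 (ZMod 2) 1 1)

/-- the numbering of the coordinates -/
def ε : (Fin 3 ⊕ Fin 3) ⊕ Fin 2 ≃ Fin 8 :=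
  ((finSumFinEquiv (m := 3) (n := 3)).sumCongr (.refl _)).trans (finSumFinEquiv (m := 6) (n := 2))

/-- the natural representation -/
noncomputable def ρ : M8 →* Matrix (Fin 8) (Fin 8) (ZMod 2) :=
  (reindexRingEquiv (ZMod 2) ε).toMonoidHom.comp (omMat _ _)

theorem simple8 : IsSimpleGroup M8 := Bt.simple_omega_two (qMinus_nondegenerate 3 Classical.aniso_one_one) (by simp)

theorem card8 : Nat.card M8 = 197406720 := by
  have n := qMinus_nondegenerate 3 Classical.aniso_one_one
  have h := (commutator (OG (qMinus 3 (ZMod 2) 1 1))).card_mul_index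
  rw [index_commutator_even n rfl (reflSub_eq_top n (Or.inr (by simp))),
    card_OG_minus n (not_isPlus_qMinus 3 Classical.aniso_one_one) (m := 3) (by simp), Nat.card_zmod,
    ← Nat.card_congr (omegaEquiv (qMinus 3 (ZMod 2) 1 1)).toEquiv] at h
  simp only [Finset.prod_range_succ, Finset.prod_range_zero] at h
  exact Nat.eq_of_mul_eq_mul_right two_pos (h.trans (by norm_num))

theorem bnd {G : Type*} [Group G] {f : ℕ → G} (hr : ∀ r ∈ RO, ev f r = 1) : Bound f (gensW 7) 197406720 :=
  have k : ∀ m, ∀ r ∈ RK m, ev f r = 1 := fun _ r h => hr r (List.mem_of_mem_filter h)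
  e7.bound (k _) (e6.bound (k _) (e5.bound (k _) (e4.bound (k _) (e3.bound (k _) (e2.bound (k _) (bound_nil _))))))

theorem model : ∃ F, BM ρ NM F ∧ clo F (gensW 7) = ⊤ := by
  have T := tabP_ok (ZMod 2) 2 (by decide)
  obtain ⟨F, h1, h2⟩ := exists_els ρ (m := 7) (M := fun i => Comp.mat Nat.cast (Equiv.refl _) (nth [] NA i)) fun i hi => by
    obtain ⟨x, e⟩ := T.exists_om (Q := quadFormMinus 3 (ZMod 2) 1 1) ε (by decide +kernel) (allFrom_zero.1 memN i hi)
    exact ⟨x, (congrArg (reindexRingEquiv (ZMod 2) ε) e).trans (by ext a b; simp [Comp.mat])⟩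
  obtain ⟨σ, h3⟩ := linN.vec
  obtain ⟨Cs, h4, h5, h6⟩ := linN.act
  have : Finite M8 := Nat.finite_of_card_ne_zero (by rw [card8]; decide)
  refine ⟨F, bm_of_gens (m := 7) (by decide +kernel) (fun i hi => ?_) h2, Subgroup.eq_top_of_le_card _ (card8.trans_le
    (chN.le_card (T.reps_lin _ ρ h3 linN.norm (wf_of_wfAll linN.wf) linN.len h1 h2 h4 h5 h6) h2 fun i => ?_))⟩
  · rw [h1 i hi, ← mat_unp, (by decide +kernel : ∀ i < 7, nth [] NA i = unp 8 (nth (idB 8) NM (2 * i))) i hi]
  · rw [clo_gensW h2]; exact Subgroup.subset_closure ⟨i, rfl⟩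

theorem exists_emb {G : Type*} [Group G] {f : ℕ → G} (hr : ∀ r ∈ RO, ev f r = 1) (h1 : f 0 ≠ 1) :
    Nonempty (M8 ≃* clo f (gensW 7)) := by
  obtain ⟨F, h, top⟩ := model
  have inj : Function.Injective ρ := (reindexRingEquiv _ _).injective.comp fun _ _ e => Subtype.ext (Subtype.ext (Units.ext e))
  have := simple8
  obtain ⟨φ, i, e, -⟩ := (bnd (ug_rels _)).exists_inj (fun r hr => h.same inj r []
    (lall_iff.1 (by decide +kernel : lall (fun r => bsame 8 NM r []) RO = true) r hr)) top card8 hr (w := [1])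
    (by decide +kernel) (by rwa [← ev_single f 0] at h1)
  exact ⟨e ▸ MonoidHom.ofInjective i⟩

theorem iso8 : Nonempty (POmega (ZMod 2) (quadFormMinus 3 (ZMod 2) 1 1) ≃* M8) := by
  have s := simple8
  have z : Subgroup.center M8 = ⊥ := (s.eq_bot_or_eq_top_of_normal _ inferInstance).resolve_right fun e => by
    have : IsMulCommutative M8 := ⟨⟨fun x y => Subgroup.mem_center_iff.1 (e.ge (Subgroup.mem_top y)) x⟩⟩
    exact absurd (card8 ▸ Group.is_simple_iff_prime_card.1 s) (by norm_num)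
  exact ⟨(QuotientGroup.quotientMulEquivOfEq z).trans QuotientGroup.quotientBot⟩

end CF.W4.Od
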