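import Cfsg.Agent.W4.M2
import Cfsg.Agent.W4.M4

/-! The generators and their relations. -/

set_option autoImplicit false
set_option maxRecDepth 1000000
set_option synthInstance.maxSize 2000
set_option linter.unusedSectionVars false

namespace CF.W4.Om
open Cfsg Subgroup CF.Loc CF.Even CF.LX CF.J4 CF.Comp CF.Dce CF.XG
open CF.ThR (q8 b8 el qm apq el_pow el_shl el_zero)
open CF.LX4 (cyc3 exact_lift el_inj)

/-- the action of a word on the codes -/
noncomputable def aw (w : List ℕ) (c : ℕ) : ℕ := List.rec (motive := fun _ => ℕ) c (fun x _ r => apq (TL x) r) w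

variable {G : Type*} [Group G]

/-- the generators in the centraliser -/
def gg (x k s l m : G) : ℕ → G
  | 0 => x
  | 1 => k
  | 2 => s
  | 3 => l
  | _ => m

theorem cyc4 {x u v w y : G} (a : x * u * x⁻¹ = v) (b : x * v * x⁻¹ = w) (c : x * w * x⁻¹ = y) (d : x * y * x⁻¹ = u) :
    x ^ 4 * u = u * x ^ 4 ∧ x ^ 4 * v = v * x ^ 4 ∧ x ^ 4 * y = y * x ^ 4 := by
  have k : ∀ y, x ^ 4 * y * (x ^ 4)⁻¹ = x * (x * (x * (x * y * x⁻¹) * x⁻¹) * x⁻¹) * x⁻¹ := fun y => by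
    simp only [pow_succ, pow_zero, one_mul]; group
  exact ⟨conj_eq_iff.1 (by rw [k, a, b, c, d]), conj_eq_iff.1 (by rw [k, b, c, d, a]), conj_eq_iff.1 (by rw [k, d, a, b, c])⟩

theorem i2 {x : G} (e : x * x = 1) (y : G) : x * (x * y) = y := by rw [← mul_assoc, e, one_mul]

theorem br3 {x s : G} (xx : x * x = 1) (ss : s * s = 1) (c : (x * s) ^ 3 = 1) : s * (x * s) = x * (s * x) := by
  rw [← mul_right_inj (x * (s * x))]
  simpa only [pow_succ, pow_zero, one_mul, mul_assoc, i2 xx, i2 ss, xx] using c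

theorem id4 {x s u : G} (xx : x * x = 1) (ss : s * s = 1) (uu : u * u = 1) (c : (x * s) ^ 3 = 1) (e : x * u = u * x) :
    s * (x * (s * u * (s * u)) * x⁻¹) * s⁻¹ * (s * u * (s * u)) = x * (s * u * (s * u)) * x⁻¹ := by
  have b : ∀ y, s * (x * (s * y)) = x * (s * (x * y)) := fun y => by
    simpa only [mul_assoc] using congrArg (· * y) (br3 xx ss c)
  have e' : ∀ y, x * (u * y) = u * (x * y) := fun y => by rw [← mul_assoc, e, mul_assoc]
  simp only [inv_eq_of_mul_eq_one_right xx, inv_eq_of_mul_eq_one_right ss, mul_assoc, i2 ss]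
  rw [e' (s * u), i2 uu, b, b, e', i2 xx, e]

variable [Finite G] {Q : G → Subgroup G} {D : Set G} {z n x k l s m u v w y : G} {π : G → ℕ} {q : ℕ → G} {M : ℕ}

local notation "𝐀" => J4.Ac 8 (Q z) π

theorem cj3 {E : Subgroup G} (h : LQ E z) (w3 : w ^ 3 = 1) (v3 : v ^ 3 = 1) (hv : v * z = z * v) (hy : y * z = z * y)
    (e : y * w = v * y ∨ y * w = v * y * z) : y * w = v * y :=
  mul_inv_eq_iff_eq_mul.1 (LX4.LQ.odd3 h (by rw [conj_pow, w3]; group) v3 (mem_c1.2 hv) (e.imp mul_inv_eq_iff_eq_mul.2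
    fun e => by rw [e, mul_assoc v, hy]; group))

theorem sq3 {E : Subgroup G} (h : LQ E z) (uu : u * u = 1) (c : (u * v) ^ 3 = 1) (hu : u * z = z * u) (hv : v * z = z * v)
    (e : u * (u * v) = u * v * (u * v) * u ∨ u * (u * v) = u * v * (u * v) * u * z) : v * v = 1 := by
  have := cj3 h c (by rw [← sq, ← pow_mul, mul_comm, pow_mul, c, one_pow]) (comm_mul (comm_mul hu hv) (comm_mul hu hv)) hu e
  rw [i2 uu] at this
  nth_rewrite 1 [this]
  rw [← c]; simp only [pow_succ, pow_zero, one_mul, mul_assoc]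

/-- lifts of the remaining reflections -/
structure P2 (Q : G → Subgroup G) (D : Set G) (z : G) (π : G → ℕ) (q : ℕ → G) (x k l n s m : G) : Prop
    extends P1 Q D z π q x k l n where
  sa : Ac 8 (Q z) π s⁻¹ (MI 2)
  ma : Ac 8 (Q z) π m⁻¹ (MI 4)
  ts : ∀ i < 8, s * q i * s⁻¹ = el q z (fld 9 (TL 2) i)
  tm : ∀ i < 8, m * q i * m⁻¹ = el q z (fld 9 (TL 4) i)

namespace P2
variable (h : P2 Q D z π q x k l n s m)
include h

theorem sz : s * z = z * s := by simpa using comm_inv (h.acH h.sa)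

theorem mz : m * z = z * m := by simpa using comm_inv (h.acH h.ma)

theorem conj_w {w : List ℕ} (hw : ∀ j ∈ w, j < 5) (c : ℕ) : (w.map (gg x k s l m)).prod ∈ 𝐂₁(z) ∧
    (w.map (gg x k s l m)).prod * el q z c * (w.map (gg x k s l m)).prod⁻¹ = el q z (aw w c) := by
  induction w with
  | nil => exact ⟨one_mem _, by simp [aw]⟩
  | cons j w ih =>
    obtain ⟨a, b⟩ := ih fun y hy => hw y (List.mem_cons_of_mem _ hy)
    have hj := hw j List.mem_cons_self
    have : gg x k s l m j * z = z * gg x k s l m j ∧ ∀ i < 8, gg x k s l m j * q i * (gg x k s l m j)⁻¹ =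
        el q z (fld 9 (TL j) i) := by
      interval_cases j
      exacts [⟨h.xz, h.tx⟩, ⟨h.kz, h.tk⟩, ⟨h.sz, h.ts⟩, ⟨h.lz, h.tl⟩, ⟨h.mz, h.tm⟩]
    rw [List.map_cons, List.prod_cons]
    exact ⟨mul_mem (mem_c1.2 this.1) a, by
      rw [show aw (j :: w) c = apq (TL j) (aw w c) from rfl, ← h.fr.conj_el h.fq (mem_c1.2 this.1) this.2, ← b, c2]⟩

theorem same (u w : List ℕ) (e : (∀ x ∈ u, x < 5) ∧ (∀ x ∈ w, x < 5) ∧ ∀ i < 8, aw u (2 ^ i) = aw w (2 ^ i)) :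
    (u.map (gg x k s l m)).prod = (w.map (gg x k s l m)).prod ∨
      (u.map (gg x k s l m)).prod = (w.map (gg x k s l m)).prod * z :=
  (h.fr.cent_of h.fq (mul_mem (inv_mem (h.conj_w e.2.1 0).1) (h.conj_w e.1 0).1) fun i hi => by
    have a := (h.conj_w e.1 (2 ^ i)).2
    rw [e.2.2 i hi, ← (h.conj_w e.2.1 (2 ^ i)).2, el_pow q z hi] at a
    rw [c2, a]; group).imp (fun e => (inv_mul_eq_one.1 e).symm) inv_mul_eq_iff_eq_mul.1

omit h in
theorem cube (h : St Q D z π) (hq : ∀ i < 8, q i ∈ Q z) (hu : u * z = z * u) (a : 𝐀 v⁻¹ M) {A : ℕ → G}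
    (t : ∀ i < 8, v * q i * v⁻¹ = A i) (c : (u * v) ^ 3 = 1 ∨ (u * v) ^ 3 = 1 * z) :
    ∃ v, (𝐀 v⁻¹ M ∧ ∀ i < 8, v * q i * v⁻¹ = A i) ∧ (u * v) ^ 3 = 1 := c.elim (fun c => ⟨v, ⟨a, t⟩, c⟩) fun c => by
  have vz : v * z = z * v := by simpa using comm_inv (h.acH a)
  refine ⟨v * z, ⟨by rw [vz, mul_inv_rev]; exact h.fr.ac_mul a (inv_mem h.lq.mem), fun i hi => ?_⟩, ?_⟩
  · rw [c2, conj_eq_iff.2 (h.lq.zc (hq i hi)).symm, t i hi]
  · rw [← mul_assoc, (show Commute (u * v) z from comm_mul hu vz).mul_pow, c, pow_succ z, sq, h.lq.zz, one_mul, h.lq.zz]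

end P2

theorem P1.exists_p2 (h : P1 Q D z π q x k l n) : ∃ s m, P2 Q D z π q x k l n s m ∧ (x * s) ^ 3 = 1 ∧ (l * m) ^ 3 = 1 := by
  have e : ∀ j < 5, ∃ v, 𝐀 v⁻¹ (MI j) ∧ ∀ i < 8, v * q i * v⁻¹ = el q z (fld 9 (TL j) i) := fun j hj => by
    obtain ⟨y, a⟩ := h.gen j hj
    obtain ⟨u, hu, k⟩ := exact_lift h.fr h.fq a (A := TL j) (by clear a; revert j; decide +kernel)
      (by clear a; revert j; decide +kernel) 8 le_rfl
    exact ⟨(y * u)⁻¹, by simpa only [inv_inv] using And.intro (h.fr.ac_mul a hu) k⟩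
  obtain ⟨s, s1, s2⟩ := e 2 (by decide)
  obtain ⟨m, m1, m2⟩ := e 4 (by decide)
  have p : P2 Q D z π q x k l n s m := ⟨h, s1, m1, s2, m2⟩
  obtain ⟨s, a, b⟩ := P2.cube h.toSt (fun i hi => (h.fq i hi).1) h.xz s1 s2 (by
    simpa [gg, pow_succ, mul_assoc] using p.same [0, 2, 0, 2, 0, 2] [] (by decide +kernel))
  obtain ⟨m, c, d⟩ := P2.cube h.toSt (fun i hi => (h.fq i hi).1) h.lz m1 m2 (by
    simpa [gg, pow_succ, mul_assoc] using p.same [3, 4, 3, 4, 3, 4] [] (by decide +kernel))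
  exact ⟨s, m, ⟨h, a.1, c.1, a.2, c.2⟩, b, d⟩

/-- the normalised lifts -/
structure P3 (Q : G → Subgroup G) (D : Set G) (z : G) (π : G → ℕ) (q : ℕ → G) (x k l n s m : G) : Prop
    extends P2 Q D z π q x k l n s m where
  xs : (x * s) ^ 3 = 1
  lm : (l * m) ^ 3 = 1

namespace P3
variable (h : P3 Q D z π q x k l n s m)
include h

theorem ss : s * s = 1 := sq3 h.lq h.hx.2.1 h.xs h.xz h.sz (by
  simpa only [gg, List.map, List.prod_cons, List.prod_nil, mul_assoc, mul_one] using h.same [0, 0, 2] [0, 2, 0, 2, 0] (by decide +kernel))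

theorem mm' : m * m = 1 := sq3 h.lq h.hl.2.1 h.lm h.lz h.mz (by
  simpa only [gg, List.map, List.prod_cons, List.prod_nil, mul_assoc, mul_one] using h.same [3, 3, 4] [3, 4, 3, 4, 3] (by decide +kernel))

theorem sk : s * k = k * k * s := cj3 h.lq h.k3 (by rw [← sq, ← pow_mul, mul_comm, pow_mul, h.k3, one_pow]) (comm_mul h.kz h.kz) h.sz (by
  simpa only [gg, List.map, List.prod_cons, List.prod_nil, mul_assoc, mul_one] using h.same [2, 1] [1, 1, 2] (by decide +kernel))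

theorem mk' : m * k = k * m := cj3 h.lq h.k3 h.k3 h.kz h.mz (by
  simpa only [gg, List.map, List.prod_cons, List.prod_nil, mul_assoc, mul_one] using h.same [4, 1] [1, 4] (by decide +kernel))

theorem ls : l * s = s * l := by
  have := cj3 h.lq h.xs h.xs (comm_mul h.xz h.sz) h.lz (by
    simpa only [gg, List.map, List.prod_cons, List.prod_nil, mul_assoc, mul_one] using h.same [3, 0, 2] [0, 2, 3] (by decide +kernel))
  rwa [← mul_assoc, h.lx, mul_assoc, mul_assoc, mul_right_inj] at this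

theorem xm : x * m = m * x := by
  have := cj3 h.lq h.lm h.lm (comm_mul h.lz h.mz) h.xz (by
    simpa only [gg, List.map, List.prod_cons, List.prod_nil, mul_assoc, mul_one] using h.same [0, 3, 4] [3, 4, 0] (by decide +kernel))
  rwa [← mul_assoc, ← h.lx, mul_assoc, mul_assoc, mul_right_inj] at this

theorem sm : s * m = m * s := by
  have := cj3 h.lq h.lm h.lm (comm_mul h.lz h.mz) h.sz (by
    simpa only [gg, List.map, List.prod_cons, List.prod_nil, mul_assoc, mul_one] using h.same [2, 3, 4] [3, 4, 2] (by decide +kernel))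
  rwa [← mul_assoc, ← h.ls, mul_assoc, mul_assoc, mul_right_inj] at this

theorem mq {i j : ℕ} (e : i < 8 ∧ j < 8 ∧ fld 9 (TL 4) i = 2 ^ j) : m * q i * m⁻¹ = q j := by
  rw [h.tm i e.1, e.2.2, el_pow q z e.2.1]

theorem sq' {i j : ℕ} (e : i < 8 ∧ j < 8 ∧ fld 9 (TL 2) i = 2 ^ j) : s * q i * s⁻¹ = q j := by
  rw [h.ts i e.1, e.2.2, el_pow q z e.2.1]

theorem fixc (a : 𝐀 w M) {i : ℕ} (hi : i < 8) (e : w * q i = q i * w) : vm 8 (2 ^ i) M = 2 ^ i := by
  rw [← (h.fq i hi).2, ← a.2 _ (h.fq i hi).1, mul_assoc, ← e, inv_mul_cancel_left]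

theorem fixb {c i : ℕ} (hi : i < 8) (e : el q z c * q i = q i * el q z c) : b8 (c % 256) (2 ^ i) = 0 := by
  rw [← (h.fq i hi).2, ← h.fr.π_el h.fq]; exact (h.fr.comm_iff (h.fr.el_mem h.fq c) (h.fq i hi).1).1 e

theorem eli {c : ℕ} (e : q8 (c % 256) = 0) : (el q z c)⁻¹ = el q z c :=
  inv_eq_of_mul_eq_one_right ((h.fr.sq_iff (h.fr.el_mem h.fq c)).2 (by rwa [h.fr.π_el h.fq]))

theorem an : (q 0 * n) ^ 3 = 1 := by
  rw [pow_three, mul_assoc (q 0) n, ← mul_assoc n, ← mul_assoc n, ← h.s3.br]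
  simp only [mul_assoc, i2 h.s3.aa, h.s3.nn]

theorem bmn : (m * n) ^ 3 = 1 := by
  have s3 := h.s3
  have c : ∀ {u v w}, n * u * n⁻¹ = v → m * v * m⁻¹ = w → m * n * u * (m * n)⁻¹ = w := fun e e' => by rw [c2, e, e']
  have t1 := cyc3 (c s3.nz (h.mq (j := 1) (by decide +kernel))) (c h.n1 (h.mq (j := 4) (by decide +kernel)))
    (c s3.nt (conj_eq_iff.2 h.mz))
  have e6 : n * x * n⁻¹ = q 6 := h.nx ▸ s3.n2 _
  have t2 := cyc3 (c h.n3 (h.mq (j := 6) (by decide +kernel))) (c h.nx (conj_eq_iff.2 h.xm.symm))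
    (c e6 (h.mq (by decide +kernel)))
  have t3 := cyc3 (c h.n2 (h.mq (j := 7) (by decide +kernel))) (c rfl (by
    rw [← h.k6, ← h.kn, h.nx, ← c2, h.mk', c2, conj_eq_iff.2 h.xm.symm])) (c (by
    rw [← h.kn, e6, h.k6]) (h.mq (by decide +kernel)))
  have mi := inv_eq_of_mul_eq_one_right h.mm'
  obtain ⟨w, ew⟩ : ∃ w, (m * n) ^ 3 = w := ⟨_, rfl⟩
  have wn : n * w * n⁻¹ = w⁻¹ := by rw [← ew, ← conj_pow, ← inv_pow, mul_inv_rev, mi, s3.ni, mul_assoc, mul_assoc, s3.nn, mul_one]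
  have wm : m * w * m⁻¹ = w⁻¹ := by rw [← ew, ← conj_pow, ← inv_pow, mul_inv_rev, ← mul_assoc, h.mm', one_mul, s3.ni]
  have wl : (l * w⁻¹ * m) ^ 3 = 1 := by
    have : l * w⁻¹ * m = n * m * (q 0 * n) * (n * m)⁻¹ := by
      rw [← conj_mul, c2, h.mq (j := 5) (by decide +kernel), h.nl, ← ew, ← inv_pow]
      simp only [mul_inv_rev, mi, s3.ni, pow_three, mul_assoc, h.mm', mul_one]
    rw [this, conj_pow, h.an]; group
  rw [ew] at t1 t2 t3 ⊢
  obtain ⟨r, hr, a⟩ := h.cls t1.1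
  have wq : ∀ i ∈ [1, 2, 3, 4, 6, 7], i < 8 ∧ w * q i = q i * w := by simp [t1, t2, t3]
  obtain ⟨c, hc, rfl⟩ := h.fr.el_surj h.fq (h.mem_of_ac (fix6 r hr (fun i hi => h.fixc a (wq i hi).1 (wq i hi).2) ▸ a))
  obtain ⟨k1, k2, k3, k4⟩ := (by decide +kernel : ∀ c < 512, (∀ i ∈ [1, 2, 3, 4, 6, 7], b8 (c % 256) (2 ^ i) = 0) →
    q8 (c % 256) = 0 ∧ aw [4] c < 512 ∧ qm (qm (aw [3] c) (aw [3, 4, 3] c)) (aw [3, 4, 3, 4, 3] c) < 512 ∧
    (aw [4] c = c → qm (qm (aw [3] c) (aw [3, 4, 3] c)) (aw [3, 4, 3, 4, 3] c) = 0 → c = 0 ∨ c = qm (2 ^ 1) (2 ^ 4))) c hc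
    fun i hi => h.fixb (wq i hi).1 (wq i hi).2
  have cw := fun u e => (h.conj_w (w := u) e c).2
  rw [h.eli k1] at wn wm wl
  rcases k4 (el_inj h.fr h.fq k2 hc (by rw [← cw _ (by decide)]; simpa [gg] using wm)) (el_inj h.fr h.fq k3 (by decide) (by
    rw [← h.fr.el_mul h.fq, ← h.fr.el_mul h.fq, ← cw _ (by decide), ← cw _ (by decide), ← cw _ (by decide), el_zero,
      ← mul_left_inj ((l * m) ^ 3), one_mul]
    nth_rewrite 2 [h.lm]
    rw [← wl]
    simp [gg, pow_succ, mul_assoc])) with rfl | rfl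
  · exact el_zero q z
  · rw [← h.fr.el_mul h.fq, el_pow q z (by decide), el_pow q z (by decide), ← conj_mul, h.n1, s3.nt] at wn
    exact absurd (mul_left_cancel wn).symm h.adj.ne

theorem lQ : l ∉ Q z := fun e => absurd (h.uniq (h.toSt.self (inv_mem e)) h.hl.2.2 (by decide +kernel) (fld_lt _ _ _))
  (by decide +kernel)

theorem bsn : (s * n) ^ 4 = 1 := by
  have s3 := h.s3
  have c : ∀ {u v w}, n * u * n⁻¹ = v → s * v * s⁻¹ = w → s * n * u * (s * n)⁻¹ = w := fun e e' => by rw [c2, e, e']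
  have t1 := cyc4 (c s3.nz (h.sq' (j := 5) (by decide +kernel))) (c h.nl (conj_eq_iff.2 h.ls.symm))
    (c (h.nl ▸ s3.n2 _) (h.sq' (i := 5) (j := 4) (by decide +kernel))) (c s3.nt (conj_eq_iff.2 h.sz))
  have f3 := c h.n3 (h.sq' (j := 3) (by decide +kernel))
  have f2 : s * n * q 2 * (s * n)⁻¹ = q 2 * q 3 := c h.n2 (by
    rw [h.ts 2 (by decide), ← el_pow q z (i := 2) (by decide), ← el_pow q z (i := 3) (by decide), h.fr.el_mul h.fq]
    exact congrArg (el q z) (by decide +kernel))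
  have f4 : s * n * (q 2 * q 3) * (s * n)⁻¹ = q 2 := by rw [← conj_mul, f2, f3, mul_assoc, h.fr.qq h.fq (by decide), mul_one]
  have t2 := (cyc4 f2 f4 f2 f4).1
  have t3 := (cyc4 f3 f3 f3 f3).1
  have si := inv_eq_of_mul_eq_one_right h.ss
  have id := id4 (u := n * s * n⁻¹) h.hx.2.1 h.ss (by rw [conj_mul, h.ss]; group) h.xs (by
    rw [← h.nx, conj_mul, conj_mul, conj_eq_iff.1 (h.sq' (i := 6) (j := 6) (by decide +kernel))])
  rw [show s * (n * s * n⁻¹) * (s * (n * s * n⁻¹)) = (s * n) ^ 4 by simp only [s3.ni, pow_succ, pow_zero, one_mul, mul_assoc]] at id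
  obtain ⟨w, ew⟩ : ∃ w, (s * n) ^ 4 = w := ⟨_, rfl⟩
  have wn : n * w * n⁻¹ = w⁻¹ := by rw [← ew, ← conj_pow, ← inv_pow, mul_inv_rev, si, s3.ni, mul_assoc, mul_assoc, s3.nn, mul_one]
  rw [ew] at t1 t2 t3 id ⊢
  obtain ⟨r, hr, a⟩ := h.cls t1.1
  have wq : ∀ i ∈ [2, 3, 4, 5], i < 8 ∧ w * q i = q i * w := by simp [t1, t2, t3]
  rcases fix4 r hr fun i hi => h.fixc a (wq i hi).1 (wq i hi).2 with e | e <;> rw [e] at a
  · obtain ⟨c, hc, rfl⟩ := h.fr.el_surj h.fq (h.mem_of_ac a)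
    obtain ⟨k1, k2, k3, k4⟩ := (by decide +kernel : ∀ c < 512, (∀ i ∈ [2, 3, 4, 5], b8 (c % 256) (2 ^ i) = 0) →
      q8 (c % 256) = 0 ∧ apq (TL 0) c < 512 ∧ qm (apq (TL 2) (apq (TL 0) c)) c < 512 ∧
      (qm (apq (TL 2) (apq (TL 0) c)) c = apq (TL 0) c → c = 0 ∨ c = 48)) c hc fun i hi => h.fixb (wq i hi).1 (wq i hi).2
    rw [h.fr.conj_el h.fq (mem_c1.2 h.xz) h.tx, h.fr.conj_el h.fq (mem_c1.2 h.sz) h.ts, h.fr.el_mul h.fq] at id
    rcases k4 (el_inj h.fr h.fq k3 k2 id) with rfl | rfl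
    · exact el_zero q z
    · have := h.fr.el_mem h.fq 48
      rw [← h.eli k1, ← wn, (el_ex q z).2.2.2.2.2.2.1, ← conj_mul, s3.nt, h.nl] at this
      exact absurd ((mul_mem_cancel_left h.lq.mem).1 this) h.lQ
  · have M := fun {x y M N} => h.toSt.mul (x := x) (y := y) (M := M) (N := N)
    have xa := h.hx.2.2
    have sa := h.sa
    have b := M (M (inv_eq_of_mul_eq_one_right h.hx.2.1 ▸ xa) a) xa
    exact absurd (h.uniq (id ▸ M (M (M (si ▸ sa) b) sa) a) b (mm_lt p8 _ _) (mm_lt p8 _ _)) (by decide +kernel)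

theorem rels : ∀ r ∈ Od.RO, ev (fun i => [x, k, s, q 0, n, l, m].getD i 1) r = 1 := by
  have s3 := h.s3
  have xx := h.hx.2.1
  have ll := h.hl.2.1
  have qq := fun i hi => h.fr.qq h.fq (i := i) hi
  have cm : ∀ {x y : G}, x * x = 1 → y * y = 1 → x * y = y * x → x * (y * (x * y)) = 1 := fun a b c => by rw [c, i2 b, a]
  have cj : ∀ {x y u : G}, x * x = 1 → x * y * x⁻¹ = u → ∀ w, x * (y * (x * w)) = u * w := fun a b w => by
    rw [← b, inv_eq_of_mul_eq_one_right a, mul_assoc, mul_assoc]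
  have s0 := cj h.ss (h.sq' (i := 0) (j := 1) (by decide +kernel))
  have s1 : s * (q 0 * s) = q 1 := by simpa using s0 1
  have l0 : l * (q 0 * l) = q 0 * q 5 := by simpa using cj ll h.l0 1
  have x0 := cj xx h.x0
  have x2 : k * (k * x * k⁻¹) * k⁻¹ = x * (k * x * k⁻¹) := by rw [← h.nx, h.kn, h.kn, h.k6, h.k7, conj_mul]
  simp +decide only [Od.RO, List.forall_mem_cons, List.not_mem_nil, false_imp_iff, implies_true, and_true, ev_cons, ev_nil, evL,
    if_false, if_true, List.getD_cons_succ, List.getD_cons_zero, mul_one, Nat.add_one_sub_one, Nat.reduceDiv]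
  refine ⟨xx, h.ss, s3.aa, s3.nn, ll, h.mm', pow_three k ▸ h.k3, ?_, ?_, by simpa only [pow_three, mul_assoc] using h.xs, ?_,
    by simpa only [pow_three, mul_assoc] using h.an, by rw [← mul_assoc n, ← h.nk, mul_assoc, i2 s3.nn, mul_inv_cancel], ?_,
    by simpa only [pow_succ, pow_zero, one_mul, mul_assoc] using h.bsn, ?_, cm ll xx h.lx, cm ll h.ss h.ls, ?_,
    by rw [← mul_assoc m, h.mk', mul_assoc, i2 h.mm', mul_inv_cancel], cm h.mm' xx h.xm.symm, cm h.mm' h.ss h.sm.symm, ?_,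
    by simpa only [pow_three, mul_assoc] using h.bmn, ?_⟩
  · calc _ = x * (k * x * k⁻¹) * (k * (k * x * k⁻¹) * k⁻¹) * k ^ 3 := by rw [pow_three]; group
      _ = _ := by rw [h.k3, ← x2, conj_mul, conj_mul, xx]; group
  · rw [← mul_assoc]; nth_rewrite 1 [h.sk]
    rw [mul_assoc, i2 h.ss, mul_assoc, ← pow_three, h.k3]
  · rw [s0, s1]; exact cm s3.aa (qq 1 (by decide)) (h.qc (by decide +kernel))
  · rw [cj s3.nn (h.nx ▸ s3.n2 _ : n * x * n⁻¹ = q 6), x0, s1, mul_assoc, i2 s3.aa, mul_assoc]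
    exact cm (qq 6 (by decide)) (qq 1 (by decide)) (h.qc (by decide +kernel))
  · rw [← mul_assoc k, h.kl, ll]
  · rw [cj s3.nn (h.nl ▸ s3.n2 _ : n * l * n⁻¹ = q 5), l0, i2 s3.aa, qq 5 (by decide)]
  · rw [cj h.mm' (h.mq (j := 5) (by decide +kernel)), l0, i2 s3.aa, qq 5 (by decide)]
  · have k1 := h.kq (i := 1) (by decide +kernel)
    have y1 : x * q 1 * x⁻¹ = q 1 := (h.tx 1 (by decide)).trans (el_pow q z (i := 1) (by decide))
    have a : k * x * k⁻¹ * q 0 * (k * x * k⁻¹)⁻¹ = q 0 * (q 1 * q 7) := by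
      rw [← h.kq (i := 0) (by decide +kernel), ← k1, ← h.k6, conj_inv, conj_mul, conj_mul, conj_mul, conj_mul, h.x0]
    have b : k * x * k⁻¹ * (q 1 * q 7) * (k * x * k⁻¹)⁻¹ = q 1 * q 7 := by
      rw [← k1, ← h.k6, conj_inv, conj_mul, conj_mul, conj_mul, ← conj_mul (b := x), y1, h.x6]
    have c : x * (q 1 * q 7) * x⁻¹ = q 7 := by
      rw [← conj_mul, y1, h.tx 7 (by decide), ← el_pow q z (i := 1) (by decide), ← el_pow q z (i := 7) (by decide),
        h.fr.el_mul h.fq]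
      exact congrArg (el q z) (by decide +kernel)
    have d : x * (k * x * k⁻¹) = k * x * k⁻¹ * x := by
      rw [← h.nx, h.kn, h.k6, conj_mul, conj_mul, h.qc (by decide +kernel)]
    have e : ∀ w, q 0 * (k * (x * (k⁻¹ * (q 0 * w)))) = q 1 * q 7 * (k * x * k⁻¹ * w) := fun w => by
      rw [← mul_right_inj (q 0), i2 s3.aa, ← mul_assoc (q 0), ← a]; group
    have yy : k * x * k⁻¹ * (k * x * k⁻¹) = 1 := by rw [conj_mul, xx]; group
    rw [e, e, s1]
    generalize k * x * k⁻¹ = y at *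
    rw [← mul_assoc y x, ← d, mul_assoc x y, cj xx c, cj yy b, mul_assoc]
    exact cm (qq 7 (by decide)) (qq 1 (by decide)) (h.qc (by decide +kernel))

end P3

end CF.W4.Om
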