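import Cfsg.Agent.W4.M2

/-! The conjugates of the central involution in its centraliser. -/

set_option autoImplicit false
set_option maxRecDepth 1000000
set_option linter.unusedSectionVars false

namespace CF.W4.Om
open Cfsg Subgroup CF.Loc CF.Even CF.LX CF.J4 CF.Comp CF.Dce CF.XG
open CF.ThR (q8 b8 el qm apq el_pow el_shl el_zero)
open CF.LX4 (el_inj)

variable {G : Type*} [Group G]

/-- at distance at most two -/
def Inn (Q : G → Subgroup G) (D : Set G) (z d : G) : Prop := d ∈ Q z ∨ ∃ x, Adj Q D z x ∧ d ∈ Q x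

variable [Finite G] {Q : G → Subgroup G} {D : Set G} {z t n x k l d d' g u v w y : G} {π : G → ℕ} {q : ℕ → G} {m : ℕ}

local notation "𝐀" => J4.Ac 8 (Q z) π

theorem swap' (S : Sys Q D m) (hu : u ∈ D) (hv : v ∈ D) (e : v ∈ Q u) : u ∈ Q v :=
  (eq_or_ne v u).elim (fun l => l ▸ S.mem hv) fun l => (S.symm ⟨hu, hv, e, l⟩).aQ

theorem Inn.cj (S : Sys Q D m) (gz : g * z = z * g) (i : Inn Q D z d) : Inn Q D z (g * d * g⁻¹) :=
  i.imp (S.fam.nor gz) fun ⟨_, j, e⟩ => ⟨_, S.adj_cj' j gz, S.fam g _ _ e⟩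

theorem Inn.symm (S : Sys Q D m) (zD : z ∈ D) (e : g * z * g⁻¹ = d) (e' : g * d' * g⁻¹ = z) (i : Inn Q D z d') :
    Inn Q D z d := by
  rcases i with i | ⟨x, j, i⟩
  · exact .inl (swap' S (S.cj' zD e) zD (e' ▸ S.fam.mv e i))
  · have j' := S.symm (e ▸ S.adj_cj j g)
    have := S.fam g _ _ i
    rw [e'] at this
    exact (eq_or_ne z (g * x * g⁻¹)).elim (fun l => .inl (l ▸ j'.aQ)) fun l => .inr ⟨_, S.symm ⟨j'.zD, zD, this, l⟩, j'.aQ⟩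

namespace Mm
variable (h : Mm Q D z π t)
include h

theorem outer (dz : d * z = z * d) (dd : d * d = 1) (i : ¬ Inn Q D z d) :
    ∃ g, g * z = z * g ∧ ∃ r < 2, 𝐀 (g⁻¹ * d * g) (R (r + 8)) := by
  obtain ⟨s, hs, a⟩ := h.cls dz
  obtain ⟨b1, b2, b3⟩ := invs s hs (h.uniq (h.toSt.mul a a) (dd ▸ h.toSt.one) (mm_lt p8 _ _) (by decide +kernel))
  obtain ⟨g, -, c⟩ := h.lift (K := ⊤) (fun j hj => let ⟨y, e⟩ := h.gen j hj; ⟨y, trivial, e⟩) b1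
  have e := h.ac_cj a c fun c _ => by rw [← vm_mm p8, b3, vm_mm p8]
  have gz := h.acH c
  refine ⟨g, gz, ?_⟩
  generalize fld 4 RT s = r at *
  by_cases l : r < 8
  · refine (i ?_).elim
    have : Inn Q D z (g⁻¹ * d * g) := by
      rcases r with _ | r
      · exact .inl (h.mem_of_ac ((by decide +kernel : R 0 = mo 8) ▸ e))
      · obtain ⟨y, hy, e⟩ := h.g1 r (by omega) e (by simp [mul_assoc, ← mul_assoc d d, dd])
        simpa [mul_assoc] using Inn.cj h.sys (h.lq.zc hy) (.inr ⟨t, h.adj, e⟩)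
    simpa [mul_assoc] using this.cj h.sys gz
  · exact ⟨r - 8, by omega, by rwa [Nat.sub_add_cancel (by omega)]⟩

theorem cm9 (a : 𝐀 w (R 9)) (hu : u ∈ Q z) : w⁻¹ * u⁻¹ * w * u ∈ Q z ∧ π (w⁻¹ * u⁻¹ * w * u) = vm 8 (π u) (R 9) ^^^ π u :=
  ⟨mul_mem (norm_mem a.1 (inv_mem hu)) hu, by rw [h.π_cj a hu _ (inv_mem hu), h.co.inv hu]⟩

theorem mul_z (hw : w ∈ D) (a : 𝐀 w (R 9)) : w * z ∈ D := by
  obtain ⟨u, hu, e⟩ := h.co.surj 128 (by decide)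
  obtain ⟨c, e'⟩ := h.cm9 a hu
  have := h.fr.sq' _ c
  rw [e', e, (by decide +kernel : q8 (vm 8 128 (R 9) ^^^ 128) = 1), pow_one] at this
  refine h.sys.cj' hw (g := (w⁻¹ * u⁻¹ * w * u)⁻¹) ?_
  rw [← this]
  simp only [mul_inv_rev, inv_inv, h.sys.zi hw, mul_assoc, ← mul_assoc w w, h.sys.zz hw, one_mul]

theorem mul_E (hw : w ∈ D) (a : 𝐀 w (R 9)) (hy : y ∈ Q z) (e : π y &&& 199 = 0) : w * y ∈ D := by
  obtain ⟨c, hc, e⟩ := (by decide +kernel : ∀ c < 256, c &&& 199 = 0 → ∃ e < 256, vm 8 e (R 9) ^^^ e = c) _ (h.lt hy) e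
  obtain ⟨u, hu, rfl⟩ := h.co.surj c hc
  obtain ⟨c, e'⟩ := h.cm9 a hu
  have m : w * (w⁻¹ * u⁻¹ * w * u) ∈ D := h.sys.cj' hw (g := u⁻¹) (by group)
  rcases h.fr.eq_or c hy (e'.trans e) with l | l <;> rw [l]
  exacts [m, mul_assoc w _ z ▸ h.mul_z m (h.fr.ac_mul a c)]

end Mm

namespace P1
variable (h : P1 Q D z π q x k l n)
include h

theorem fix8 (a : 𝐀 d (R 8)) : ∃ u v, u * d = d * u ∧ v * d = d * v ∧ u * z = z * u ∧ v * z = z * v ∧ u * v = v * u * z := by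
  have fin : ∀ {u v}, u ∈ Q z → v ∈ Q z → d⁻¹ * u * d = u → d⁻¹ * v * d = v → b8 (π u) (π v) = 1 →
      ∃ u v, u * d = d * u ∧ v * d = d * v ∧ u * z = z * u ∧ v * z = z * v ∧ u * v = v * u * z := fun {u v} hu hv a b c =>
    ⟨u, v, by rw [← mul_right_inj d⁻¹, ← mul_assoc, a]; group, by rw [← mul_right_inj d⁻¹, ← mul_assoc, b]; group,
      h.lq.zc hu, h.lq.zc hv, by rw [h.fr.comm hu hv, c, pow_one]⟩
  have c : ∀ i ∈ [0, 4, 1, 5], d⁻¹ * q i * d = q i ∨ d⁻¹ * q i * d = q i * z := fun i hi => by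
    obtain ⟨l, e⟩ := (by decide +kernel : ∀ i ∈ [0, 4, 1, 5], i < 8 ∧ 2 ^ i = vm 8 (2 ^ i) (R 8)) i hi
    exact h.fr.eq_or (h.fq i l).1 (norm_mem a.1 (h.fq i l).1) (by rwa [a.2 _ (h.fq i l).1, (h.fq i l).2])
  have two : ∀ {i j}, j < 8 → d⁻¹ * q i * d = q i * z → d⁻¹ * q j * d = q j * z → d⁻¹ * (q i * q j) * d = q i * q j :=
    fun {i j} hj a b => by
      calc _ = d⁻¹ * q i * d * (d⁻¹ * q j * d) := by group
        _ = _ := by rw [a, b, h.lq.zc (h.fq j hj).1, mul_assoc, ← mul_assoc z, h.lq.zz, one_mul]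
  have p : ∀ {i j}, i < 8 → j < 8 → π (q i * q j) = 2 ^ i ^^^ 2 ^ j := fun hi hj => by
    rw [h.co.mul _ (h.fq _ hi).1 _ (h.fq _ hj).1, (h.fq _ hi).2, (h.fq _ hj).2]
  have f1 : ∀ {i j}, i < 8 ∧ j < 8 ∧ b8 (2 ^ i) (2 ^ j) = 1 → d⁻¹ * q i * d = q i → d⁻¹ * q j * d = q j → _ :=
    fun e a b => fin (h.fq _ e.1).1 (h.fq _ e.2.1).1 a b (by rw [(h.fq _ e.1).2, (h.fq _ e.2.1).2, e.2.2])
  have f2 : ∀ {i j r}, i < 8 ∧ j < 8 ∧ r < 8 ∧ b8 (2 ^ i ^^^ 2 ^ r) (2 ^ j) = 1 ∧ b8 (2 ^ i ^^^ 2 ^ r) (2 ^ j ^^^ 2 ^ r) = 1 →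
      d⁻¹ * q i * d = q i * z → d⁻¹ * q r * d = q r * z → d⁻¹ * q j * d = q j ∨ d⁻¹ * q j * d = q j * z → _ :=
    fun ⟨e1, e2, e3, e4, e5⟩ a b c => c.elim
      (fun c => fin (mul_mem (h.fq _ e1).1 (h.fq _ e3).1) (h.fq _ e2).1 (two e3 a b) c (by rw [p e1 e3, (h.fq _ e2).2, e4]))
      fun c => fin (mul_mem (h.fq _ e1).1 (h.fq _ e3).1) (mul_mem (h.fq _ e2).1 (h.fq _ e3).1) (two e3 a b) (two e3 c b)
        (by rw [p e1 e3, p e2 e3, e5])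
  have f3 : ∀ {r}, r = 1 ∨ r = 5 → d⁻¹ * q r * d = q r * z → _ := fun e b => (c 0 (by simp)).elim
    (fun a => (c 4 (by simp)).elim (f1 (by decide +kernel) a) fun a' =>
      f2 (by rcases e with rfl | rfl <;> decide +kernel) a' b (.inl a))
    fun a => f2 (by rcases e with rfl | rfl <;> decide +kernel) a b (c 4 (by simp))
  exact (c 1 (by simp)).elim (fun a => (c 5 (by simp)).elim (f1 (by decide +kernel) a) (f3 (.inr rfl))) (f3 (.inl rfl))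

theorem no8 {r : ℕ} (hr : r < 2) (e : g * d * g⁻¹ = z) (e' : g * z * g⁻¹ = d') (a : 𝐀 d (R 8)) (a' : 𝐀 d' (R (r + 8))) :
    False := by
  obtain ⟨u, v, h1, h2, h3, h4, h5⟩ := h.fix8 a
  obtain ⟨s, hs, b⟩ := h.cls (e ▸ comm_conj h1 g)
  obtain ⟨s', hs', b'⟩ := h.cls (e ▸ comm_conj h2 g)
  have M := fun {x y M N} => h.toSt.mul (x := x) (y := y) (M := M) (N := N)
  have c : ∀ {y s}, s < 720 → 𝐀 (g * y * g⁻¹) (N s) → y * z = z * y → (CM r).testBit s = true := fun hs b c =>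
    cen1 r hr _ hs (h.uniq (M b a') (by rw [← e', comm_conj c, e']; exact M a' b) (mm_lt p8 _ _) (mm_lt p8 _ _))
  exact cen2 hr hs hs' (c hs b h3) (c hs' b' h4) (h.uniq (M b b') (by
    rw [conj_mul, h5, ← conj_mul, ← conj_mul, e']; exact M (M b' b) a') (mm_lt p8 _ _) (mm_lt p8 _ _))

theorem inn9 (hd : d ∈ D) (e : g * d * g⁻¹ = z) (e' : g * z * g⁻¹ = d') (a : 𝐀 d (R 9)) (a' : 𝐀 d' (R 9)) :
    Inn Q D z d' := by
  have M := fun {x y M N} => h.toSt.mul (x := x) (y := y) (M := M) (N := N)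
  have b : ∀ {y}, y ∈ Q z → π y &&& 199 = 0 → y * y = 1 ∧ z * (g * y * g⁻¹) ∈ D ∧ g * y * g⁻¹ * z = z * (g * y * g⁻¹) :=
    fun {y} hy c => by
      have yy := (h.fr.sq_iff hy).2 ((by decide +kernel : ∀ c < 256, c &&& 199 = 0 → q8 c = 0) _ (h.lt hy) c)
      have m := h.mul_E hd a hy c
      refine ⟨yy, h.sys.cj' m (by rw [← conj_mul, e]), e ▸ comm_conj ?_ g⟩
      rw [← h.sys.zi m, mul_inv_rev, h.sys.zi hd, inv_eq_of_mul_eq_one_right yy]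
  have m := h.fr.el_mem h.fq
  have c : ∀ i < 16, π (el q z (8 * i + 192 * (i / 8))) &&& 199 = 0 := fun i hi => by
    rw [h.fr.π_el h.fq]; revert i; decide +kernel
  have : ∀ i : Fin 16, ∃ j : Fin 16, 𝐀 (g * el q z (8 * i + 192 * (i / 8)) * g⁻¹) (fld 64 CL j) := fun i => by
    obtain ⟨b1, -, b2⟩ := b (m _) (c i i.2)
    obtain ⟨s, hs, b3⟩ := h.cls b2
    obtain ⟨j, hj, l⟩ := cen3 s hs (cen1 1 one_lt_two _ hs (h.uniq (M b3 a') (by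
      rw [← e', comm_conj (h.lq.zc (m _)), e']; exact M a' b3) (mm_lt p8 _ _) (mm_lt p8 _ _))) (h.uniq (M b3 b3) (by
        rw [conj_mul, b1, mul_one, mul_inv_cancel]; exact h.toSt.one) (mm_lt p8 _ _) (by decide +kernel))
    exact ⟨⟨j, hj⟩, l ▸ b3⟩
  choose f hf using this
  obtain ⟨i, j, l, ne⟩ : ∃ i j, f i = f j ∧ i ≠ j := Function.not_injective_iff.1 fun inj => by
    obtain ⟨i, hi⟩ := Finite.injective_iff_surjective.1 inj 1
    obtain ⟨j, hj⟩ := Finite.injective_iff_surjective.1 inj 2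
    exact absurd (h.uniq (M (hi ▸ hf i) (hj ▸ hf j)) (by
      rw [comm_conj ((h.fr.comm_iff (m _) (m _)).2 ((by decide +kernel : ∀ c < 256, c &&& 199 = 0 → ∀ c' < 256,
        c' &&& 199 = 0 → b8 c c' = 0) _ (h.lt (m _)) (c i i.2) _ (h.lt (m _)) (c j j.2)))]
      exact M (hj ▸ hf j) (hi ▸ hf i)) (mm_lt p8 _ _) (mm_lt p8 _ _)) (by decide +kernel)
  have y1 := h.div (hf i) (l ▸ hf j)
  have y2 := mul_mem (inv_mem (m (8 * i + 192 * (i / 8)))) (m (8 * j + 192 * (j / 8)))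
  obtain ⟨-, b1, -⟩ := b y2 (by
    rw [h.co.mul _ (inv_mem (m _)) _ (m _), h.co.inv (m _), Nat.and_xor_distrib_right, c i i.2, c j j.2]; rfl)
  rw [conj_inv, conj_mul] at y1
  have j1 := h.sys.adj_mul ⟨h.zD, b1, mul_mem h.lq.mem y1, fun l => ne (by
    rw [mul_eq_left, conj_eq_one_iff, inv_mul_eq_one] at l
    have := el_inj h.fr h.fq (by omega) (by omega) l
    omega)⟩
  rw [← mul_assoc, h.lq.zz, one_mul] at j1
  exact .inr ⟨_, j1, swap' h.sys (h.sys.cj' h.zD e') j1.aD (h.sys.fam.mv e' y2)⟩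

theorem inn (hd : d ∈ D) (dz : d * z = z * d) : Inn Q D z d := by
  by_contra i
  obtain ⟨u, uz, r, hr, a⟩ := h.outer dz (h.sys.zz hd) i
  have d1 : u⁻¹ * d * u ∈ D := by simpa using h.sys.cj u⁻¹ hd
  obtain ⟨g, e⟩ := h.sys.tr d1 h.zD
  have i' : ¬ Inn Q D z (g * z * g⁻¹) := fun c => i (by
    simpa [mul_assoc] using (c.symm h.sys h.zD (conj_inv_of e) (conj_inv_of rfl)).cj h.sys uz)
  obtain ⟨v, vz, r', hr', a'⟩ := h.outer (by nth_rewrite 2 3 [← e]; exact comm_conj (h.acH a).symm g)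
    (h.sys.zz (h.sys.cj g h.zD)) i'
  have e1 : v⁻¹ * g * (u⁻¹ * d * u) * (v⁻¹ * g)⁻¹ = z := by rw [c2, e, conj_eq_iff.2 (comm_inv vz)]
  have e2 : v⁻¹ * g * z * (v⁻¹ * g)⁻¹ = v⁻¹ * (g * z * g⁻¹) * v := by group
  interval_cases r
  · exact h.no8 hr' e1 e2 a a'
  interval_cases r'
  · exact h.no8 hr (conj_inv_of e2) (conj_inv_of e1) a' a
  · exact i' (by simpa [mul_assoc] using (h.inn9 d1 e1 e2 a a').cj h.sys vz)

end P1

end CF.W4.Om
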