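import Cfsg.Agent.W4.B
import Cfsg.Agent.LX4.O4

/-! An exact frame for the configurations which contain the triality group. -/

set_option autoImplicit false
set_option maxRecDepth 1000000
set_option synthInstance.maxSize 2000
set_option linter.unusedSectionVars false

namespace CF.W4
open Cfsg Subgroup CF.Loc CF.Even CF.LX CF.J4 CF.Comp CF.Dce CF.XG
open CF.ThR (q8 b8 el qm apq el_pow el_shl el_zero)
open CF.LX4 (AL)

/-- the matrices of the root elements -/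
noncomputable def oM (j : ℕ) : ℕ := fld 64 (A0 1) (2 ^ (2 - j))

variable {G : Type*} [Group G]

/-- an exact frame -/
structure Oa (Q : Subgroup G) (z : G) (π : G → ℕ) (q α : ℕ → G) (n : G) : Prop extends ThR.Fr Q z π where
  fq : ∀ i < 8, q i ∈ Q ∧ π (q i) = 2 ^ i
  nn : n * n = 1
  nt : n * z * n⁻¹ = q 4
  br : q 0 * n * q 0 = n * q 0 * n
  nα : ∀ j < 3, n * q (7 - j) * n⁻¹ = α j
  nf : ∀ i < 3, n * q (i + 1) * n⁻¹ = q (i + 1)
  αH : ∀ j < 3, α j ∈ 𝐂₁(z)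
  αa : ∀ j < 3, ∀ i < 8, α j * q i * (α j)⁻¹ = el q z (fld 9 (nth 0 AL j) i)
  ca : IsConj z (q 0)
  ncl : ∀ j < 3, ¬ IsConj z (q (7 - j) * q 4)
  wq : ∀ w ∈ 𝐂₁(z), ∀ j < 3, (∀ i < 8, i ≠ 0 → i ≠ 7 - j → q i * w = w * q i) → w ∈ Q
  yx : ∀ j < 3, ∃ y, J4.Ac 8 Q π y (fld 64 (A1 1) (2 ^ (2 - j)))

variable [Finite G] {Q : G → Subgroup G} {D : Set G} {z t a n e : G} {π : G → ℕ} {k : ℕ}

local notation "𝐀" => J4.Ac 8 (Q z) π

namespace Cs
variable (C : Cs Q D z π k t) (hk : k = 1 ∨ k = 2)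
include C hk

theorem B_ac1 {b : G} (hb : b ∈ Q t) (bz : b * z = z * b) : ∃ s < 8, 𝐀 b (fld 64 (A0 1) s) := by
  have := C.B_ac hb bz
  rcases hk with rfl | rfl <;> exact this

theorem o_root (h : S3 Q z t a n) (ea : π a = 1) {j : ℕ} (hj : j < 3) (he : e ∈ Q z) (ee : π e = 2 ^ (7 - j)) :
    n * e * n⁻¹ ∈ Q t ∧ 𝐀 (n * e * n⁻¹) (oM j) ∧ n * e * n⁻¹ * a * (n * e * n⁻¹)⁻¹ = a * e ∧
      n * e * n⁻¹ * e = e * (n * e * n⁻¹) := by
  have F := C.fr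
  have p := C.sys.pair C.adj
  have ha := h.aQ
  have n2 := h.n2
  have nz := h.nz
  obtain ⟨k1, k2, k3, k4⟩ := (by decide +kernel : ∀ j < 3, b8 (2 ^ (7 - j)) 16 = 0 ∧ b8 (2 ^ (7 - j)) 1 = 0 ∧
    q8 (2 ^ (7 - j)) = 0 ∧ ∀ s < 8, ((1 ^^^ vm 8 1 (fld 64 (A0 1) s) ^^^ 2 ^ (7 - j)) &&& 225 = 0 →
      fld 64 (A0 1) s = oM j ∧ 1 ^^^ vm 8 1 (fld 64 (A0 1) s) = 2 ^ (7 - j))) j hj
  have et := (F.comm_iff he p.tQ).2 (by rwa [ee, C.pt])
  have e1 := (F.comm_iff he ha).2 (by rwa [ee, ea])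
  have e2 := (F.sq_iff he).2 (by rwa [ee])
  have aa := h.aa
  have ai := h.ai
  obtain ⟨hu, r2⟩ := h.root0 C.sys C.adj he et e1
  have βP := h.toQ C.sys he
  have βz := h.cz et
  have bz := h.bz C.sys C.adj
  have na := h.na
  obtain ⟨β, eβ⟩ : ∃ β, n * e * n⁻¹ = β := ⟨_, rfl⟩
  obtain ⟨b, eb⟩ : ∃ b, a * n * a = b := ⟨_, rfl⟩
  have nβ : n * β * n⁻¹ = e := eβ ▸ n2 e
  rw [eb] at bz na
  have ββ : β * β = 1 := by rw [← eβ, conj_mul, e2]; group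
  have βi := inv_eq_of_mul_eq_one_right ββ
  have βb : b * β * b⁻¹ = β := conj_eq_iff.2 (by rw [← eβ, ← na, conj_mul, conj_mul, e1])
  rw [eβ] at hu r2 βP βz ⊢
  obtain ⟨s, hs, ac⟩ := C.B_ac1 hk βP βz
  have cu := F.mul a ha _ (norm_mem ac.1 ha)
  rw [ac.2 a ha, ea] at cu
  obtain ⟨u, eu⟩ : ∃ u, a * (β⁻¹ * a * β) = u := ⟨_, rfl⟩
  rw [show a * β * a⁻¹ * β⁻¹ = u by rw [← eu, ai, βi]; group] at hu r2
  rw [eu] at cu
  have u1 : a * β * a⁻¹ = u * β := by rw [← eu, ai, βi, mul_assoc, mul_assoc, mul_assoc, mul_assoc, ββ, mul_one]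
  have u2 : b * (u * β) * b⁻¹ = e := by
    rw [← u1, ← eb, ← conj_eq_iff.2 e1.symm, ← nβ, mul_inv_rev, mul_inv_rev, ai]
    calc _ = a * n * (a * a) * β * (a * a) * n⁻¹ * a := by group
      _ = _ := by rw [aa]; group
  have u3 : b * e * b⁻¹ = n * u * n⁻¹ * e := by rw [← na, ← nβ, conj_mul (a := u), ← u1]; group
  have l2 := k4 s hs
  rw [← cu, ← ee] at l2
  have := (C.E_iff (mul_mem (inv_mem hu) he)).1 r2
  rw [F.mul _ (inv_mem hu) _ he, F.inv hu] at this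
  obtain ⟨l3, l4⟩ := l2 this
  rcases F.eq_or he hu l4.symm with rfl | rfl
  · rw [← conj_mul, βb, u3, eβ] at u2
    exact ⟨βP, l3 ▸ ac, by rw [← eu, βi, ← mul_assoc a, aa, one_mul], by
      nth_rewrite 2 [← u2]; rw [mul_assoc _ β, ββ, mul_one]⟩
  · rw [← conj_mul, ← conj_mul, βb, u3, ← conj_mul, eβ, nz, bz, mul_assoc β, ← et, ← p.tz, mul_assoc β, mul_assoc e,
      ← mul_assoc t t, p.r.zz, one_mul] at u2
    have u4 := congrArg (fun x => n * x * n⁻¹) u2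
    simp only [← conj_mul, nβ, eβ, nz] at u4
    refine absurd ?_ p.ne
    rw [← inv_eq_of_mul_eq_one_right e2, mul_inv_eq_iff_eq_mul, inv_mul_eq_iff_eq_mul, ← eq_inv_mul_iff_mul_eq,
      βi, ← mul_assoc, ← mul_assoc] at u4
    rw [← βi, mul_inv_eq_iff_eq_mul, inv_mul_eq_iff_eq_mul, ← mul_assoc] at u2
    rw [u4, ← u2, F.zc he, mul_assoc, e2, mul_one]

theorem o_wq {q : ℕ → G} (fq : ∀ i < 8, q i ∈ Q z ∧ π (q i) = 2 ^ i) (ja : Adj Q D z (q 0)) {w : G} (hw : w ∈ 𝐂₁(z))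
    {j : ℕ} (hj : j < 3) (c : ∀ i < 8, i ≠ 0 → i ≠ 7 - j → q i * w = w * q i) : w ∈ Q z := by
  obtain ⟨M, -, ac⟩ := C.ex_ac (mem_c1.1 hw)
  have lt : ∀ i < 8, 2 ^ i < 256 := fun i hi => Nat.pow_lt_pow_right one_lt_two hi
  have f : ∀ i < 8, i ≠ 0 → i ≠ 7 - j → vm 8 (2 ^ i) M = 2 ^ i := fun i hi a b => by
    rw [← (fq i hi).2, ← ac.2 _ (fq i hi).1, mul_assoc, c i hi a b, inv_mul_cancel_left]
  have f0 : vm 8 (2 ^ 0) M = 2 ^ 0 := (by decide +kernel : ∀ j < 3, ∀ c < 256, (GM 1).testBit c = true ∨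
      (GM 2).testBit c = true → (∀ i < 8, i ≠ 0 → i ≠ 7 - j → b8 c (2 ^ i) = b8 (2 ^ 0) (2 ^ i)) → c = 2 ^ 0) j hj _
    (vm_lt _ _ _) (by
      have := (C.Γ _ (vm_lt 8 _ _)).1 (C.Γ_act ⟨_, ja, (fq 0 (by omega)).2⟩ ⟨_, ac⟩)
      rcases hk with rfl | rfl
      exacts [.inl this, .inr this]) fun i hi a b => by
    rw [← C.b8_ac ac (lt 0 (by omega)) (lt i hi), f i hi a b]
  have f1 : ∀ i < 8, i ≠ 7 - j → vm 8 (2 ^ i) M = 2 ^ i := fun i hi b => (em (i = 0)).elim (fun a => a ▸ f0) fun a => f i hi a b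
  have f2 : vm 8 (2 ^ (7 - j)) M = 2 ^ (7 - j) := (by decide +kernel : ∀ j < 3, ∀ c < 256, q8 c = q8 (2 ^ (7 - j)) →
      (∀ i < 8, i ≠ 7 - j → b8 c (2 ^ i) = b8 (2 ^ (7 - j)) (2 ^ i)) → c = 2 ^ (7 - j)) j hj _ (vm_lt _ _ _)
    (C.q8_ac ac (lt _ (by omega))) fun i hi b => by rw [← C.b8_ac ac (lt _ (by omega)) (lt i hi), f1 i hi b]
  refine C.mem_of_ac (C.co.of_gens ac.1 (C.fr.nz hw) fun i hi => ⟨_, (fq i hi).1, (fq i hi).2, ?_⟩)
  rw [ac.2 _ (fq i hi).1, (fq i hi).2, ← vm_pow hi, vm_mo p8 (lt i hi)]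
  exact (em (i = 7 - j)).elim (fun a => a ▸ f2) (f1 i hi)

theorem exists_oa : ∃ q α n, Oa (Q z) z π q α n ∧ q 4 = t := by
  have F := C.fr
  have p := C.sys.pair C.adj
  obtain ⟨a, ja, ea⟩ := C.f1.Γ
  have ha := ja.aQ
  obtain ⟨n, h⟩ := exists_s3 C.sys C.adj ha (C.sys.zz ja.aD) (by
    have := F.conj p.tQ (inv_mem ha)
    rwa [F.inv ha, ea, C.pt, (by decide +kernel : b8 16 1 = 1), pow_one, inv_inv, p.tz] at this)
  choose e he ee using fun j => F.surj (2 ^ (7 - j)) (Nat.pow_lt_pow_right one_lt_two (by omega))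
  have r := fun j (hj : j < 3) => C.o_root hk h ea hj (he j) (ee j)
  obtain ⟨α, eα⟩ : ∃ α : ℕ → G, ∀ j, n * e j * n⁻¹ = α j := ⟨_, fun _ => rfl⟩
  simp only [eα] at r
  have ni := h.ni
  have nα : ∀ j, n * α j * n⁻¹ = e j := fun j => by rw [← eα, h.n2]
  have ec : ∀ j < 3, ∀ k < 3, e j * e k = e k * e j := fun j hj k hk => (F.comm_iff (he j) (he k)).2 (by
    rw [ee, ee]; revert j k; decide +kernel)
  have e2 : ∀ j < 3, (e j)⁻¹ = e j := fun j hj => inv_eq_of_mul_eq_one_right ((F.sq_iff (he j)).2 (by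
    rw [ee]; revert j; decide +kernel))
  have αi : ∀ j < 3, (α j)⁻¹ = α j := fun j hj => by rw [← eα, conj_inv, e2 j hj]
  have αc : ∀ j < 3, ∀ k < 3, α j * α k = α k * α j := fun j hj k hk => by rw [← eα, ← eα, conj_mul, conj_mul, ec j hj k hk]
  obtain ⟨c, ec'⟩ : ∃ c : ℕ → ℕ → G, ∀ j k, α j * e k * (α j)⁻¹ * (e k)⁻¹ = c j k := ⟨_, fun _ _ => rfl⟩
  have cQ : ∀ j < 3, ∀ k < 3, c j k ∈ Q z ∧ π (c j k) = vm 8 (2 ^ (7 - k)) (oM j) ^^^ 2 ^ (7 - k) :=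
    fun j hj k hk => by
      have := norm_mem (r j hj).2.1.1 (he k)
      rw [← ec', ← ee, ← (r j hj).2.1.2 _ (he k), ← F.mul _ this _ (he k), αi j hj, e2 k hk]
      exact ⟨mul_mem (by rwa [αi j hj] at this) (he k), rfl⟩
  have cP : ∀ j < 3, ∀ k < 3, c j k ∈ Q t := fun j hj k hk => by
    rw [← ec', mul_assoc, mul_assoc, ← mul_assoc (e k)]
    exact mul_mem (r j hj).1 (norm_mem' (p.r.nor (mem_c1.2 ((F.comm_iff (he k) p.tQ).2 (by
      rw [ee, C.pt]; revert k; decide +kernel)))) (inv_mem (r j hj).1))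
  have F1 : ∀ j k, α j * e k * (α j)⁻¹ = c j k * e k := fun j k => by rw [← ec', inv_mul_cancel_right]
  have cs : ∀ j < 3, ∀ k < 3, c j k = c k j := fun j hj k hk => by
    have : ∀ j < 3, ∀ k < 3, α j * α k * a * (α j * α k)⁻¹ = a * (e j * e k * c j k) := fun j hj k hk => by
      rw [show α j * α k * a * (α j * α k)⁻¹ = α j * (α k * a * (α k)⁻¹) * (α j)⁻¹ by group, (r k hk).2.2.1, ← conj_mul,
        (r j hj).2.2.1, F1, (F.comm_iff (cQ j hj k hk).1 (he k)).2 (by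
          rw [(cQ j hj k hk).2, ee]; revert j k; decide +kernel)]
      group
    have l := this j hj k hk
    rw [αc j hj k hk, this k hk j hj, ec j hj k hk] at l
    exact (mul_left_cancel (mul_left_cancel l)).symm
  have ci : ∀ j < 3, ∀ k < 3, (c j k)⁻¹ = c j k := fun j hj k hk => inv_eq_of_mul_eq_one_right
    ((F.sq_iff (cQ j hj k hk).1).2 (by rw [(cQ j hj k hk).2]; revert j k; decide +kernel))
  have cn : ∀ j < 3, ∀ k < 3, n * c j k * n⁻¹ = c j k := fun j hj k hk => by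
    nth_rewrite 2 [cs j hj k hk]
    rw [← ci k hk j hj, ← ec', ← ec', ← conj_mul, ← conj_mul, ← conj_mul, ← conj_inv, ← conj_inv, nα, eα]; group
  have F3 : ∀ j < 3, ∀ k < 3, ∀ l < 3, α l * c j k * (α l)⁻¹ = c j k * if j + k + l = 3 ∧ j ≠ k then t else 1 :=
    fun j hj k hk l hl => by
      have h1 : (c j k)⁻¹ * ((α l)⁻¹ * c j k * α l) = 1 ∨ (c j k)⁻¹ * ((α l)⁻¹ * c j k * α l) = t := by
        simpa only [inv_inv, mul_assoc, p.r.mem_z] using p.r.comm_mem (inv_mem (cP j hj k hk)) (inv_mem (r l hl).1)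
      have h2 := F.mul _ (inv_mem (cQ j hj k hk).1) _ (norm_mem (r l hl).2.1.1 (cQ j hj k hk).1)
      rw [F.inv (cQ j hj k hk).1, (r l hl).2.1.2 _ (cQ j hj k hk).1, (cQ j hj k hk).2,
        (by decide +kernel : ∀ j < 3, ∀ k < 3, ∀ l < 3, vm 8 (2 ^ (7 - k)) (oM j) ^^^ 2 ^ (7 - k) ^^^
          vm 8 (vm 8 (2 ^ (7 - k)) (oM j) ^^^ 2 ^ (7 - k)) (oM l) =
          if j + k + l = 3 ∧ j ≠ k then 16 else 0) j hj k hk l hl] at h2
      rw [← inv_mul_eq_iff_eq_mul, αi l hl]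
      nth_rewrite 1 [← αi l hl]
      split_ifs at h2 ⊢
      · exact h1.resolve_left fun k => by simp [k, F.one] at h2
      · exact h1.resolve_right fun k => by simp [k, C.pt] at h2
  obtain ⟨q, eq⟩ : ∃ q : ℕ → G, q = fun i => [a, c 0 1, c 0 2, c 1 2, t, e 2, e 1, e 0].getD i 1 := ⟨_, rfl⟩
  have fq : ∀ i < 8, q i ∈ Q z ∧ π (q i) = 2 ^ i := fun i hi => by
    have k := fun j hj k hk => (cQ j hj k hk).1
    have l := fun j hj k hk => (cQ j hj k hk).2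
    subst eq
    interval_cases i
    exacts [⟨ha, ea⟩, ⟨k 0 (by omega) 1 (by omega), (l 0 (by omega) 1 (by omega)).trans (by decide +kernel)⟩,
      ⟨k 0 (by omega) 2 (by omega), (l 0 (by omega) 2 (by omega)).trans (by decide +kernel)⟩,
      ⟨k 1 (by omega) 2 (by omega), (l 1 (by omega) 2 (by omega)).trans (by decide +kernel)⟩,
      ⟨p.tQ, C.pt⟩, ⟨he 2, ee 2⟩, ⟨he 1, ee 1⟩, ⟨he 0, ee 0⟩]
  have q0 : q 0 = a := eq ▸ rfl
  have q4 : q 4 = t := eq ▸ rfl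
  refine ⟨q, α, n, ⟨F, fq, h.nn, q4 ▸ h.nz, q0 ▸ h.br, fun j hj => ?_, fun i hi => ?_,
    fun j hj => mem_c1.2 (C.acH (r j hj).2.1), fun j hj i hi => ?_, q0 ▸ C.isConj.2 ja.aD, fun j hj l => ?_,
    fun w hw j hj => C.o_wq hk fq (q0 ▸ ja) hw hj, fun j hj => ?_⟩, q4⟩
  · subst eq
    interval_cases j <;> exact eα _
  · subst eq
    interval_cases i <;> exact cn _ (by omega) _ (by omega)
  · have a1 := (r j hj).2.2.1
    have a2 := conj_eq_iff.2 (p.r.zc (r j hj).1)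
    have a3 := F3 0 (by omega) 1 (by omega) j hj
    have a4 := F3 0 (by omega) 2 (by omega) j hj
    have a5 := F3 1 (by omega) 2 (by omega) j hj
    have a6 : c j j = 1 := by rw [← ec', conj_eq_iff.2 (r j hj).2.2.2, mul_inv_cancel]
    have a7 := cs 1 (by omega) 0 (by omega)
    have a8 := cs 2 (by omega) 0 (by omega)
    have a9 := cs 2 (by omega) 1 (by omega)
    subst eq
    rw [el, (by decide +kernel : ∀ j < 3, ∀ i < 8, fld 9 (nth 0 AL j) i >>> 8 = 0) j hj i hi]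
    interval_cases j <;> interval_cases i <;> simp +decide [chi_succ, F1, a1, a2, a3, a4, a5, a6, a7, a8, a9,
      show ∀ g c, chi (G := G) g 0 c = 1 from fun _ _ => rfl]
  · have k1 := fq (7 - j) (by omega)
    have k2 := fq 4 (by omega)
    have m := F.mul _ k1.1 _ k2.1
    rw [k1.2, k2.2] at m
    obtain ⟨d1, d2, d3⟩ := (by decide +kernel : ∀ j < 3, 2 ^ (7 - j) ^^^ 2 ^ 4 ≠ 0 ∧
      (GM 1).testBit (2 ^ (7 - j) ^^^ 2 ^ 4) = false ∧ (GM 2).testBit (2 ^ (7 - j) ^^^ 2 ^ 4) = false) j hj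
    have := (C.D_iff (mul_mem k1.1 k2.1) fun e => d1 (by rw [← m, e, F.pz])).1 (C.isConj.1 l)
    rw [m] at this
    rcases hk with rfl | rfl
    exacts [absurd (d2 ▸ this) (by decide), absurd (d3 ▸ this) (by decide)]
  · obtain ⟨y, -, l⟩ := C.toSt.B_ex C.f1 ja ea (s := 2 ^ (2 - j)) (by interval_cases j <;> norm_num)
    rcases hk with rfl | rfl <;> exact ⟨y, l⟩

end Cs

end CF.W4
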