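import Cfsg.Agent.W4.O1

/-! The Steinberg generators and their relations. -/

set_option autoImplicit false
set_option maxRecDepth 1000000
set_option synthInstance.maxSize 2000
set_option linter.unusedSectionVars false

namespace CF.W4
open Cfsg Subgroup CF.Loc CF.Even CF.LX CF.J4 CF.Comp CF.Dce
open CF.ThR (q8 b8 el qm apq el_pow el_shl el_zero)
open CF.LX4 (AL aw Rl cyc3 exact_lift el_inj)

variable {G : Type*} [Group G]

/-- the opposite root elements -/
structure Ob (Q : Subgroup G) (z : G) (π : G → ℕ) (q α β : ℕ → G) (n : G) : Prop extends Oa Q z π q α n where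
  βH : ∀ j < 3, β j ∈ 𝐂₁(z)
  βa : ∀ j < 3, ∀ i < 8, β j * q i * (β j)⁻¹ = el q z (fld 9 (nth 0 AL (j + 3)) i)

variable [Finite G] {Q : Subgroup G} {z n : G} {π : G → ℕ} {q α β : ℕ → G}

local notation "H" => 𝐂₁(z)

namespace Oa
variable (h : Oa Q z π q α n)
include h

theorem ni : n⁻¹ = n := inv_eq_of_mul_eq_one_right h.nn

theorem n2 {x y : G} (e : n * x * n⁻¹ = y) : n * y * n⁻¹ = x := by
  rw [← e, h.ni, ← mul_assoc, ← mul_assoc, h.nn, one_mul, mul_assoc, h.nn, mul_one]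

theorem qc {i j : ℕ} (hi : i < 8) (hj : j < 8) (e : i ^^^ j ≠ 4) : q i * q j = q j * q i :=
  (h.toFr.comm_iff (h.fq i hi).1 (h.fq j hj).1).2 (by
    rw [(h.fq i hi).2, (h.fq j hj).2]
    exact (by decide +kernel : ∀ i < 8, ∀ j < 8, i ^^^ j ≠ 4 → b8 (2 ^ i) (2 ^ j) = 0) i hi j hj e)

theorem αα {j : ℕ} (hj : j < 3) : α j * α j = 1 := by
  rw [← h.nα j hj, conj_mul, h.toFr.qq h.fq (by omega)]; group

theorem αc {j k : ℕ} (hj : j < 3) (hk : k < 3) : α j * α k = α k * α j := by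
  rw [← h.nα j hj, ← h.nα k hk, conj_mul, conj_mul, h.qc (by omega) (by omega)
    ((by decide : ∀ j < 3, ∀ k < 3, 7 - j ^^^ 7 - k ≠ 4) j hj k hk)]

theorem not_cl {j : ℕ} (hj : j < 3) : ¬ IsConj z (α j * z) := fun c =>
  h.ncl j hj (c.trans (isConj_iff.2 ⟨n, by rw [← conj_mul, h.n2 (h.nα j hj), h.nt]⟩))

theorem exists_ob : ∃ β, Ob Q z π q α β n := by
  have : ∀ j < 3, ∃ b, b ∈ H ∧ ∀ i < 8, b * q i * b⁻¹ = el q z (fld 9 (nth 0 AL (j + 3)) i) := fun j hj => by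
    obtain ⟨y, hy⟩ := h.yx j hj
    obtain ⟨u, hu, k⟩ := exact_lift h.toFr h.fq hy (A := nth 0 AL (j + 3))
      (by interval_cases j <;> decide +kernel) (by interval_cases j <;> decide +kernel) 8 le_rfl
    exact ⟨(y * u)⁻¹, inv_mem (mul_mem (h.norm_le hy.1) (h.le_c1 hu)), by simpa only [inv_inv] using k⟩
  choose! β h1 h2 using this
  exact ⟨β, h, h1, h2⟩

end Oa

namespace Ob
variable (h : Ob Q z π q α β n)
include h

theorem conj_w {w : List ℕ} (hw : ∀ x ∈ w, x < 6) (c : ℕ) :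
    LX4.pw α β w ∈ H ∧ LX4.pw α β w * el q z c * (LX4.pw α β w)⁻¹ = el q z (aw w c) := by
  induction w with
  | nil => exact ⟨one_mem _, by simp [LX4.pw, aw]⟩
  | cons x w ih =>
    obtain ⟨a, b⟩ := ih fun y hy => hw y (List.mem_cons_of_mem _ hy)
    have hx := hw x List.mem_cons_self
    have : (if x < 3 then α x else β (x - 3)) ∈ H ∧ ∀ i < 8, (if x < 3 then α x else β (x - 3)) * q i *
        (if x < 3 then α x else β (x - 3))⁻¹ = el q z (fld 9 (nth 0 AL x) i) := by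
      split_ifs with e
      · exact ⟨h.αH x e, h.αa x e⟩
      · have := h.βa (x - 3) (by omega)
        rw [Nat.sub_add_cancel (by omega)] at this
        exact ⟨h.βH _ (by omega), this⟩
    rw [show LX4.pw α β (x :: w) = (if x < 3 then α x else β (x - 3)) * LX4.pw α β w from List.prod_cons]
    exact ⟨mul_mem this.1 a, by
      rw [show aw (x :: w) c = apq (nth 0 AL x) (aw w c) from rfl, ← h.toFr.conj_el h.fq this.1 this.2, ← b]; group⟩

theorem same {u w : List ℕ} (k : (∀ x ∈ u, x < 6) ∧ (∀ x ∈ w, x < 6) ∧ ∀ i < 8, aw u (2 ^ i) = aw w (2 ^ i)) :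
    LX4.pw α β u = LX4.pw α β w ∨ LX4.pw α β u = LX4.pw α β w * z :=
  (h.toFr.cent_of h.fq (mul_mem (inv_mem (h.conj_w k.2.1 0).1) (h.conj_w k.1 0).1) fun i hi => by
    have a := (h.conj_w k.1 (2 ^ i)).2
    rw [k.2.2 i hi, ← (h.conj_w k.2.1 (2 ^ i)).2, el_pow q z hi] at a
    calc _ = (LX4.pw α β w)⁻¹ * (LX4.pw α β u * q i * (LX4.pw α β u)⁻¹) * LX4.pw α β w := by group
      _ = _ := by rw [a]; group).imp (fun e => (inv_mul_eq_one.1 e).symm) inv_mul_eq_iff_eq_mul.1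

theorem exists_cube : ∃ β, Ob Q z π q α β n ∧ ∀ j < 3, (α j * β j) ^ 3 = 1 := by
  have : ∀ j < 3, ∃ b, (b = β j ∨ b = β j * z) ∧ (α j * b) ^ 3 = 1 := fun j hj => by
    have := h.same (u := [j, j + 3, j, j + 3, j, j + 3]) (w := []) (by revert j; decide +kernel)
    simp only [LX4.pw, List.map_cons, List.map_nil, List.prod_cons, List.prod_nil, hj, if_true, mul_one, one_mul,
      Nat.add_sub_cancel, show ¬ j + 3 < 3 by omega, if_false] at this
    rw [show α j * (β j * (α j * (β j * (α j * β j)))) = (α j * β j) ^ 3 by simp [pow_succ, mul_assoc]] at this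
    refine this.elim (fun e => ⟨_, .inl rfl, e⟩) fun e => ⟨_, .inr rfl, ?_⟩
    rw [← mul_assoc, (show Commute (α j * β j) z from mem_c1.1 (mul_mem (h.αH j hj) (h.βH j hj))).mul_pow, e,
      pow_succ z, sq, h.zz, one_mul, h.zz]
  choose! b h1 h2 using this
  refine ⟨b, ⟨h.toOa, fun j hj => ?_, fun j hj i hi => ?_⟩, h2⟩ <;> rcases h1 j hj with e | e <;> rw [e]
  exacts [h.βH j hj, mul_mem (h.βH j hj) (mem_c1.2 rfl),
    h.βa j hj i hi, by rw [← h.βa j hj i hi, mul_assoc (β j), ← h.zc (h.fq i hi).1]; group]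

variable (c3 : ∀ j < 3, (α j * β j) ^ 3 = 1)
include c3

theorem ββ {j : ℕ} (hj : j < 3) : β j * β j = 1 := by
  have := h.same (u := [j + 3, j]) (w := [j, j + 3, j, j + 3]) (by revert j; decide +kernel)
  simp only [LX4.pw, List.map_cons, List.map_nil, List.prod_cons, List.prod_nil, hj, if_true, mul_one,
    Nat.add_sub_cancel, show ¬ j + 3 < 3 by omega, if_false] at this
  have m := mul_mem (h.αH j hj) (h.βH j hj)
  have c := c3 j hj
  have := LX4.LQ.odd3 h.toLQ (by rw [show β j * α j = (α j)⁻¹ * (α j * β j) * (α j)⁻¹⁻¹ by group, conj_pow, c]; group)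
    (by rw [← mul_assoc, ← sq, ← pow_mul, mul_comm, pow_mul, c, one_pow]) (by rw [← mul_assoc]; exact mul_mem m m) this
  rw [pow_succ, pow_two, mul_assoc (α j) (β j), ← this, mul_assoc, ← mul_assoc (α j), h.αα hj, one_mul] at c
  exact c

theorem fixy {j x : ℕ} (hj : j < 3) (hx : x < 6) (e : x % 3 ≠ j) :
    LX4.pw α β [x] * (α j * β j) = α j * β j * LX4.pw α β [x] := by
  have i : LX4.pw α β [x] * LX4.pw α β [x] = 1 := by
    simp only [LX4.pw, List.map_cons, List.map_nil, List.prod_cons, List.prod_nil, mul_one]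
    split_ifs with l
    exacts [h.αα l, h.ββ c3 (by omega)]
  have := h.same (u := [x, j, j + 3, x]) (w := [j, j + 3])
    (by interval_cases j <;> interval_cases x <;> first | omega | decide +kernel)
  simp only [LX4.pw, List.map_cons, List.map_nil, List.prod_cons, List.prod_nil, hj, if_true, mul_one,
    Nat.add_sub_cancel, show ¬ j + 3 < 3 by omega, if_false] at this i ⊢
  rw [← mul_assoc (α j), ← mul_assoc] at this
  nth_rewrite 2 4 [← inv_eq_of_mul_eq_one_right i] at this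
  exact conj_eq_iff.1 (LX4.LQ.odd3 h.toLQ (by rw [conj_pow, c3 j hj]; group) (c3 j hj)
    (mul_mem (h.αH j hj) (h.βH j hj)) this)

theorem r2 {j k : ℕ} (hj : j < 3) (hk : k < 3) (e : j ≠ k) : β j * β k = β k * β j ∧ α j * β k = β k * α j := by
  have l : ∀ {j k}, j < 3 → k < 3 → j ≠ k → α j * β k = β k * α j := fun {j k} hj hk e => by
    have := h.fixy c3 hk (x := j) (by omega) (by omega)
    simp only [LX4.pw, List.map_cons, List.map_nil, List.prod_cons, List.prod_nil, hj, if_true, mul_one] at this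
    rw [← mul_assoc, h.αc hj hk, mul_assoc, mul_assoc] at this
    exact mul_left_cancel this
  have := h.fixy c3 hk (x := j + 3) (by omega) (by omega)
  simp only [LX4.pw, List.map_cons, List.map_nil, List.prod_cons, List.prod_nil, mul_one, Nat.add_sub_cancel,
    show ¬ j + 3 < 3 by omega, if_false] at this
  rw [← mul_assoc, ← l hk hj e.symm, mul_assoc, mul_assoc] at this
  exact ⟨mul_left_cancel this, l hj hk e⟩

theorem braid {j : ℕ} (hj : j < 3) : (α j * β j * α j * n) ^ 3 = 1 := by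
  obtain ⟨m, em⟩ : ∃ m, α j * β j * α j = m := ⟨_, rfl⟩
  have a := fun c => h.conj_w (w := [j, j + 3, j]) (by simp; omega) c
  simp only [LX4.pw, List.map_cons, List.map_nil, List.prod_cons, List.prod_nil, hj, if_true, mul_one,
    Nat.add_sub_cancel, show ¬ j + 3 < 3 by omega, if_false, ← mul_assoc, em] at a
  have mH := (a 0).1
  have mq : ∀ {i k}, i < 8 ∧ k < 8 ∧ aw [j, j + 3, j] (2 ^ i) = 2 ^ k → m * q i * m⁻¹ = q k := fun {i k} e => by
    rw [← el_pow q z e.1, (a _).2, e.2.2, el_pow q z e.2.1]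
  have x : ∀ {u v w}, n * u * n⁻¹ = v → m * v * m⁻¹ = w → m * n * u * (m * n)⁻¹ = w := fun e e' => by
    rw [← e', ← e]; group
  have nf : ∀ i < 4, i ≠ 0 → n * q i * n⁻¹ = q i := fun i hi e => by
    simpa only [Nat.sub_add_cancel (Nat.pos_of_ne_zero e)] using h.nf (i - 1) (by omega)
  have m1 : m * q 4 * m⁻¹ = q (3 - j) := mq (by interval_cases j <;> decide +kernel)
  have m2 : m * q (3 - j) * m⁻¹ = q 4 := mq (by interval_cases j <;> decide +kernel)
  have t1 := cyc3 (x h.nt m1) (x (nf _ (by omega) (by omega)) m2) (x (h.n2 h.nt) (conj_eq_iff.2 (mem_c1.1 mH)))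
  have t0 := (by decide +kernel : ∀ j < 3, ∀ k < 3, j ≠ k → (7 - k < 8 ∧ j + k < 8 ∧
    aw [j, j + 3, j] (2 ^ (7 - k)) = 2 ^ (j + k)) ∧ j + k < 8 ∧ 7 - k < 8 ∧ aw [j, j + 3, j] (2 ^ (j + k)) = 2 ^ (7 - k)) j hj
  have t2 := fun k (hk : k < 3) (e : j ≠ k) => cyc3 (x (h.n2 (h.nα k hk)) (mq (t0 k hk e).1))
    (x (nf _ (by omega) (by omega)) (mq (t0 k hk e).2)) (x (h.nα k hk) (conj_eq_iff.2 (by
      rw [← em, mul_assoc, h.αc hj hk, mul_assoc, ← mul_assoc (β j), ← (h.r2 c3 hk hj e.symm).2, ← mul_assoc, ← mul_assoc,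
        h.αc hj hk]; group)))
  have mm : m * m = 1 := by
    rw [← em, mul_assoc, mul_assoc, ← mul_assoc (α j) (α j * _), ← mul_assoc (α j) (α j), h.αα hj, one_mul,
      ← mul_assoc (β j), h.ββ c3 hj, one_mul, h.αα hj]
  have mi := inv_eq_of_mul_eq_one_right mm
  rw [em]
  obtain ⟨w, ew⟩ : ∃ w, (m * n) ^ 3 = w := ⟨_, rfl⟩
  have wn : n * w * n⁻¹ = w⁻¹ := by rw [← ew, ← conj_pow, ← inv_pow, mul_inv_rev, mi, h.ni, mul_assoc, mul_assoc, h.nn, mul_one]
  have wm : m * w * m⁻¹ = w⁻¹ := by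
    rw [← ew, ← conj_pow, ← inv_pow, mul_inv_rev, ← mul_assoc, mm, one_mul, h.ni]
  have cw : IsConj n (m * w) := isConj_iff.2 ⟨n * m, by
    rw [← ew, mul_inv_rev, mi, h.ni, pow_succ', ← mul_assoc, ← mul_assoc m, ← mul_assoc m, mm, one_mul, sq]; group⟩
  rw [ew] at t1 t2 ⊢
  have wH := mem_c1.2 t1.1
  have wq : ∀ i < 8, i ≠ 0 → i ≠ 7 - j → q i * w = w * q i := fun i hi a b => by
    rcases (by decide : ∀ j < 3, ∀ i < 8, i ≠ 0 → i ≠ 7 - j → i = 3 - j ∨ i = 4 ∨ ∃ k < 3, j ≠ k ∧ (i = j + k ∨ i = 7 - k))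
      j hj i hi a b with rfl | rfl | ⟨k, hk, e, rfl | rfl⟩
    exacts [t1.2.1.symm, t1.2.2.symm, (t2 k hk e).2.1.symm, (t2 k hk e).2.2.symm]
  have wQ : w ∈ Q := h.wq w wH j hj wq
  obtain ⟨c, hc, rfl⟩ := h.toFr.el_surj h.fq wQ
  have k := (by decide +kernel : ∀ j < 3, ∀ c < 512, (∀ i < 8, i ≠ 0 → i ≠ 7 - j → b8 (2 ^ i) (c % 256) = 0) →
    q8 (c % 256) = 0 ∧ (aw [j, j + 3, j] c = c → c = 0 ∨ c = 1 <<< 8 ∨ c = qm (2 ^ (3 - j)) (2 ^ 4) ∨
      c = qm (qm (2 ^ (3 - j)) (2 ^ 4)) (1 <<< 8)) ∧ aw [j, j + 3, j] c < 512) j hj c hc fun i hi a b => by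
      rw [← (h.fq i hi).2, ← h.toFr.π_el h.fq]; exact (h.toFr.comm_iff (h.fq i hi).1 wQ).1 (wq i hi a b)
  rw [inv_eq_of_mul_eq_one_right ((h.toFr.sq_iff wQ).2 (by rw [h.toFr.π_el h.fq, k.1]))] at wn wm
  have tz : q 4 ≠ z := fun e => by simpa [e, h.toFr.pz] using (h.fq 4 (by norm_num)).2
  rcases k.2.1 (el_inj h.toFr h.fq k.2.2 hc ((a c).2.symm.trans wm)) with rfl | rfl | rfl | rfl
  · exact el_zero q z
  · rw [el_shl, pow_one, h.nt] at wn
    exact absurd wn tz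
  · rw [← h.toFr.el_mul h.fq, el_pow q z (by omega), el_pow q z (by omega), ← conj_mul, nf _ (by omega) (by omega),
      h.n2 h.nt] at wn
    exact absurd (mul_left_cancel wn).symm tz
  · rw [← h.toFr.el_mul h.fq, ← h.toFr.el_mul h.fq, el_pow q z (by omega), el_pow q z (by omega), el_shl, pow_one] at cw
    have aa := h.toFr.qq h.fq (i := 0) (by norm_num)
    refine absurd (h.ca.trans ((isConj_iff.2 ⟨q 0 * n, ?_⟩).trans (cw.trans
      (isConj_iff.2 ⟨α j * β j * q 4, ?_⟩)))) (h.not_cl hj)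
    · rw [mul_inv_rev, h.ni, mul_assoc (q 0), ← mul_assoc, mul_assoc (q 0), ← h.br, ← mul_assoc, ← mul_assoc, aa]; group
    · have l := h.fq 4 (by norm_num)
      calc _ = α j * β j * (q 4 * (m * q (3 - j) * m⁻¹) * m * (q 4 * z * (q 4)⁻¹)) * (α j * β j)⁻¹ := by group
        _ = α j * β j * m * (α j * β j)⁻¹ * z := by
          rw [m2, h.toFr.qq h.fq (by norm_num), conj_eq_iff.2 (h.zc l.1), mul_assoc _ (α j * β j)⁻¹ z,
            mem_c1.1 (inv_mem (mul_mem (h.αH j hj) (h.βH j hj)))]; group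
        _ = (α j * β j) ^ 3 * α j * z := by
          rw [← em, mul_inv_rev, inv_eq_of_mul_eq_one_right (h.αα hj), inv_eq_of_mul_eq_one_right (h.ββ c3 hj)]
          simp only [pow_succ, pow_zero, one_mul, mul_assoc]
        _ = _ := by rw [c3 j hj, one_mul]

theorem rl : Rl α β (q 0) n := by
  have aa := h.toFr.qq h.fq (i := 0) (by norm_num)
  refine ⟨aa, h.nn, h.br, fun j hj => ?_, fun j hj k hk e => ⟨h.αc hj hk, h.r2 c3 hj hk e⟩⟩
  have e := h.n2 (h.nα j hj)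
  have a := (h.conj_w (w := [j, j + 3, j]) (by simp; omega) (2 ^ 0)).2
  have b := h.αa j hj 0 (by norm_num)
  have c := h.βa j hj 0 (by norm_num)
  obtain ⟨k1, k2, k3⟩ := (by decide +kernel : ∀ j < 3, aw [j, j + 3, j] (2 ^ 0) = 2 ^ (7 - j) ∧
    fld 9 (nth 0 AL j) 0 = qm (2 ^ 0) (2 ^ (7 - j)) ∧ fld 9 (nth 0 AL (j + 3)) 0 = 2 ^ 0) j hj
  simp only [LX4.pw, List.map_cons, List.map_nil, List.prod_cons, List.prod_nil, hj, if_true, mul_one, Nat.add_sub_cancel,
    show ¬ j + 3 < 3 by omega, if_false, k1, el_pow q z (show 0 < 8 by omega), el_pow q z (show 7 - j < 8 by omega),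
    mul_inv_rev, inv_eq_of_mul_eq_one_right (h.αα hj), inv_eq_of_mul_eq_one_right (h.ββ c3 hj), ← mul_assoc] at a
  rw [k2, ← h.toFr.el_mul h.fq, el_pow q z (by omega), el_pow q z (by omega), inv_eq_of_mul_eq_one_right (h.αα hj)] at b
  rw [k3, el_pow q z (by omega)] at c
  rw [h.ni] at e
  refine ⟨h.αα hj, h.ββ c3 hj, c3 j hj, ?_, conj_eq_iff.1 c, ?_, by simpa only [e, ← mul_assoc] using a, h.braid c3 hj⟩
  · rw [h.br, ← h.nα j hj]
    nth_rewrite 4 6 [← h.ni]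
    rw [conj_mul, conj_mul, h.qc (by omega) (by omega) (by interval_cases j <;> decide)]
  · rw [e, mul_assoc, mul_assoc, ← mul_assoc (α j), b, ← mul_assoc, aa, one_mul]

end Ob

end CF.W4
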