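import Cfsg.Agent.W4.O2
import Cfsg.Agent.P83.Q1

/-! The orthogonal subgroup over the field of two elements. -/

set_option autoImplicit false
set_option maxRecDepth 1000000
set_option synthInstance.maxSize 2000
set_option linter.unusedSectionVars false

namespace CF.W4

section
open Cfsg Subgroup CF.Loc CF.Even CF.LX CF.J4 CF.Comp CF.Dce CF.LX4 CF.Schur.Pc CF.P83

variable {G : Type*} [Group G]

theorem md_gen [Finite G] {F : ℕ → Om.M8} (h : BM Om.ρ Om.NM F) (top : clo F (gensW 8) = ⊤) (φ : Om.M8 →* G)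
    (i : Function.Injective φ) : Md φ.range fun i => φ (evs F XW i) := by
  have inj : Function.Injective Om.ρ :=
    (Matrix.reindexRingEquiv _ _).injective.comp fun _ _ e => Subtype.ext (Subtype.ext (Units.ext e))
  have h' : BM Om.ρ XM (evs F XW) := h.new (m := 16) rfl (by decide +kernel) (allFrom_zero.1 (by decide +kernel))
  generalize evs F XW = f at h'
  have m : ∀ x, φ x ∈ φ.range := fun x => ⟨x, rfl⟩
  have e := (MonoidHom.ofInjective i).symm
  have cK : Nat.card φ.range = 174182400 := (Nat.card_congr e.toEquiv).trans Bt.card_O8p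
  have := Bt.simple_O8p
  refine ⟨fun u w => ?_, fun _ => m _, fun L hL x hx => ?_, cK, e.isSimpleGroup, ?_⟩
  · rw [← map_ev, ← map_ev, i.eq_iff, ← inj.eq_iff, h'.ev, h'.ev]
    exact ⟨bm_inj8, fun k => by rw [← bm_mod, ← bm_mod (bev 8 XM w)]; exact congrArg (bm 8) k⟩
  · have : clo F (gensW 8) ≤ L.comap φ := clo_le.2 fun w hw => by
      obtain ⟨i, hi, rfl, k, k'⟩ := (by decide +kernel : ∀ w ∈ gensW 8, ∃ i < 8, w = [2 * i + 1] ∧
        nth (idB 8) Om.NM (2 * i) = bev 8 XM (nth [] BW i) ∧ ∀ x ∈ nth [] BW i, x ≤ 2 * 16) w hw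
      rw [ev_single, inj (a₁ := F i) (a₂ := ev f (nth [] BW i)) (by rw [h.val, h'.ev, k]),
        ev_congr (g := fun i => if i < 16 then f i else 1) (fun i hi => (if_pos hi).symm) k']
      exact ev_mem (fun i => by
        split_ifs with l
        exacts [hL i l, one_mem _]) _
    obtain ⟨x, rfl⟩ := hx
    exact this (top.ge (mem_top x))
  have c := fun i hi => allFrom_zero.1 cls_ok i hi
  simp only [cls, force_eq, brec_and, brec_or, beq_iff, Nat.blt_eq] at c
  have key : ∀ d, ∀ i < 1575, fld 20 CP i / 32768 = d → ∃ k, Om.ρ (k * f 8 * k⁻¹) = bm 8 (fld 64 CB i) := fun d => by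
    induction d using Nat.strong_induction_on with
    | _ d ih =>
      intro i hi hd
      rcases (c i hi).2 with k | ⟨k1, k2, k3⟩
      · exact ⟨1, by rw [one_mul, inv_one, mul_one, h'.val, k]; rfl⟩
      · obtain ⟨k, e⟩ := ih _ (hd ▸ k3) _ k2 rfl
        generalize hl : fld 20 CP i / 2048 % 16 = l at k1
        have ll : l < 16 := hl ▸ Nat.mod_lt _ (by norm_num)
        have v : Om.ρ (f l) = bm 8 (nth 0 XM (2 * l)) := by
          rw [h'.val, (by decide +kernel : ∀ l < 16, nth (idB 8) XM (2 * l) = nth 0 XM (2 * l)) l ll]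
        have s : f l * f l = 1 := inj (by
          rw [map_mul, v, ← bm_mulB, map_one, ← bm_idB,
            (by decide +kernel : ∀ l < 16, mulB 8 (nth 0 XM (2 * l)) (nth 0 XM (2 * l)) = idB 8) l ll])
        refine ⟨f l * k, ?_⟩
        rw [show f l * k * f 8 * (f l * k)⁻¹ = f l * (k * f 8 * k⁻¹) * (f l)⁻¹ by group, inv_eq_of_mul_eq_one_right s,
          map_mul, map_mul, e, v, ← k1, bm_mulB, bm_mulB]
  choose! k hk using fun i hi => key _ i hi rfl
  have mono : ∀ j < 1575, ∀ i < j, fld 64 CB i < fld 64 CB j := fun j => by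
    induction j with
    | zero => simp
    | succ j ih =>
      intro hj i hi
      have := ((c j (by omega)).1).resolve_left (by omega)
      exact (Nat.lt_succ_iff_lt_or_eq.1 hi).elim (fun l => (ih (by omega) i l).trans this) fun l => l ▸ this
  have := card_cos (P := φ.range ⊓ 𝐂₁(φ (f 8))) inf_le_left (x := fun i => φ (k i)) (fun i _ => m _) fun a ha b hb hab => by
    have e1 : (k a)⁻¹ * k b * f 8 = f 8 * ((k a)⁻¹ * k b) := i (by simpa using mem_c1.1 hab.2)
    have e2 : k a * f 8 * (k a)⁻¹ = k b * f 8 * (k b)⁻¹ := by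
      calc _ = k a * (f 8 * ((k a)⁻¹ * k b)) * (k b)⁻¹ := by group
        _ = _ := by rw [← e1]; group
    have e3 := bm_inj8 ((hk a ha).symm.trans ((congrArg Om.ρ e2).trans (hk b hb)))
    rw [fld, fld, Nat.mod_mod, Nat.mod_mod] at e3
    by_contra n
    rcases Nat.lt_or_gt_of_ne n with l | l
    exacts [(mono b hb a l).ne e3, (mono a ha b l).ne e3.symm]
  rw [cK] at this
  omega

theorem md_of [Finite G] {f : ℕ → G} (hr : ∀ r ∈ Om.RO, ev f r = 1) (h1 : f 0 ≠ 1) : ∃ K, Md K (evs f XW) := by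
  obtain ⟨F, h, top⟩ := Om.model
  have inj : Function.Injective Om.ρ :=
    (Matrix.reindexRingEquiv _ _).injective.comp fun _ _ e => Subtype.ext (Subtype.ext (Units.ext e))
  have := Bt.simple_O8p
  obtain ⟨φ, i, -, k⟩ := (Om.bnd (ug_rels _)).exists_inj (fun r hr => h.same inj r []
    (lall_iff.1 (by decide +kernel : lall (fun r => bsame 8 Om.NM r []) Om.RO = true) r hr)) top Bt.card_O8p hr (w := [1])
    (by decide +kernel) (by rwa [← ev_single f 0] at h1)
  refine ⟨_, (funext fun i => ?_ : (fun i => φ (evs F XW i)) = evs f XW) ▸ md_gen h top φ i⟩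
  rcases lt_or_ge i 16 with l | l
  · exact k _ ((by decide +kernel : ∀ i < 16, wordIn (gensW 8) (nth [] XW i) = true) i l)
  · rw [evs_eq_one l, evs_eq_one l, map_one]

end

open Cfsg Subgroup CF.Loc CF.Even CF.LX CF.J4 CF.Comp CF.Dce CF.XG
open CF.ThR (q8 b8 el qm apq el_pow el_shl el_zero el_congr)
open CF.LX4 (AL gf)

variable {G : Type*} [Group G] [Finite G]

section
variable {Q : Subgroup G} {z n : G} {π : G → ℕ} {q α β : ℕ → G}

theorem Oa.cmq (h : Oa Q z π q α n) {j i l : ℕ}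
    (k : j < 3 ∧ i < 8 ∧ l < 8 ∧ fld 9 (nth 0 AL j) i = qm (2 ^ i) (2 ^ l) ∧ i ^^^ l ≠ 4) : α j * q i * α j * q i = q l := by
  have := h.αa j k.1 i k.2.1
  rw [k.2.2.2.1, ← h.toFr.el_mul h.fq, el_pow q z k.2.1, el_pow q z k.2.2.1, inv_eq_of_mul_eq_one_right (h.αα k.1)] at this
  rw [this, h.qc k.2.1 k.2.2.1 k.2.2.2.2, mul_assoc, h.toFr.qq h.fq k.2.1, mul_one]

theorem Ob.md (h : Ob Q z π q α β n) (c3 : ∀ j < 3, (α j * β j) ^ 3 = 1) :
    ∃ K g, P83.Md K g ∧ g 8 = z ∧ (∀ i < 8, g i = q i) ∧ (∀ j < 3, g (j + 9) = α j ∧ g (j + 12) = β j) ∧ g 15 = n := by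
  have R := h.rl c3
  obtain ⟨K, M⟩ := md_of (R.rels (i := 0) (j := 1) (k := 2) (by omega) (by omega) (by omega) (by omega) (by omega) (by omega))
    fun e : α 0 = 1 => by
      have := (h.fq 7 (by omega)).2
      rw [← h.n2 (h.nα 0 (by omega)), e, mul_one, mul_inv_cancel, h.one] at this
      exact absurd this (by norm_num)
  refine ⟨K, _, M, ?_⟩
  generalize e : gf α β (q 0) n 0 1 2 = f
  have f0 : evL f 1 = α 0 := (evL_odd f 0).trans (e ▸ rfl)
  have f1 : evL f 3 = β 0 := (evL_odd f 1).trans (e ▸ rfl)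
  have f2 : evL f 5 = q 0 := (evL_odd f 2).trans (e ▸ rfl)
  have f4 : evL f 9 = α 1 := (evL_odd f 4).trans (e ▸ rfl)
  have f5 : evL f 11 = β 1 := (evL_odd f 5).trans (e ▸ rfl)
  have f6 : evL f 13 = α 2 := (evL_odd f 6).trans (e ▸ rfl)
  have f7 : evL f 15 = β 2 := (evL_odd f 7).trans (e ▸ rfl)
  have w1 : ev f LX4.Om.wn = n := by
    rw [LX4.Om.wn, ev_cons, ev_cons, ev_cons, f2, show evL f 7 = q 0 * n * q 0 from (evL_odd f 3).trans (e ▸ rfl), ev_nil,
      mul_one, mul_assoc _ _ (q 0), R.aa, mul_one, ← mul_assoc, R.aa, one_mul]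
  have w2 : ∀ {x j}, j < 3 → evL f x = α j → ev f (LX4.Om.wn ++ x :: LX4.Om.wn) = q (7 - j) := fun hj l => by
    rw [ev_append, ev_cons, w1, l, ← h.n2 (h.nα _ hj), h.ni, mul_assoc]
  have w0 : ∀ x w, ev f (LX4.Om.wc x w) = evL f x * ev f w * evL f x * ev f w := fun x w => by
    simp only [LX4.Om.wc, List.cons_append, ev_cons, ev_append, mul_assoc]
  have g7 : ev f _ = q 7 := w2 (by omega) f0
  have g6 : ev f _ = q 6 := w2 (by omega) f4
  have g5 : ev f _ = q 5 := w2 (by omega) f6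
  have g1 := (w0 1 _).trans (by rw [f0, g6, h.cmq (l := 1) (by decide +kernel)])
  have g2 := (w0 1 _).trans (by rw [f0, g5, h.cmq (l := 2) (by decide +kernel)])
  have g3 := (w0 9 _).trans (by rw [f4, g5, h.cmq (l := 3) (by decide +kernel)])
  have g4 := (w0 1 _).trans (by rw [f0, g3, h.cmq (l := 4) (by decide +kernel)])
  have s : ∀ x, ev f [x] = evL f x := fun x => by rw [ev_cons, ev_nil, mul_one]
  refine ⟨?_, fun i hi => ?_, fun j hj => ?_, w1⟩
  · show ev f LX4.Om.wz = z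
    rw [LX4.Om.wz, ev_append, ev_append, w1, LX4.Om.we, g4, ← h.n2 h.nt, h.ni]
  · interval_cases i
    exacts [(s 5).trans f2, g1, g2, g3, g4, g5, g6, g7]
  · interval_cases j
    exacts [⟨(s 1).trans f0, (s 3).trans f1⟩, ⟨(s 9).trans f4, (s 11).trans f5⟩, ⟨(s 13).trans f6, (s 15).trans f7⟩]

end

theorem Cs.pO {Q : G → Subgroup G} {D : Set G} {z t : G} {π : G → ℕ} {k : ℕ} (C : Cs Q D z π k t) (hk : k = 1 ∨ k = 2) :
    ∃ K g, P83.Md K g ∧ g 8 = z ∧ g 4 = t ∧ P83.QQ g = Q z ∧ ∀ x ∈ Q z, P83.cod g x = π x := by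
  obtain ⟨q, α, n, a, q4⟩ := C.exists_oa hk
  obtain ⟨β, b⟩ := a.exists_ob
  obtain ⟨β, b, c⟩ := b.exists_cube
  obtain ⟨K, g, M, g8, gq, -⟩ := b.md c
  have e : ∀ c, el q z c = el g (g 8) c := fun c => by rw [el_congr gq, g8]
  refine ⟨K, g, M, g8, (gq 4 (by omega)).trans q4, le_antisymm ((closure_le _).2 ?_) fun x hx => ?_, fun x hx => ?_⟩
  · rintro _ ⟨i, hi, rfl⟩
    rcases Nat.lt_succ_iff_lt_or_eq.1 hi with l | rfl
    exacts [gq i l ▸ (a.fq i l).1, g8 ▸ a.mem]
  · obtain ⟨c, -, rfl⟩ := a.toFr.el_surj a.fq hx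
    exact e c ▸ P83.el_mem c
  · obtain ⟨c, -, rfl⟩ := a.toFr.el_surj a.fq hx
    rw [a.toFr.π_el a.fq, e, M.π_el]

end CF.W4
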