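import Cfsg.Agent.W4.P1
import Cfsg.Agent.W4.DA

/-! The conjugates of the central involution in its centraliser. -/

set_option autoImplicit false
set_option maxRecDepth 1000000
set_option linter.unusedSectionVars false

namespace CF.W4
open Cfsg Subgroup CF.Loc CF.Even CF.LX CF.J4 CF.Comp CF.Dce CF.XG
open CF.ThR (q8 b8 el)

variable {G : Type*} [Group G] [Finite G] {Q : G → Subgroup G} {D : Set G} {z t a n w x y : G} {π : G → ℕ} {k M N : ℕ}

local notation "𝐀" => J4.Ac 8 (Q z) π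

theorem llen_eq' {α : Type} (l : List α) : llen l = l.length := by
  induction l with
  | nil => rfl
  | cons a l ih => exact congrArg Nat.succ ih

theorem Sys.swap2 {m : ℕ} {u v : G} (S : Sys Q D m) (hu : u ∈ D) (hv : v ∈ D) (e : v ∈ Q u) : u ∈ Q v :=
  (eq_or_ne v u).elim (fun l => l ▸ S.mem hv) fun l => (S.symm ⟨hu, hv, e, l⟩).aQ

theorem St.card_le (S : St Q D z π) {B : Subgroup G} {L : List ℕ} (k : ∀ b ∈ B, ∃ M ∈ L, 𝐀 b M) :
    Nat.card B ≤ L.length * Nat.card ↥(B ⊓ Q z) :=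
  card_le_rel (r := fun b M => 𝐀 b M) (fun _ _ _ _ _ a b => S.div a b) k

/-- an element of rank two centralises a large subgroup -/
theorem St.c64 (S : St Q D z π) (a : 𝐀 w M) (lt : M < 2 ^ 64) (r : Rk2 M) : w ∉ Q z ∧ 64 ≤ Nat.card ↥(Q z ⊓ 𝐂₁(w)) := by
  obtain ⟨r0, i, -, j, -, r⟩ := r
  generalize 2 ^ i ^^^ fld 8 M i = u at r
  generalize 2 ^ j ^^^ fld 8 M j = v at r
  have F := S.fr
  choose! q hq using fun i (hi : i < 8) => F.surj (2 ^ i) (Nat.pow_lt_pow_right one_lt_two hi)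
  have cl : ∀ c < 2 ^ 8, c ^^^ vm 8 c M ∈ [0, u, v, u ^^^ v] := xor_ind (by simp [vm_zero])
    (fun l hl => by rw [vm_pow hl]; exact r l hl) fun a _ b _ e e' => by
      rw [vm_xor, show a ^^^ b ^^^ (vm 8 a M ^^^ vm 8 b M) = a ^^^ vm 8 a M ^^^ (b ^^^ vm 8 b M) by
        simp only [Nat.xor_assoc]; rw [← Nat.xor_assoc b, Nat.xor_comm b, Nat.xor_assoc]]
      simp only [List.mem_cons, List.not_mem_nil, or_false] at e e' ⊢
      rcases e with e | e | e | e <;> rcases e' with e' | e' | e' | e' <;> rw [e, e'] <;>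
        simp [Nat.xor_comm, Nat.xor_left_comm]
  have c64 := card_le_rel (A := Q z) (Z := 𝐂₁(w)) (r := fun x c => x * (w⁻¹ * x⁻¹ * w) = el q z c)
    (L := [0, u, v, u ^^^ v] ++ [0, u, v, u ^^^ v].map (· + 256)) (fun x _ y _ c e e' => mem_c1.2 (by
      have := mul_right_cancel ((mul_assoc _ _ _).trans (e.trans e'.symm) |>.trans (mul_assoc _ _ _).symm)
      calc _ = x⁻¹ * (y * (w⁻¹ * y⁻¹))⁻¹ * y := by group
        _ = _ := by rw [← this]; group)) fun x hx => by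
      have m := norm_mem a.1 (inv_mem hx)
      obtain ⟨c, hc, e⟩ := F.el_surj hq (mul_mem hx m)
      have l := congrArg π e
      rw [F.mul _ hx _ m, a.2 _ (inv_mem hx), F.inv hx, F.π_el hq] at l
      have := l ▸ cl _ (F.lt x hx)
      refine ⟨c, List.mem_append.2 ?_, e⟩
      rcases (by omega : c = c % 256 ∨ c % 256 + 256 = c) with l | l
      exacts [.inl (l ▸ this), .inr (List.mem_map.2 ⟨_, this, l⟩)]
  rw [S.sys.card S.zD] at c64
  simp only [List.length_append, List.length_map, List.length_cons, List.length_nil] at c64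
  exact ⟨fun m => r0 (S.uniq a (S.self m) lt (mo_lt p8)), by omega⟩

namespace Cs
variable (C : Cs Q D z π k t) (hk : k ∈ [1, 2])
include C hk

theorem p_A {s : ℕ} : fld 64 (A0 k) s = pA s := by
  simp only [List.mem_cons, List.not_mem_nil, or_false] at hk
  rcases hk with rfl | rfl <;> rfl

theorem p_Γ (a : 𝐀 w M) {c : ℕ} (hc : c < 256) : (GM k).testBit (vm 8 c M) = (GM k).testBit c := by
  obtain ⟨N, -, n1, n2, -⟩ := C.N_inv ⟨w, a⟩
  refine Bool.eq_iff_iff.2 ⟨fun e => ?_, fun e => (C.Γ _ (vm_lt 8 _ _)).1 (C.Γ_act ((C.Γ c hc).2 e) ⟨w, a⟩)⟩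
  exact (C.Γ c hc).1 (n2 c hc ▸ C.Γ_act ((C.Γ _ (vm_lt 8 _ _)).2 e) n1)

theorem p_cl (a : 𝐀 w M) (f : vm 8 16 M = 16) : ∃ N ∈ pN k, 𝐀 w N := by
  have p := fun i (hi : i < 8) => Nat.pow_lt_pow_right one_lt_two hi
  have m : ∀ i < 8, vm 8 (2 ^ i) M ∈ pG k := fun i hi => p_G k hk _ (vm_lt _ _ _) (by
    rw [C.p_Γ hk a (p i hi)]
    exact (by decide +kernel : ∀ k ∈ [1, 2], ∀ i < 8, (GM k).testBit (2 ^ i) = true) k hk i hi)
  have r : ∀ i j, i < 8 ∧ j < 8 ∧ i ≠ j → Rq k i j (vm 8 (2 ^ i) M) (vm 8 (2 ^ j) M) := fun i j l =>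
    ⟨by rw [← vm_xor, C.p_Γ hk a (Nat.xor_lt_two_pow (p i l.1) (p j l.2.1))], fun e =>
      l.2.2 (Nat.pow_right_injective le_rfl (C.co.inj a (C.fr.nz (mem_c1.2 (C.acH a))) (p i l.1) (p j l.2.1) e)),
      C.b8_ac a (p i l.1) (p j l.2.1)⟩
  replace f : vm 8 (2 ^ 4) M = 16 := f
  have r4 : ∀ i, i < 8 ∧ 4 < 8 ∧ i ≠ 4 → Rq k i 4 (vm 8 (2 ^ i) M) 16 := fun i k => f ▸ r i 4 k
  have u : ∀ i < 4, i ≠ 0 → vm 8 (2 ^ i) M &&& 225 = 0 := fun i hi n => by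
    have := C.F_act ((C.f0.F _ (p i (by omega))).2 (by revert i; decide +kernel)) ⟨w, a⟩
    rw [show vm 8 16 M = 16 from f, C.f0.F _ (vm_lt 8 _ _)] at this
    exact (by decide +kernel : ∀ c < 256, FM0.testBit c = true → c &&& 225 = 0) _ (vm_lt 8 _ _) this
  have e := p_seg k hk _ (m 1 (by omega)) ⟨u 1 (by omega) (by omega), r4 1 (by omega)⟩
    _ (m 2 (by omega)) ⟨u 2 (by omega) (by omega), r4 2 (by omega), r 2 1 (by omega)⟩
    _ (m 3 (by omega)) ⟨u 3 (by omega) (by omega), r4 3 (by omega), r 3 1 (by omega), r 3 2 (by omega)⟩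
    _ (m 5 (by omega)) ⟨r4 5 (by omega), r 5 1 (by omega), r 5 2 (by omega), r 5 3 (by omega)⟩
    _ (m 6 (by omega)) ⟨r4 6 (by omega), r 6 1 (by omega), r 6 2 (by omega), r 6 3 (by omega), r 6 5 (by omega)⟩
    _ (m 7 (by omega)) ⟨r4 7 (by omega), r 7 1 (by omega), r 7 2 (by omega), r 7 3 (by omega), r 7 5 (by omega),
      r 7 6 (by omega)⟩
    _ (m 0 (by omega)) ⟨r4 0 (by omega), r 0 1 (by omega), r 0 2 (by omega), r 0 3 (by omega), r 0 5 (by omega),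
      r 0 6 (by omega), r 0 7 (by omega)⟩
  rw [force_eq, lany_iff] at e
  obtain ⟨N, hN, e⟩ := e
  refine ⟨N, hN, C.co.congr a fun c hc => ?_⟩
  rw [← beq_iff.1 e, ← vm_pk p8 (f := (vm 8 · M)) (fun _ _ => vm_lt _ _ _) (fun _ _ _ _ => vm_xor _ _ _ _) c hc]
  refine congrArg _ (pk_congr fun i hi => ?_)
  rw [← f]
  interval_cases i <;> rfl

theorem p_fix {B : Subgroup G} (p : IsPGroup 2 B) (l : B ≤ 𝐂₁(z)) :
    ∃ c, c * z = z * c ∧ ∀ b ∈ B, ∃ M ∈ pN k, 𝐀 (c * b * c⁻¹) M := by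
  have cg : ∀ {b u v}, b * z = z * b → u ∈ Q z → v ∈ Q z → π u = π v → π (b * u * b⁻¹) = π (b * v * b⁻¹) :=
    fun {b u v} hb hu hv e => by
      obtain ⟨Y, -, y⟩ := C.ex_ac (comm_inv hb)
      have := y.2
      rw [inv_inv] at this
      rw [this u hu, this v hv, e]
  letI : MulAction B {c // gΓ Q D z π c} :=
    { smul := fun b c => ⟨π (b * c.2.choose * (b : G)⁻¹), _, C.sys.adj_cj' c.2.choose_spec.1 (mem_c1.1 (l b.2)), rfl⟩
      one_smul := fun c => Subtype.ext (by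
        show π (((1 : B) : G) * c.2.choose * ((1 : B) : G)⁻¹) = c
        simpa using c.2.choose_spec.2)
      mul_smul := fun b b' c => Subtype.ext (by
        have j := C.sys.adj_cj' c.2.choose_spec.1 (mem_c1.1 (l b'.2))
        have g : gΓ Q D z π (π (b' * c.2.choose * (b' : G)⁻¹)) := ⟨_, j, rfl⟩
        show π (((b * b' : B) : G) * c.2.choose * ((b * b' : B) : G)⁻¹) = π (b * g.choose * (b : G)⁻¹)
        rw [cg (mem_c1.1 (l b.2)) g.choose_spec.1.aQ j.aQ g.choose_spec.2, coe_mul, c2]) }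
  have cd : Nat.card {c // gΓ Q D z π c} = ((Finset.range 256).filter fun c => (GM k).testBit c = true).card :=
    Nat.subtype_card _ fun c => by
      rw [Finset.mem_filter, Finset.mem_range]
      exact ⟨fun e => (C.Γ c e.1).2 e.2, fun e => ⟨(C.Γ_lt e).1, (C.Γ c (C.Γ_lt e).1).1 e⟩⟩
  have od : ¬ 2 ∣ Nat.card {c // gΓ Q D z π c} := cd ▸ (by decide +kernel : ∀ k ∈ [1, 2],
    ¬ 2 ∣ ((Finset.range 256).filter fun c => (GM k).testBit c = true).card) k hk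
  have : Finite {c // gΓ Q D z π c} := Nat.finite_of_card_ne_zero fun e => od (e ▸ dvd_zero 2)
  obtain ⟨c, hc⟩ := p.nonempty_fixed_point_of_prime_not_dvd_card _ od
  obtain ⟨j, e⟩ := c.2.choose_spec
  obtain ⟨g, gz, ga⟩ := C.to_t j
  refine ⟨g, gz, fun b hb => ?_⟩
  have bz := mem_c1.1 (l hb)
  obtain ⟨N, -, a'⟩ := C.ex_ac (comm_mul (comm_mul gz bz) (comm_inv gz))
  refine C.p_cl hk a' ?_
  have f : π (b⁻¹ * c.2.choose * b⁻¹⁻¹) = c := congrArg Subtype.val (hc ⟨b⁻¹, inv_mem hb⟩)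
  rw [← C.pt, ← a'.2 t C.adj.aQ, show (g * b * g⁻¹)⁻¹ * t * (g * b * g⁻¹) = g * (b⁻¹ * (g⁻¹ * t * g) * b⁻¹⁻¹) * g⁻¹ by group,
    ga, cg gz (C.sys.adj_cj' j (comm_inv bz)).aQ j.aQ (f.trans e.symm), ← ga]
  congr 1; group

theorem p_big {B : Subgroup G} (hy : y ∈ D) (BP : B ≤ Q y) (yB : y ∈ B) (yQ : y ∉ Q z) (zB : z ∉ B)
    (lam : ∀ b ∈ B, ∃ M ∈ pN k, 𝐀 b M) (nD : ∀ e ∈ B ⊓ Q z, e ∉ D) : Nat.card B < 64 := by
  by_contra! c
  have X := C.sys.lq hy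
  have lt := fun M hM => (p_N k hk M hM).1
  have fix : ∀ {d M e}, d ∈ B → 𝐀 d M → e ∈ B ⊓ Q z → vm 8 (π e) M = π e := fun {d M e} hd a he => by
    rw [← a.2 e he.2]
    have := (C.sys.cases hy (BP (inv_mem hd)) (BP he.1)).resolve_right fun l => yQ (by
      have := mul_mem (norm_mem a.1 he.2) (inv_mem he.2)
      rwa [← inv_inv d, inv_inv d⁻¹, l, mul_inv_cancel_right] at this)
    rw [inv_inv] at this
    rw [this]
  have cnt : ∀ L : List ℕ, (∀ e ∈ B ⊓ Q z, π e ∈ L) → Nat.card ↥(B ⊓ Q z) ≤ L.length := fun L k => by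
    simpa using card_le_rel (A := B ⊓ Q z) (Z := ⊥) (r := fun e c => π e = c) (fun a ha b hb _ e e' => mem_bot.2
      ((C.lq.mem_z.1 ((C.co.eq_iff ha.2 hb.2).1 (e.trans e'.symm))).resolve_right fun l =>
        zB (l ▸ B.mul_mem (B.inv_mem ha.1) hb.1))) fun e he => ⟨_, k e he, rfl⟩
  have ng : ∀ {e}, e ∈ B ⊓ Q z → π e ≠ 0 → nG k (π e) = true := fun {e} he n0 => by
    rw [nG, brec_and, brec_not_and, beq_iff, beq_false_iff, tb_eq]
    refine ⟨(C.fr.sq_iff he.2).1 ((C.lq.sq e he.2).resolve_right fun l => zB (l ▸ B.mul_mem he.1 he.1)), n0, ?_⟩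
    cases l : (GM k).testBit (π e)
    exacts [rfl, absurd ((C.D_iff he.2 fun l => zB (l ▸ he.1)).2 l) (nD e he)]
  obtain ⟨Y, hY, ay⟩ := lam y yB
  have sq : ∀ {b M}, b ∈ B → 𝐀 b M → sqI Y M = true := fun {b M} hb a => by
    rw [sqI, force_eq, brec_or, beq_iff, beq_iff]
    rcases X.sq b (BP hb) with l | l
    exacts [.inl (C.uniq (C.mul a a) (l ▸ C.one) (mm_lt p8 _ _) (mo_lt p8)),
      .inr (C.uniq (C.mul a a) (l ▸ ay) (mm_lt p8 _ _) (lt Y hY))]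
  by_cases ex : ∃ e ∈ B ⊓ Q z, π e ≠ 0
  · obtain ⟨e, he, n0⟩ := ex
    have u := allFrom_zero.1 (p_U k hk) _ (C.lt he.2)
    rw [ckU, brec_imp, forceL_eq, brec_and, lall_iff] at u
    obtain ⟨u1, u2⟩ := u (ng he n0)
    have fx : ∀ {b M e L}, b ∈ B → 𝐀 b M → e ∈ B ⊓ Q z → M ∈ L → M ∈ fxL (π e) L := fun hb a he hM =>
      mem_lfil hM (beq_iff.2 (fix hb a he))
    have a := C.card_le (B := B) (L := lfil (sqI Y) (fxL (π e) (pN k))) fun b hb =>
      let ⟨M, hM, a⟩ := lam b hb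
      ⟨M, mem_lfil (fx hb a he hM) (sq hb a), a⟩
    have b := u1 Y (fx yB ay he hY)
    rw [Nat.blt_eq, llen_eq'] at b
    have d := cnt [0, π e] fun f hf => by
      by_contra l
      simp only [List.mem_cons, List.not_mem_nil, or_false, not_or] at l
      have v := allFrom_zero.1 u2 _ (C.lt hf.2)
      have m := C.co.mul e he.2 f hf.2
      rw [brec_imp, brec_imp, forceL_eq, lall_iff] at v
      replace v := v (ng hf l.1) (show nG k (π e ^^^ π f) = true from m ▸ ng (mul_mem he hf) fun n =>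
        l.2 (Nat.eq_of_xor_eq_zero (m ▸ n)).symm)
      obtain ⟨u, hu, v', hv, uv⟩ : ∃ u ∈ B, ∃ v ∈ B, v * u ≠ u * v := by
        by_contra! ab
        have l := card_le_of_le (le_inf BP fun x hx y hy => ab x hx y hy : B ≤ Q y ⊓ 𝐂(B))
        have := X.card_mul_card yB BP
        rw [C.sys.card hy, show 2 * 2 ^ (2 * 4 + 1) = 1024 from rfl] at this
        nlinarith
      obtain ⟨M, hM, au⟩ := lam _ (inv_mem hu)
      obtain ⟨N, hN, av⟩ := lam _ (inv_mem hv)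
      have := lall_iff.1 (v M (fx (inv_mem hu) au hf (fx (inv_mem hu) au he hM))) N
        (fx (inv_mem hv) av hf (fx (inv_mem hv) av he hN))
      rw [cmO, force_eq, brec_or, force_eq, beq_iff] at this
      rcases this with e | e
      · have := C.div (C.mul au av) (e ▸ C.mul av au)
        rw [mul_inv_rev, inv_inv, inv_inv, ← mul_assoc] at this
        exact (X.mem_z.1 (X.comm_mem (BP hv) (BP hu))).elim
          (fun l => uv (by rwa [mul_inv_eq_one, mul_inv_eq_iff_eq_mul] at l)) fun l => yQ (l ▸ this)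
      · have x := C.mul au av
        have x2 := C.mul x x
        rw [beq_iff.2 (C.uniq (C.mul x2 x2) (by
          rcases X.sq _ (BP (mul_mem (inv_mem hu) (inv_mem hv))) with l | l <;> rw [l]
          exacts [by simpa using C.one, X.zz ▸ C.one]) (mm_lt p8 _ _) (mo_lt p8))] at e
        exact absurd e (by decide)
    have := a.trans (Nat.mul_le_mul_left _ d)
    simp only [List.length_cons, List.length_nil] at this
    omega
  · have a := C.card_le (B := B) (L := lfil (sqI Y) (pN k)) fun b hb =>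
      let ⟨M, hM, a⟩ := lam b hb
      ⟨M, mem_lfil hM (sq hb a), a⟩
    have b := lall_iff.1 (p_1 k hk) Y hY
    rw [Nat.blt_eq, llen_eq'] at b
    have d := cnt [0] fun e he => by
      by_contra l
      exact ex ⟨e, he, by simpa using l⟩
    have := a.trans (Nat.mul_le_mul_left _ d)
    simp only [List.length_cons, List.length_nil] at this
    omega

theorem p_small (j : Adj Q D z a) (hw : w ∈ Q a) (wz : w * z = z * w) (wQ : w ∉ Q z) : Nat.card ↥(Q z ⊓ 𝐂₁(w)) ≤ 32 := by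
  obtain ⟨g, gz, rfl⟩ := C.to_t j
  obtain ⟨s, hs, b⟩ := C.B_ac (C.sys.fam.mv (show g * (g⁻¹ * t * g) * g⁻¹ = t by group) hw)
    (comm_mul (comm_mul gz wz) (comm_inv gz))
  rw [C.p_A hk] at b
  have e := C.sys.fam.cj g z
  rw [conj_eq_iff.2 gz] at e
  rw [← card_cj g, cj_inf, e, cj_centralizer_singleton]
  refine (C.fr.card_le inf_le_left (L := (List.range 256).filter fun c => vm 8 c (pA s) = c) fun x hx =>
    List.mem_filter.2 ⟨List.mem_range.2 (C.lt hx.1), decide_eq_true ?_⟩).trans (Nat.mul_le_mul_right 2 (p_F.2 s hs ?_))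
  · rw [← b.2 x hx.1, mul_assoc, mem_c1.1 hx.2, inv_mul_cancel_left]
  · rintro rfl
    exact wQ (C.sys.fam.of (conj_eq_iff.2 gz) (C.mem_of_ac (p_F.1 ▸ b)))

theorem p_r2 (hw : w ∈ D) (wz : w * z = z * w) (wQ : w ∉ Q z) : Nat.card ↥(Q z ⊓ 𝐂₁(w)) < 64 := by
  by_contra! c64
  obtain ⟨b, e⟩ := C.sys.tr hw C.zD
  obtain ⟨c, cz, l⟩ := C.p_fix hk (B := cj[b] (Q z ⊓ 𝐂₁(w))) (isPGroup_cj _ C.lq.isPGroup.to_inf_left) (by
    rw [← e, ← cj_centralizer_singleton]; exact cj_mono b inf_le_right)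
  have e' : c * b * w * (c * b)⁻¹ = z := by rw [c2, e, conj_eq_iff.2 cz]
  have l' : ∀ x ∈ cj[c * b] (Q z ⊓ 𝐂₁(w)), ∃ M ∈ pN k, 𝐀 x M := fun x hx => by
    have := l (c⁻¹ * x * c) (mem_cj.2 (by simpa only [mul_inv_rev, mul_assoc] using mem_cj.1 hx))
    rwa [show c * (c⁻¹ * x * c) * c⁻¹ = x by group] at this
  generalize c * b = g at l' e'
  have nz : z ∉ Q (g * z * g⁻¹) := fun m => wQ (C.sys.fam.of (g := g) rfl (by rwa [e']))
  have le : cj[g] (Q z ⊓ 𝐂₁(w)) ≤ Q (g * z * g⁻¹) := C.sys.fam.cj g z ▸ cj_mono g inf_le_left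
  have := C.p_big hk (C.sys.cj g C.zD) le (conj_mem_cj g ⟨C.lq.mem, mem_c1.2 wz.symm⟩)
    (fun m => nz (Sys.swap2 C.sys C.zD (C.sys.cj g C.zD) m)) (fun m => nz (le m)) l' fun x hx hD => by
      have d : g⁻¹ * x * g ∈ D := by simpa using C.sys.cj g⁻¹ hD
      have m : g⁻¹ * x * g ∈ Q w := C.sys.fam.of e' (by simpa [mul_assoc] using hx.2)
      have := C.p_small hk ⟨C.zD, d, (mem_cj.1 hx.1).1, fun l => wQ (Sys.swap2 C.sys hw C.zD (l ▸ m))⟩
        (Sys.swap2 C.sys hw d m) wz wQ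
      omega
  rw [card_cj] at this
  omega

theorem p_root (h : S3 Q z t a n) (pa : π a = P2 k) (hx : x ∈ Q z) (xt : x * t = t * x) : 𝐀 (n * x * n⁻¹) (pA (π x >>> 5)) := by
  have key : ∀ {x}, x ∈ Q z → x * t = t * x → x * a = a * x → 𝐀 (n * x * n⁻¹) (pA (π x >>> 5)) := fun {x} hx xt xa => by
    obtain ⟨r1, r2⟩ := h.root0 C.sys C.adj hx xt xa
    obtain ⟨r, hr, b⟩ := C.B_ac (inv_mem (h.toQ C.sys hx)) (comm_inv (h.cz xt))
    rw [C.p_A hk] at b
    obtain ⟨l1, l2⟩ := (p_R k hk).2 r hr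
    have m := norm_mem b.1 (inv_mem h.aQ)
    have e := b.2 _ (inv_mem h.aQ)
    have := (C.E_iff (mul_mem (inv_mem r1) hx)).1 r2
    generalize n * x * n⁻¹ = β at *
    rw [inv_inv] at m e
    rw [C.co.mul _ (inv_mem r1) _ hx, C.co.inv r1, mul_assoc, mul_assoc, ← mul_assoc β, C.co.mul _ h.aQ _ m, e,
      C.co.inv h.aQ, pa] at this
    rw [← l2 _ (C.lt hx) this]
    simpa using C.co.cd.inv' b rfl l1
  rcases C.sys.cases C.zD h.aQ hx with l | l
  · exact key hx xt (conj_eq_iff.1 l).symm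
  · have := key (mul_mem hx C.adj.aQ) (comm_mul xt rfl) (conj_eq_iff.1 (by
      rw [← conj_mul, l, h.at', ← C.lq.zc hx, mul_assoc, ← mul_assoc z, C.lq.zz, one_mul])).symm
    rw [C.co.mul x hx t C.adj.aQ, C.pt, Nat.shiftRight_xor_distrib, show 16 >>> 5 = 0 from rfl, Nat.xor_zero,
      ← conj_mul, h.nt] at this
    simpa only [mul_assoc, C.lq.zz, mul_one] using C.fr.ac_mul this C.lq.mem

theorem p_inn (hw : w ∈ D) (wz : w * z = z * w) : ∃ g, g * z = z * g ∧ (g * w * g⁻¹ ∈ Q z ∨ g * w * g⁻¹ ∈ Q t) := by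
  have k0 := (by decide : ∀ k ∈ [1, 2], k ≠ 0 ∧ k < 7) k hk
  obtain ⟨g, gz, M, hM, b⟩ : ∃ g, g * z = z * g ∧ ∃ M ∈ pN k, 𝐀 (g * w * g⁻¹) M :=
    let ⟨g, gz, _, _, b, f⟩ := C.fix16 k0.1 k0.2 wz (by rw [C.sys.zz hw]; exact one_mem _)
    ⟨g, gz, C.p_cl hk b f⟩
  replace hw := C.sys.cj g hw
  suffices ∃ y, y * z = z * y ∧ (y * (g * w * g⁻¹) * y⁻¹ ∈ Q z ∨ y * (g * w * g⁻¹) * y⁻¹ ∈ Q t) by
    obtain ⟨y, yz, l⟩ := this
    exact ⟨y * g, comm_mul yz gz, by rwa [c2]⟩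
  generalize g * w * g⁻¹ = w at hw b
  clear wz gz g
  have ww := C.sys.zz hw
  have wi := C.sys.zi hw
  have wz := C.acH b
  have no : ∀ {w M N}, w ∈ D → 𝐀 w (mm 8 M N) → ¬ Rk2 (mm 8 M N) := fun hw b r =>
    absurd (C.p_r2 hk hw (C.acH b) (C.c64 b (mm_lt p8 _ _) r).1) (not_lt.2 (C.c64 b (mm_lt p8 _ _) r).2)
  obtain ⟨lt, s, hs, hτ⟩ := p_N k hk M hM
  obtain ⟨β, hβ, bβ⟩ := C.B_ex hs
  rw [C.p_A hk] at bβ
  have b1 := C.mul bβ b
  have eM : mm 8 (pA s) (mm 8 (pA s) M) = M := by rw [← mm_assoc p8, ((p_R k hk).2 s hs).1, mo_mm p8 lt]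
  generalize mm 8 (pA s) M = τ at hτ b1 eM
  subst eM
  obtain ⟨f, rfl | l⟩ := p_Z k hk τ hτ
  · rw [mm_mo (x := pA s) p8 (fld_lt 64 _ _), ← C.p_A hk] at b
    rcases eq_or_ne s 0 with rfl | s0
    · exact ⟨1, by simp, .inl (by simpa using C.mem_of_ac (p_F.1 ▸ C.p_A hk ▸ b))⟩
    · obtain ⟨y, hy, l⟩ := C.g1 k0.1 k0.2 hs s0 b (by rw [ww]; exact one_mem _) (by rw [ww, C.co.one]; rfl)
      exact ⟨y⁻¹, comm_inv (C.lq.zc hy), .inr (by rwa [inv_inv])⟩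
  exfalso
  have := l s hs
  rw [force_eq, decide_eq_true_iff] at this
  obtain ⟨⟨c, hc, e⟩, l⟩ := (this (C.uniq (C.mul b b) (ww ▸ C.one) (mm_lt p8 _ _) (mo_lt p8))).resolve_left (no hw b)
  have wt : w * t = t * w := by
    obtain ⟨x, hx, rfl⟩ := C.co.surj c hc
    have m := mul_mem (norm_mem b.1 (inv_mem hx)) hx
    have e' := C.π_cj b hx _ (inv_mem hx)
    rw [C.co.inv hx, e, ← C.pt] at e'
    have i : w * (w⁻¹ * x⁻¹ * w * x) * w⁻¹ = (w⁻¹ * x⁻¹ * w * x)⁻¹ := by rw [wi]; simp [mul_assoc, wi, ← mul_assoc w w, ww]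
    rcases C.fr.eq_or C.adj.aQ m e'.symm with l | l <;> rw [l] at i
    · exact conj_eq_iff.1 (i.trans (C.sys.zi C.adj.aD))
    · rw [← conj_mul, conj_eq_iff.2 wz, mul_inv_rev, C.lq.zi, C.sys.zi C.adj.aD, ← C.sys.az C.adj, mul_left_inj] at i
      exact conj_eq_iff.1 i
  obtain ⟨a, ja, pa⟩ := C.f2.Γ
  have ta : a * t * a⁻¹ = z * t := by
    have := C.fr.conj C.adj.aQ (inv_mem ja.aQ)
    rwa [C.co.inv ja.aQ, pa, C.pt, (p_R k hk).1, pow_one, inv_inv, C.sys.az C.adj] at this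
  obtain ⟨n, h⟩ := exists_s3 C.sys C.adj ja.aQ (C.sys.zz ja.aD) ta
  have βt := C.sys.zc C.adj.aD hβ
  obtain ⟨v, b2, vt, va⟩ : ∃ v, 𝐀 v τ ∧ v * t = t * v ∧ v * a = a * v := by
    have e : ∀ {v}, v⁻¹ * a * v = a → v * a = a * v := fun {v} e => by rw [← mul_right_inj v⁻¹, ← mul_assoc v⁻¹ a, e]; group
    rcases C.fr.eq_or ja.aQ (norm_mem b1.1 ja.aQ) (by rw [b1.2 a ja.aQ, pa, f]) with l | l
    · exact ⟨_, b1, comm_mul βt wt, e l⟩
    · refine ⟨_, C.fr.ac_mul b1 C.adj.aQ, comm_mul (comm_mul βt wt) rfl, e ?_⟩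
      rw [show (β * w * t)⁻¹ * a * (β * w * t) = t⁻¹ * ((β * w)⁻¹ * a * (β * w)) * t by group, l,
        C.fr.conj (mul_mem ja.aQ C.lq.mem) C.adj.aQ, C.co.mul _ ja.aQ _ C.lq.mem, C.fr.pz, Nat.xor_zero, pa, C.pt,
        ThR.b8_comm, (p_R k hk).1, pow_one, mul_assoc, C.lq.zz, mul_one]
  obtain ⟨u, hu, ut, -, un⟩ := h.fix C.sys C.adj (C.acH b2) vt va
  have b3 : 𝐀 (u * v) τ := C.co.congr (C.mul (C.self hu) b2) fun c hc => by rw [vm_mm p8, vm_mo p8 hc]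
  replace vt := comm_mul ut vt
  generalize u * v = v at un b3 vt
  have xQ := C.div b3 b1
  have key : ∀ y ∈ Q z, 𝐀 (n * (y⁻¹ * w * y) * n⁻¹)
      (mm 8 τ (pA (π (v⁻¹ * (β * w)) >>> 5 ^^^ (vm 8 (π y) (mm 8 (pA s) τ) ^^^ π y) >>> 5))) := fun y hy => by
    have m := mul_mem (norm_mem b.1 (inv_mem hy)) hy
    have e := C.π_cj b hy _ (inv_mem hy)
    have yt : y⁻¹ * w * y * t = t * (y⁻¹ * w * y) := by
      have : w * (y * t * y⁻¹) = y * t * y⁻¹ * w := by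
        rcases C.sys.cases C.zD hy C.adj.aQ with l | l <;> rw [l]
        exacts [wt, (comm_mul wz.symm wt.symm).symm]
      calc _ = y⁻¹ * (w * (y * t * y⁻¹)) * y := by group
        _ = _ := by rw [this]; group
    have r := C.p_root hk h pa (mul_mem xQ m) (by
      rw [show v⁻¹ * (β * w) * (w⁻¹ * y⁻¹ * w * y) = v⁻¹ * β * (y⁻¹ * w * y) by group]
      exact comm_mul (comm_mul (comm_inv vt) βt) yt)
    rw [C.co.mul _ xQ _ m, e, C.co.inv hy, Nat.shiftRight_xor_distrib] at r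
    have := C.mul (C.self (h.ofQ C.sys (inv_mem hβ))) (C.mul b3 r)
    rw [mo_mm p8 (mm_lt p8 _ _)] at this
    convert this using 1
    rw [← conj_eq_iff.2 un.symm, conj_mul, conj_mul, conj_eq_iff.2 un.symm]
    congr 2; group
  have k1 := key 1 (one_mem _)
  rw [C.co.one, vm_zero, Nat.xor_self, Nat.zero_shiftRight, Nat.xor_zero] at k1
  obtain ⟨c, hc, r⟩ := l _ (by have := C.lt xQ; rw [Nat.shiftRight_eq_div_pow]; omega)
    (C.uniq (C.mul k1 k1) (by rw [conj_mul]; simpa [ww] using C.one) (mm_lt p8 _ _) (mo_lt p8))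
  rw [force_eq, decide_eq_true_iff] at r
  obtain ⟨y, hy, rfl⟩ := C.co.surj c ((by decide : ∀ c ∈ [0, 1, 2, 4, 8, 16, 32, 64, 128], c < 2 ^ 8) c hc)
  exact no (C.sys.cj n (by simpa using C.sys.cj y⁻¹ hw)) (key y hy) r

end Cs

end CF.W4
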