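import Cfsg.Agent.W4.A
import Cfsg.Agent.ThR.Main

/-! The spread configuration: the Thompson group. -/

set_option autoImplicit false
set_option linter.unusedSectionVars false
set_option maxHeartbeats 400000
set_option synthInstance.maxSize 100000
set_option synthInstance.maxHeartbeats 400000

namespace CF.W4
open Cfsg Subgroup CF.Loc CF.Even CF.LX CF.J4 CF.Comp CF.Dce CF.XG Equiv Equiv.Perm
open CF.ThR (q8 b8 P9)

variable {G : Type*} [Group G] [Finite G] {Q : G → Subgroup G} {D : Set G} {z t g h : G} {π : G → ℕ}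
  {c p M N : ℕ} {σ τ : P9}

local notation "𝐀" => J4.Ac 8 (Q z) π

/-- the member of the spread which contains a vector -/
noncomputable def tc (c : ℕ) : ℕ := fld 4 0x5998922995398993996447997699991196935939496995947228999999998711945997497995299236998399996899117969895996989795999999992342341192296997937939965499994885999911397993988949949799995226999965118994499629926998995399379975991190909090909090908070605040302019 c

/-- representatives -/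
noncomputable def tR (i : ℕ) : ℕ := nth 0 [2, 1, 3, 5, 7, 9, 11, 13, 15] i

/-- the generators -/
noncomputable def tM : List ℕ := [fld 64 (A0 6) 1, fld 64 (A0 6) 2, fld 64 (A0 6) 4, fld 64 (A1 6) 1, fld 64 (A1 6) 2,
  fld 64 (A1 6) 4, fld 64 (A2 6) 1, fld 64 (A2 6) 2, fld 64 (A2 6) 4]

/-- words for products of two transpositions -/
def tW : List (List ℕ) := [[], [6, 3], [0, 8, 3, 5, 2, 7, 1], [2, 8, 3, 2, 7, 3, 5], [1, 6, 7, 1, 4, 1, 4],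
  [1, 4, 2, 6, 7, 0, 3, 4], [0, 1, 8, 3, 4, 1, 7, 4], [0, 1, 5, 6, 0, 8, 4]]

/-- the matrix of a word -/
noncomputable def tE (w : List ℕ) : ℕ := List.rec (motive := fun _ => ℕ) (mo 8) (fun x _ r => mm 8 (nth (mo 8) tM x) r) w

/-- the permutation of the spread -/
def tP (M : ℕ) (σ : P9) : Prop := ∀ c < 256, ∀ i : Fin 9, tc c = i → tc (vm 8 c M) = σ i

theorem t_gen : ∀ m ∈ tM, ∀ c < 256, vm 8 (vm 8 c m) m = c ∧ tc (vm 8 c m) = tc (vm 8 (tR (tc c)) m) := by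
  decide +kernel

theorem t_Γ : ∀ c < 256, ((GM 6).testBit c = true ↔ tc c < 9) ∧ (FM0.testBit c = true ↔ c = 0 ∨ tc c = tc 16) ∧
    (tc c < 9 → (ThR.clos tM 4 (2 ^ 16)).testBit c = true) := by decide +kernel

theorem t_R : ∀ i : Fin 9, tR i < 256 ∧ tc (tR i) = i := by decide +kernel

theorem t_W : ∀ i : Fin 8, ∀ j : Fin 9, tc (vm 8 (tR j) (tE (nth [] tW i))) = (swap 0 1 * swap i.castSucc i.succ : P9) j := by
  decide +kernel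

theorem t_p0 : ∀ u < 256, tc u = 0 → ∀ a < 256, tc a = 1 ∧ tc (u ^^^ a) = 8 → ∀ b < 256, tc b = 1 ∧ tc (u ^^^ b) = 7 ∧
    tc (u ^^^ a ^^^ b) = 6 → ∀ c < 256, tc c = 1 ∧ tc (u ^^^ c) = 5 ∧ tc (u ^^^ b ^^^ c) = 4 →
      u = 16 ∧ a = 32 ∧ b = 64 ∧ c = 128 := by decide +kernel

theorem t_p1 : ∀ u < 256, tc u = 1 → ∀ a < 256, tc a = 0 ∧ tc (u ^^^ a) = 2 → ∀ b < 256, tc b = 0 ∧ tc (u ^^^ b) = 3 ∧
    tc (u ^^^ a ^^^ b) = 4 → ∀ c < 256, tc c = 0 ∧ tc (u ^^^ c) = 5 ∧ tc (u ^^^ b ^^^ c) = 7 →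
      u = 1 ∧ a = 2 ∧ b = 4 ∧ c = 8 := by decide +kernel

theorem tP.p0 (r : tP M σ) (e : ∀ i : Fin 9, i ≠ 2 → i ≠ 3 → σ i = i) :
    vm 8 16 M = 16 ∧ vm 8 32 M = 32 ∧ vm 8 64 M = 64 ∧ vm 8 128 M = 128 := by
  have k : ∀ c < 256, ∀ i : Fin 9, i ≠ 2 ∧ i ≠ 3 ∧ tc c = i → tc (vm 8 c M) = i := fun c hc i l =>
    (r c hc i l.2.2).trans (by rw [e i l.1 l.2.1])
  refine t_p0 _ (vm_lt 8 _ _) (k _ ?_ 0 ?_) _ (vm_lt 8 _ _) ⟨k _ ?_ 1 ?_, vm_xor 8 _ _ M ▸ k _ ?_ 8 ?_⟩ _ (vm_lt 8 _ _)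
    ⟨k _ ?_ 1 ?_, vm_xor 8 _ _ M ▸ k _ ?_ 7 ?_, vm_xor 8 16 _ M ▸ vm_xor 8 _ _ M ▸ k _ ?_ 6 ?_⟩ _ (vm_lt 8 _ _)
    ⟨k _ ?_ 1 ?_, vm_xor 8 _ _ M ▸ k _ ?_ 5 ?_, vm_xor 8 16 _ M ▸ vm_xor 8 _ _ M ▸ k _ ?_ 4 ?_⟩ <;> decide +kernel

theorem tP.not_swap (r : tP M (swap 2 3)) : False := by
  obtain ⟨e1, e2, -, e3⟩ := r.p0 fun i => swap_apply_of_ne_of_ne
  have := r (16 ^^^ 32 ^^^ 128) (by decide) 2 (by decide +kernel)
  rw [vm_xor, vm_xor, e1, e2, e3] at this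
  exact absurd this (by decide +kernel)

theorem tP.one (r : tP M 1) : ∀ c < 2 ^ 8, vm 8 c M = c := by
  obtain ⟨e4, e5, e6, e7⟩ := r.p0 fun _ _ _ => rfl
  obtain ⟨e0, e1, e2, e3⟩ : vm 8 1 M = 1 ∧ vm 8 2 M = 2 ∧ vm 8 4 M = 4 ∧ vm 8 8 M = 8 := by
    refine t_p1 _ (vm_lt 8 _ _) (r _ ?_ 1 ?_) _ (vm_lt 8 _ _) ⟨r _ ?_ 0 ?_, vm_xor 8 _ _ M ▸ r _ ?_ 2 ?_⟩ _ (vm_lt 8 _ _)
      ⟨r _ ?_ 0 ?_, vm_xor 8 _ _ M ▸ r _ ?_ 3 ?_, vm_xor 8 1 _ M ▸ vm_xor 8 _ _ M ▸ r _ ?_ 4 ?_⟩ _ (vm_lt 8 _ _)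
      ⟨r _ ?_ 0 ?_, vm_xor 8 _ _ M ▸ r _ ?_ 5 ?_, vm_xor 8 1 _ M ▸ vm_xor 8 _ _ M ▸ r _ ?_ 7 ?_⟩ <;> decide +kernel
  refine xor_ind (vm_zero _ _) (fun i hi => ?_) fun a _ b _ x y => by rw [vm_xor, x, y]
  interval_cases i
  exacts [e0, e1, e2, e3, e4, e5, e6, e7]

theorem alt_le {I : Subgroup P9} (k : ∀ i : Fin 8, swap 0 1 * swap i.castSucc i.succ ∈ I) (σ : P9) :
    (sign σ = 1 → σ ∈ I) ∧ (sign σ = -1 → swap 0 1 * σ ∈ I) := by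
  have m : σ ∈ Submonoid.closure (Set.range fun i : Fin 8 => swap i.castSucc i.succ) :=
    mclosure_swap_castSucc_succ 8 ▸ trivial
  induction m using Submonoid.closure_induction_left with
  | one => exact ⟨fun _ => one_mem _, fun e => absurd e (by decide)⟩
  | mul_left s hs σ _ ih =>
    obtain ⟨i, rfl⟩ := hs
    rw [map_mul, sign_swap i.castSucc_lt_succ.ne]
    refine ⟨fun e => ?_, fun e => mul_assoc _ _ σ ▸ mul_mem (k i) (ih.1 (by simpa using e))⟩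
    have := mul_mem (inv_mem (k i)) (ih.2 (by rwa [neg_one_mul, neg_eq_iff_eq_neg] at e))
    rwa [mul_inv_rev, mul_assoc, inv_mul_cancel_left, swap_inv] at this

variable (Q z π) in
/-- the permutation induced by an element -/
def tH (h : G) (σ : P9) : Prop := ∃ M, J4.Ac 8 (Q z) π h⁻¹ M ∧ tP M σ

namespace Cs
variable (C : Cs Q D z π 6 t)
include C

theorem t_N : ∀ m ∈ tM, gN Q z π m := by
  simp only [tM, List.forall_mem_cons, List.not_mem_nil, false_imp_iff, implies_true, and_true]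
  refine ⟨?_, ?_, ?_, ?_, ?_, ?_, ?_, ?_, ?_⟩ <;>
    first | exact St.A_N (C.f0.A' _ (by decide)) | exact St.A_N (C.f1.A' _ (by decide)) | exact St.A_N (C.f2.A' _ (by decide))

theorem t_E (w : List ℕ) : gN Q z π (tE w) := by
  induction w with
  | nil => exact C.N_one
  | cons x w ih =>
    refine C.N_mul ?_ ih
    rcases nth_mem_or (mo 8) tM x with e | e
    exacts [C.t_N _ e, e.symm ▸ C.N_one]

theorem t_F (hp : p < 256) (l : tc p < 9) : ∀ c < 256, gF Q D z π p c ↔ c = 0 ∨ tc c = tc p := by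
  have st : ∀ m ∈ tM, ∀ p < 256, (∀ c < 256, gF Q D z π p c ↔ c = 0 ∨ tc c = tc p) →
      ∀ c < 256, gF Q D z π (vm 8 p m) c ↔ c = 0 ∨ tc c = tc (vm 8 p m) := fun m hm p hp P c hc => by
    have k : ∀ a < 256, ∀ b < 256, a = 0 ∨ tc a = tc b → vm 8 a m = 0 ∨ tc (vm 8 a m) = tc (vm 8 b m) :=
      fun a ha b hb => Or.imp (fun e => by rw [e, vm_zero]) fun e => by rw [(t_gen m hm a ha).2, e, ← (t_gen m hm b hb).2]
    refine ⟨fun l => ?_, fun l => ?_⟩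
    · have := C.F_act l (C.t_N m hm)
      rw [(t_gen m hm p hp).1, P _ (vm_lt 8 _ _)] at this
      simpa only [(t_gen m hm c hc).1] using k _ (vm_lt 8 _ _) p hp this
    · have := k c hc _ (vm_lt 8 _ _) l
      rw [(t_gen m hm p hp).1, ← P _ (vm_lt 8 _ _)] at this
      exact (t_gen m hm c hc).1 ▸ C.F_act this (C.t_N m hm)
  by_contra n
  exact ThR.reach1 (P := fun p => ¬ ∀ c < 256, gF Q D z π p c ↔ c = 0 ∨ tc c = tc p) (fun m hm p hp a b => a (by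
    have := st m hm _ (vm_lt 8 _ _) b
    rwa [(t_gen m hm p hp).1] at this)) hp ((t_Γ p hp).2.2 l) n fun c hc => (C.f0.F c hc).trans (t_Γ c hc).2.1

theorem t_lt (k : gN Q z π M) (hc : c < 256) (l : tc c < 9) : tc (vm 8 c M) < 9 :=
  (t_Γ _ (vm_lt 8 _ _)).1.1 ((C.Γ _ (vm_lt 8 _ _)).1 (C.Γ_act ((C.Γ c hc).2 ((t_Γ c hc).1.2 l)) k))

theorem t_eq (k : gN Q z π M) (hp : p < 256) (hc : c < 256) (l : tc p < 9) (e : tc c = tc p) :
    tc (vm 8 c M) = tc (vm 8 p M) :=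
  ((C.t_F (vm_lt 8 _ _) (C.t_lt k hp l) _ (vm_lt 8 _ _)).1 (C.F_act ((C.t_F hp l c hc).2 (.inr e)) k)).resolve_left
    fun e' => absurd (e' ▸ C.t_lt k hc (e ▸ l)) (by decide +kernel)

theorem t_of (k : gN Q z π M) (e : ∀ j : Fin 9, tc (vm 8 (tR j) M) = σ j) : tP M σ := fun c hc i l =>
  (C.t_eq k (t_R i).1 hc ((t_R i).2.trans_lt i.2) (l.trans (t_R i).2.symm)).trans (e i)

theorem t_ex (hh : h ∈ 𝐂₁(z)) : ∃ σ, tH Q z π h σ := by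
  obtain ⟨M, -, a⟩ := C.ex_ac (comm_inv (mem_c1.1 hh))
  obtain ⟨N, -, n1, n2, -⟩ := C.N_inv ⟨_, a⟩
  have l : ∀ i : Fin 9, tc (vm 8 (tR i) M) < 9 := fun i => C.t_lt ⟨_, a⟩ (t_R i).1 ((t_R i).2.trans_lt i.2)
  refine ⟨.ofBijective (fun i => ⟨_, l i⟩) (Finite.injective_iff_bijective.1 fun i j e => Fin.ext ?_), M, a,
    C.t_of ⟨_, a⟩ fun _ => rfl⟩
  have := C.t_eq n1 (vm_lt 8 _ _) (vm_lt 8 _ _) (l j) (congrArg Fin.val e)
  rwa [n2 _ (t_R i).1, n2 _ (t_R j).1, (t_R i).2, (t_R j).2] at this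

theorem t_uq (a : tH Q z π h σ) (b : tH Q z π h τ) : σ = τ :=
  let ⟨_, a1, a2⟩ := a; let ⟨_, b1, b2⟩ := b
  Equiv.ext fun i => Fin.ext (by rw [← a2 _ (t_R i).1 i (t_R i).2, C.co.uniq a1 b1 (t_R i).1, b2 _ (t_R i).1 i (t_R i).2])

theorem t_mul (a : tH Q z π g σ) (b : tH Q z π h τ) : tH Q z π (g * h) (σ * τ) :=
  let ⟨_, a1, a2⟩ := a; let ⟨_, b1, b2⟩ := b
  ⟨_, mul_inv_rev g h ▸ C.toSt.mul b1 a1, fun c hc i e => by rw [vm_mm p8]; exact a2 _ (vm_lt 8 _ _) _ (b2 c hc i e)⟩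

theorem t_th : ∃ Φ, ThR.TH (Q z) z Φ := by
  choose! Φ r using fun h => C.t_ex (h := h)
  have hom : HomOn 𝐂₁(z) Φ := fun g a h b => C.t_uq (r _ (mul_mem a b)) (C.t_mul (r g a) (r h b))
  have sur : ∀ σ, sign σ = 1 → ∃ h ∈ 𝐂₁(z), Φ h = σ := fun σ e => hom.mem_im.1 ((alt_le (I := hom.im _ le_rfl) (fun i => by
    obtain ⟨h, a⟩ := C.t_E (nth [] tW i)
    have m := inv_mem (mem_c1.2 (C.acH a))
    exact hom.mem_im.2 ⟨_, m, C.t_uq (r _ m) ⟨_, by rwa [inv_inv], C.t_of ⟨h, a⟩ (t_W i)⟩⟩) σ).1 e)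
  refine ⟨Φ, C.lq, C.sys.card C.zD, hom, fun h hh => (Int.units_eq_one_or _).resolve_right fun e => ?_, sur,
    fun h hh => ⟨fun e => ?_, fun e => C.t_uq (r h hh) ⟨_, C.toSt.self (inv_mem e), fun c hc i l => by
      rwa [vm_mo p8 hc]⟩⟩⟩
  · obtain ⟨g, hg, l⟩ := sur (swap 2 3 * (Φ h)⁻¹) (by rw [map_mul, map_inv, e, sign_swap (by decide)]; rfl)
    obtain ⟨M, -, k⟩ := r _ (mul_mem hg hh)
    rw [hom g hg h hh, l, inv_mul_cancel_right] at k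
    exact k.not_swap
  · obtain ⟨M, a, k⟩ := r h hh
    exact inv_mem_iff.1 (C.mem_of_ac (C.co.congr a fun c hc => by rw [tP.one (e ▸ k) c hc, vm_mo p8 hc]))

/-- the spread configuration -/
theorem pT [IsSimpleGroup G] : Spor.IsoTh G :=
  let ⟨_, h⟩ := C.t_th
  (h.main (ThR.not_isolated (Q := (Q z).subgroupOf 𝐂₁(z))
    ((Nat.card_congr (subgroupOfEquivOfLe C.lq.le_c1).toEquiv).trans h.card))).1

end Cs

end CF.W4
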