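import Cfsg.Agent.WX.Three
import Cfsg.Agent.WX.CoG
import Cfsg.Agent.S0279

/-! Width four, the weakly closed case. -/

set_option autoImplicit false
set_option linter.unusedSectionVars false
set_option maxHeartbeats 400000

namespace CF.W4
open Cfsg Subgroup CF.Loc CF.Even CF.LX CF.WX CF.Fisch CF.Geom.Fi Module QuadraticMap Matrix

variable {G : Type*} [Group G] [Finite G] {D : Set G} {Q : G → Subgroup G} {n : ℕ} {z t x a b c : G}

theorem uni' (hsol : ∀ N : Subgroup G, N.Normal → Group.IsSolvable N → N = ⊥)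
    (hperf : ⁅commutator G, commutator G⁆ = commutator G) (hD : IsThreeTranspositionClass D)
    (hx : x ∈ D) (h : ¬ pCore 2 (Subgroup.closure (Dd D x)) ≤ center (Subgroup.closure (Dd D x)))
    (ha : a ∈ D) (hb : b ∈ D) (hc : c ∈ D) (h1 : ¬ Commute a b) (h2 : ¬ Commute a c) (h3 : ¬ Commute b c)
    (h4 : ¬ Commute (a * b * a) c) :
    ∃ m, 4 ≤ m ∧ ∃ e : G ≃* PSU m K4 2, e '' D = QuotientGroup.mk '' ESU m := by
  obtain ⟨X, _, _, τ, r, hP⟩ := exists_prim (primTT_of_fischer hsol hperf hD)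
  obtain ⟨x, -, rfl⟩ := r.surj hx
  obtain ⟨a, -, rfl⟩ := r.surj ha
  obtain ⟨b, -, rfl⟩ := r.surj hb
  obtain ⟨c, -, rfl⟩ := r.surj hc
  have t := Set.mem_univ (α := X)
  obtain ⟨n, B, φ, k⟩ := (hP.uty ⟨a, t a, b, t b, c, t c, mt (r.cm (t a) (t b)).2 h1, mt (r.cm (t a) (t c)).2 h2,
    mt (r.cm (t b) (t c)).2 h3, mt (r.cm (t _) (t c)).2 (r.op a (t a) b (t b) ▸ h4)⟩ (t x)
      (mt ((r.Yd (t x)).vt_iff_core (hP.loc (t x))).1 h)).exists_UM
  have n4 : 4 ≤ n := by simpa using k.four_le hP.sb hP.wide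
  obtain ⟨k1, ρ, r'⟩ := k.rp_SU hP.sb (n := n) (by simp) n4
  exact ⟨n, n4, r.iso_quot r' hD.2.2 (center_bot_of_sol hsol) k1⟩

theorem gx_iso {X : Subgroup G} (h : GX Q n z t X) :
    ∃ m, 4 ≤ m ∧ ∃ e : X ≃* PSU m K4 2, e '' (X.subtype ⁻¹' conjugatesOf z) = QuotientGroup.mk '' ESU m := by
  obtain ⟨w, hw, v⟩ := h.vt
  obtain ⟨d, c, hd, hc, s1, s2, s3, s4⟩ := h.triple
  exact uni' h.sol (by rw [h.pf]; exact h.pf) h.cls (x := ⟨w, h.mX hw⟩) hw v (a := ⟨z, h.mX (IsConj.refl z)⟩)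
    (b := ⟨d, h.mX hd⟩) (c := ⟨c, h.mX hc⟩) (IsConj.refl z) hd hc (mt (·.map X.subtype) s1) (mt (·.map X.subtype) s2)
    (mt (·.map X.subtype) s3) (mt (·.map X.subtype) s4)

/-- the matrix with a given code -/
def um (c : ℕ) : Matrix (Fin 7) (Fin 7) K4 := of fun i j =>
  match (c >>> (2 * (7 * i.1 + j.1))) % 4 with
  | 0 => .o
  | 1 => .e
  | 2 => .w
  | _ => .v

theorem ex_su {A : Matrix (Fin 7) (Fin 7) K4} (h1 : A ^ 22 = 1) (h2 : (A.map Geom.Fi.cj)ᵀ * A = 1) :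
    ∃ x : SU 7 K4 2, x.1.1 = A := by
  refine ⟨⟨⟨A, (by decide : ∀ a : K4, a ^ 22 = 1 → a = 1) _ (by rw [← det_pow, h1, det_one])⟩, fun u v => ?_⟩, rfl⟩
  have h3 : ∀ x y : Fin 7 → K4, hermForm 7 K4 2 x y = (Geom.Fi.cj ∘ y) ⬝ᵥ x := fun x y => by
    simp [hermForm, dotProduct, cj_eq_sq, mul_comm]
  show hermForm 7 K4 2 (A *ᵥ u) (A *ᵥ v) = _
  rw [h3, h3, show Geom.Fi.cj ∘ (A *ᵥ v) = A.map Geom.Fi.cj *ᵥ (Geom.Fi.cj ∘ v) from funext (RingHom.map_mulVec _ A v),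
    ← vecMul_transpose, ← dotProduct_mulVec, mulVec_mulVec, h2, one_mulVec]

theorem ex_eleven : ∃ u ∈ ESU 7, ∃ x : SU 7 K4 2, x * u = u * x ∧ orderOf (x : PSU 7 K4 2) = 11 := by
  have p : um 0x1f00b803d030010000010001 ^ 11 = 1 := by
    have e2 : um 0x1f00b803d030010000010001 * um 0x1f00b803d030010000010001 = um 0x3bd0a581ab006401f00010001 := by
      decide +kernel
    have e3 : um 0x3bd0a581ab006401f00010001 * um 0x1f00b803d030010000010001 = um 0x1a60bbc37e05f43bd00010001 := by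
      decide +kernel
    have e5 : um 0x3bd0a581ab006401f00010001 * um 0x1a60bbc37e05f43bd00010001 = um 0x297096c3b909542fe00010001 := by
      decide +kernel
    have e10 : um 0x297096c3b909542fe00010001 * um 0x297096c3b909542fe00010001 = um 0x100201e00a802d000010001 := by
      decide +kernel
    rw [show 11 = (2 + (2 + 1)) * 2 + 1 from rfl, pow_succ, pow_mul, pow_add, pow_succ _ 2, pow_two (um _), e2, e3, e5,
      pow_two, e10]
    decide +kernel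
  obtain ⟨x, hx⟩ := ex_su (A := um 0x1f00b803d030010000010001) (by rw [show 22 = 11 * 2 from rfl, pow_mul, p, one_pow])
    (by decide +kernel)
  obtain ⟨u, hu⟩ := ex_su (A := um 0x1000100010001000100004004) (by
    rw [show 22 = 2 * 11 from rfl, pow_mul, pow_two, show um 0x1000100010001000100004004 * um 0x1000100010001000100004004 = 1 by decide +kernel, one_pow]) (by decide +kernel)
  refine ⟨u, ?_, x, Subtype.ext (Subtype.ext ?_), ?_⟩
  · show (u.1.1 - 1).rank = 1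
    rw [hu]
    refine le_antisymm ((show um 0x1000100010001000100004004 - 1 = vecMulVec ![1, 1, 0, 0, 0, 0, 0] ![1, 1, 0, 0, 0, 0, 0] by
      decide +kernel) ▸ rank_vecMulVec_le _ _) (Nat.pos_of_ne_zero fun e => ?_)
    exact absurd (LinearMap.congr_fun (LinearMap.range_eq_bot.1 (Submodule.finrank_eq_zero.1 e)) ![1, 0, 0, 0, 0, 0, 0])
      (by decide +kernel)
  · show x.1.1 * u.1.1 = u.1.1 * x.1.1
    rw [hx, hu]; decide +kernel
  · haveI : Fact (Nat.Prime 11) := ⟨by norm_num⟩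
    refine orderOf_eq_prime ?_ fun e => ?_
    · rw [← QuotientGroup.mk_pow, show x ^ 11 = 1 from Subtype.ext (Subtype.ext (hx ▸ p :)), QuotientGroup.mk_one]
    · rw [QuotientGroup.eq_one_iff, show center (SU 7 K4 2) = ⊥ from
        Subgroup.eq_bot_of_card_eq _ (Cfsg.Agent.S0279.result rfl 7 (by norm_num)),
        mem_bot] at e
      exact absurd (e ▸ hx : (1 : Matrix _ _ K4) = _) (by decide +kernel)

theorem c_dvd {P : Subgroup G} (l : LQ P z) (c : Nat.card P = 2 ^ 9) : ¬ 2 ^ 23 ∣ Nat.card G ∧ ¬ 11 ∣ Nat.card 𝐂₁(z) := by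
  have : Fact (Nat.Prime 2) := ⟨Nat.prime_two⟩
  obtain ⟨M⟩ := exists_md l (r := 8) c
  have nd : (polarBilin M.form).Nondegenerate := M.polar_form ▸ M.nondeg
  have k : ∀ m, m = 2 ^ 23 ∨ m = 11 → ¬ m ∣ Nat.card 𝐂₁(z) := fun m hm a => by
    replace a := a.trans M.card_dvd
    by_cases p : Geom.IsPlus M.form
    · rw [c, Geom.card_OG_plus nd p (m := 3) (by simp), Nat.card_zmod] at a
      rcases hm with rfl | rfl <;> exact absurd a (by decide +kernel)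
    · rw [c, Geom.card_OG_minus nd p (m := 3) (by simp), Nat.card_zmod] at a
      rcases hm with rfl | rfl <;> exact absurd a (by decide +kernel)
  refine ⟨fun h => k _ (.inl rfl) ?_, k _ (.inr rfl)⟩
  obtain ⟨T, hT⟩ := exists_isSyl 2 𝐂₁(z)
  obtain ⟨R, hR⟩ := Sylow.exists_subgroup_card_pow_prime 2 h
  exact (hR ▸ (l.isSyl_top hT).card_dvd (IsPGroup.of_card hR) le_top).trans (card_dvd_of_le hT.1)

theorem ti_dvd (h : TI D Q n z t) : 4 * Nat.card (Q z) ∣ Nat.card G := by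
  have : Fact (Nat.Prime 2) := ⟨Nat.prime_two⟩
  obtain ⟨M⟩ := h.md h.hz
  obtain ⟨v, v0⟩ := h.exT M
  obtain ⟨u, u0, uv⟩ := h.L2 M v0
  obtain ⟨w, w1, w2⟩ : ∃ w, M.T t w = 0 ∧ ∀ u, M.T t u ≠ w := by
    by_contra! o
    exact h.small h.hz M (M.T t) o (l := [0, M.T t v, M.T t u, M.T t v + M.T t u]) le_rfl fun x => by
      obtain ⟨α, β, e⟩ := h.L4 M v0 u0 uv x
      rcases zmod_two_cases α with rfl | rfl <;> rcases zmod_two_cases β with rfl | rfl <;> simp [e]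
  obtain ⟨b, b1, b2, x, e⟩ := h.surj M v0 w1
  have n1 : b ∉ Q z := fun k => w2 x (by rw [M.T0 k, eq_comm, WX.add_eq_zero'] at e; exact e.symm)
  have n2 : b * t ∉ Q z := fun k => w2 (v + x) (by
    rw [map_add, ← M.TQl k h.tz v, mul_assoc, h.sq h.ht, mul_one, e, add_assoc, ZModModule.add_self, add_zero])
  have le : Q t ⊓ 𝐂₁(z) ≤ 𝐍(Q z) := inf_le_right.trans h.l.nor
  have p := h.l.isPGroup.to_sup_of_normal_left' (h.r.isPGroup.to_inf_left (K := 𝐂₁(z))) le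
  refine Dvd.dvd.trans ?_ (card_subgroup_dvd_card (Q z ⊔ Q t ⊓ 𝐂₁(z)))
  rw [← card_mul_relIndex (le_sup_left : Q z ≤ Q z ⊔ Q t ⊓ 𝐂₁(z)), mul_comm]
  refine Nat.mul_dvd_mul_left _ ?_
  obtain ⟨k, hk⟩ := p.index ((Q z).subgroupOf _)
  have mt : t ∈ Q z ⊔ Q t ⊓ 𝐂₁(z) := mem_sup_right ⟨h.r.mem, mem_c1.2 h.tz⟩
  have mb : b ∈ Q z ⊔ Q t ⊓ 𝐂₁(z) := mem_sup_right ⟨b1, mem_c1.2 b2⟩
  rcases k with _ | _ | k
  · exact absurd (relIndex_eq_one.1 hk mt) h.tQ
  · exact absurd ((mul_mem_iff_of_index_two hk (a := ⟨b, mb⟩) (b := ⟨t, mt⟩)).2 (iff_of_false n1 h.tQ)) n2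
  · exact (Nat.pow_dvd_pow 2 (show 2 ≤ k + 1 + 1 by omega)).trans hk.symm.dvd

/-- width four, weakly closed, simple -/
theorem pW [IsSimpleGroup G] {P : Subgroup G} (l : LQ P z) (c : Nat.card P = 2 ^ 9)
    (w : ∀ g, g * z * g⁻¹ ∈ P → g * z * g⁻¹ = z) (O2 : 𝐎[2](𝐂₁(z)) ≤ P) :
    Nonempty (G ≃* PSU 6 K4 2) ∨ Spor.IsoCo2 G := by
  have O := CF.Char.oddCore_eq_bot_of_simple (G := G) (even_iff_two_dvd.2 ((dvd_pow_self 2 (by decide)).trans
    (c ▸ P.card_subgroup_dvd_card)))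
  have hz : z ∉ center G := fun k => by
    have e := (Normal.eq_bot_or_eq_top (inferInstance : (center G).Normal)).resolve_left fun e =>
      l.z_ne (mem_bot.1 (e.le k))
    obtain ⟨x, x1, x2, x3⟩ := l.exists_not_mem
    exact l.not_cent x1 x2 x3 fun y _ => mem_center_iff.1 (e.ge (mem_top x)) y
  obtain ⟨Q, t, rfl, k⟩ := exists_cp (n := 4) l c (by decide) w O hz
  by_cases N : NA (conjugatesOf z) Q 4
  swap
  · obtain ⟨-, f, sj, k⟩ := sp6 k O2 N
    have e := le_antisymm l.le_core O2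
    rw [e] at l c k
    exact .inr (conway l O hz c f sj k).2
  have h := UN.gx ⟨k.toWC, N⟩ k O O2
  obtain ⟨m, m4, e, he⟩ := gx_iso h
  have e' := ((MulEquiv.subgroupCongr ((h.nX.eq_bot_or_eq_top).resolve_left fun e =>
    l.z_ne (mem_bot.1 (e.le (h.mX (IsConj.refl z)))))).trans topEquiv).symm.trans e
  obtain ⟨a, b⟩ := c_dvd l c
  have d := ti_dvd (N.ti k)
  rw [c, show 4 * 2 ^ 9 = 2 ^ 11 from rfl] at d
  rw [Nat.card_congr e'.toEquiv, psu_two m4] at a d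
  have : m < 8 := lt_of_not_ge fun l => by
    have := Nat.mul_le_mul l (Nat.sub_le_sub_right l 1)
    omega
  interval_cases m
  · omega
  · omega
  · exact .inl ⟨e'⟩
  obtain ⟨u, hu, x, xu, o⟩ := ex_eleven
  obtain ⟨d, hd, ed⟩ := he.ge ⟨u, hu, rfl⟩
  obtain ⟨g, eg⟩ := isConj_iff.1 (show IsConj z d from hd)
  refine (b ?_).elim
  rw [← card_cj g, cj_centralizer_singleton, eg, ← o, ← e.symm.orderOf_eq, ← orderOf_coe]
  refine orderOf_dvd_natCard _ (mem_c1.2 (congrArg Subtype.val (e.injective (a₁ := e.symm x * d) (a₂ := d * e.symm x) ?_)))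
  rw [map_mul, map_mul, ed, e.apply_symm_apply, ← QuotientGroup.mk_mul, xu, QuotientGroup.mk_mul]

end CF.W4
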